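import Mathlib
import Cfsg.Agent.Lib.Core.Factor

/-!
# Commuting pairs and the number of conjugacy classes
-/

set_option autoImplicit false

namespace Cfsg.Agent.Lib.ClassSizes

open Subgroup

variable {X : Type*} [Group X] [Finite X]

/-- `k(X) · |X|` is the sum of the centralizer orders. -/
theorem card_conjClasses_mul_card_eq_sum (X : Type*) [Group X] [Fintype X] :
    Nat.card (ConjClasses X) * Nat.card X = ∑ a : X, Nat.card (centralizer ({a} : Set X)) := by
  classical
  rw [← card_comm_eq_card_conjClasses_mul_card]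
  have e : {p : X × X // Commute p.1 p.2} ≃ Σ a : X, centralizer ({a} : Set X) :=
    { toFun := fun p => ⟨p.1.1, ⟨p.1.2, Subgroup.mem_centralizer_singleton_iff.mpr p.2.symm.eq⟩⟩
      invFun := fun q => ⟨(q.1, q.2.1), (show Commute q.2.1 q.1 from
        Subgroup.mem_centralizer_singleton_iff.mp q.2.2).symm⟩
      left_inv := fun p => rfl
      right_inv := fun q => rfl }
  rw [Nat.card_congr e, Nat.card_sigma]

/-- The order of a centralizer in `Y`, expressed in the ambient group. -/
theorem card_centralizer_subgroup (Y : Subgroup X) (y : Y) :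
    Nat.card (centralizer ({y} : Set Y)) = Nat.card (centralizer ({(y : X)} : Set X) ⊓ Y : Subgroup X) := by
  have e : centralizer ({y} : Set Y) ≃ (centralizer ({(y : X)} : Set X) ⊓ Y : Subgroup X) :=
    { toFun := fun a => ⟨a.1.1, Subgroup.mem_centralizer_singleton_iff.mpr
        (congrArg Subtype.val (Subgroup.mem_centralizer_singleton_iff.mp a.2)), a.1.2⟩
      invFun := fun b => ⟨⟨b.1, b.2.2⟩, Subgroup.mem_centralizer_singleton_iff.mpr
        (Subtype.ext (Subgroup.mem_centralizer_singleton_iff.mp b.2.1))⟩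
      left_inv := fun a => rfl
      right_inv := fun b => rfl }
  exact Nat.card_congr e

theorem card_inf_mul_relIndex (H K : Subgroup X) : Nat.card (H ⊓ K : Subgroup X) * H.relIndex K = Nat.card K := by
  have := Subgroup.relIndex_mul_relIndex (⊥ : Subgroup X) (H ⊓ K) K bot_le inf_le_right
  rwa [Subgroup.relIndex_bot_left, Subgroup.relIndex_bot_left, Subgroup.inf_relIndex_right] at this

/-- `|C_X(x)| ≤ m |C_X(x) ∩ Y|`, with `m = [X : Y]`. -/
theorem card_centralizer_le (Y : Subgroup X) (x : X) :
    Nat.card (centralizer ({x} : Set X)) ≤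
      Y.index * Nat.card (centralizer ({x} : Set X) ⊓ Y : Subgroup X) := by
  set C := centralizer ({x} : Set X) with hC
  have h1 := card_inf_mul_relIndex Y C
  rw [inf_comm] at h1
  rw [← h1, mul_comm]
  apply Nat.mul_le_mul_right
  rw [← Subgroup.relIndex_top_right Y]
  exact Subgroup.relIndex_le_of_le_right le_top (by
    rw [Subgroup.relIndex_top_right]
    exact Subgroup.index_ne_zero_of_finite)

/-- If `|C_X(y)| = m |C_Y(y)|` for `y ∈ Y` then all `X`-conjugates of `y` are `Y`-conjugates. -/
theorem conj_mem_of_card_centralizer_eq (Y : Subgroup X) {y : X} (hy : y ∈ Y)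
    (h : Nat.card (centralizer ({y} : Set X)) =
      Y.index * Nat.card (centralizer ({y} : Set X) ⊓ Y : Subgroup X)) (g : X) : g * y * g⁻¹ ∈ Y := by
  set C := centralizer ({y} : Set X) with hC
  have h1 := card_inf_mul_relIndex Y C
  rw [inf_comm] at h1
  rw [← h1, mul_comm] at h
  have hpos : 0 < Nat.card (C ⊓ Y : Subgroup X) := Nat.card_pos
  have h2 : Y.relIndex C = Y.index := Nat.eq_of_mul_eq_mul_right hpos h
  obtain ⟨a, ha, b, hb, rfl⟩ := Cfsg.Agent.Lib.Core.exists_mul_of_relIndex_eq Y C h2 g
  have hby : b * y = y * b := Subgroup.mem_centralizer_singleton_iff.mp hb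
  have h3 : a * b * y * (a * b)⁻¹ = a * y * a⁻¹ := by
    calc a * b * y * (a * b)⁻¹ = a * (b * y) * b⁻¹ * a⁻¹ := by group
      _ = a * y * a⁻¹ := by rw [hby]; group
  rw [h3]
  exact Y.mul_mem (Y.mul_mem ha hy) (Y.inv_mem ha)

/-- Double counting of commuting pairs in `X × Y`. -/
theorem sum_card_inf_eq_sum_card (Y : Subgroup X) [Fintype X] [Fintype Y] :
    ∑ x : X, Nat.card (centralizer ({x} : Set X) ⊓ Y : Subgroup X) =
      ∑ y : Y, Nat.card (centralizer ({(y : X)} : Set X)) := by
  classical
  have h1 : ∀ x : X, Nat.card (centralizer ({x} : Set X) ⊓ Y : Subgroup X) =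
      ∑ y : Y, if (x * y = y * x) then 1 else 0 := by
    intro x
    rw [Finset.sum_boole, Nat.cast_id, Nat.card_eq_fintype_card, ← Fintype.card_subtype]
    apply Fintype.card_congr
    exact
      { toFun := fun a => ⟨⟨a.1, a.2.2⟩, (Subgroup.mem_centralizer_singleton_iff.mp a.2.1).symm⟩
        invFun := fun b => ⟨b.1.1, Subgroup.mem_centralizer_singleton_iff.mpr b.2.symm, b.1.2⟩
        left_inv := fun a => rfl
        right_inv := fun b => rfl }
  have h2 : ∀ y : Y, Nat.card (centralizer ({(y : X)} : Set X)) =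
      ∑ x : X, if (x * y = y * x) then 1 else 0 := by
    intro y
    rw [Finset.sum_boole, Nat.cast_id, Nat.card_eq_fintype_card, ← Fintype.card_subtype]
    apply Fintype.card_congr
    exact
      { toFun := fun a => ⟨a.1, Subgroup.mem_centralizer_singleton_iff.mp a.2⟩
        invFun := fun b => ⟨b.1, Subgroup.mem_centralizer_singleton_iff.mpr b.2⟩
        left_inv := fun a => rfl
        right_inv := fun b => rfl }
  simp only [h1, h2]
  exact Finset.sum_comm

/-- **S4200**: class numbers of a subgroup of index `m`. -/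
theorem card_conjClasses_subgroup (Y : Subgroup X) :
    Nat.card (ConjClasses Y) ≤ Y.index * Nat.card (ConjClasses X) ∧
      Nat.card (ConjClasses X) ≤ Y.index * Nat.card (ConjClasses Y) ∧
      (¬ Y.Normal → Nat.card (ConjClasses X) < Y.index * Nat.card (ConjClasses Y)) := by
  classical
  have : Fintype X := Fintype.ofFinite X
  have : Fintype Y := Fintype.ofFinite Y
  have hm := Subgroup.card_mul_index Y
  have hX := card_conjClasses_mul_card_eq_sum X
  have hY := card_conjClasses_mul_card_eq_sum Y
  set m := Y.index with hmdef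
  have hm0 : 0 < m := Nat.pos_of_ne_zero Subgroup.index_ne_zero_of_finite
  have hY0 : 0 < Nat.card Y := Nat.card_pos
  have hY2 : ∀ y : Y, Nat.card (centralizer ({y} : Set Y)) =
      Nat.card (centralizer ({(y : X)} : Set X) ⊓ Y : Subgroup X) := card_centralizer_subgroup Y
  -- first inequality
  have hle1 : Nat.card (ConjClasses Y) * Nat.card Y ≤ Nat.card (ConjClasses X) * Nat.card X := by
    rw [hX, hY]
    calc ∑ y : Y, Nat.card (centralizer ({y} : Set Y))
        ≤ ∑ y : Y, Nat.card (centralizer ({(y : X)} : Set X)) := by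
          refine Finset.sum_le_sum fun y _ => ?_
          rw [hY2]
          exact Nat.card_mono (Set.toFinite _) (fun a ha => ha.1)
      _ = ∑ x ∈ Finset.univ.image (fun y : Y => (y : X)), Nat.card (centralizer ({x} : Set X)) := by
          rw [Finset.sum_image (fun a _ b _ h => Subtype.ext h)]
      _ ≤ ∑ x : X, Nat.card (centralizer ({x} : Set X)) :=
          Finset.sum_le_sum_of_subset (Finset.subset_univ _)
  -- the chain
  have hle2 : ∑ x : X, Nat.card (centralizer ({x} : Set X)) ≤
      m * ∑ x : X, Nat.card (centralizer ({x} : Set X) ⊓ Y : Subgroup X) := by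
    rw [Finset.mul_sum]
    exact Finset.sum_le_sum fun x _ => card_centralizer_le Y x
  have hle3 : ∀ y : Y, Nat.card (centralizer ({(y : X)} : Set X)) ≤
      m * Nat.card (centralizer ({y} : Set Y)) := by
    intro y
    rw [hY2]
    exact card_centralizer_le Y y
  rw [sum_card_inf_eq_sum_card Y] at hle2
  have hcancel : ∀ a b : ℕ, a * Nat.card X = b * m * Nat.card X → a = b * m := by
    intro a b h
    exact Nat.eq_of_mul_eq_mul_right (by rw [← hm]; positivity) h
  refine ⟨?_, ?_, ?_⟩
  · rw [← hm] at hle1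
    have h1 : Nat.card (ConjClasses Y) * Nat.card Y ≤ m * Nat.card (ConjClasses X) * Nat.card Y := by
      calc _ ≤ _ := hle1
        _ = _ := by ring
    exact Nat.le_of_mul_le_mul_right h1 hY0
  · have h1 : ∑ y : Y, Nat.card (centralizer ({(y : X)} : Set X)) ≤
        m * ∑ y : Y, Nat.card (centralizer ({y} : Set Y)) := by
      rw [Finset.mul_sum]
      exact Finset.sum_le_sum fun y _ => hle3 y
    have h2 : Nat.card (ConjClasses X) * (Nat.card Y * m) ≤
        m * (m * Nat.card (ConjClasses Y)) * Nat.card Y := by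
      rw [hm, hX]
      calc _ ≤ m * ∑ y : Y, Nat.card (centralizer ({(y : X)} : Set X)) := hle2
        _ ≤ m * (m * ∑ y : Y, Nat.card (centralizer ({y} : Set Y))) := Nat.mul_le_mul_left _ h1
        _ = _ := by rw [← hY]; ring
    have h3 : (Nat.card (ConjClasses X)) * (Nat.card Y * m) ≤ (m * Nat.card (ConjClasses Y)) * (Nat.card Y * m) := by
      calc _ ≤ _ := h2
        _ = _ := by ring
    exact Nat.le_of_mul_le_mul_right h3 (by positivity)
  · intro hN
    -- a strict inequality somewhere
    have hstrict : ∃ y : Y, Nat.card (centralizer ({(y : X)} : Set X)) <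
        m * Nat.card (centralizer ({y} : Set Y)) := by
      by_contra hcon
      push Not at hcon
      apply hN
      refine ⟨fun y hy g => ?_⟩
      apply conj_mem_of_card_centralizer_eq Y hy
      have h1 := hcon ⟨y, hy⟩
      have h2 := hle3 ⟨y, hy⟩
      have h3 := le_antisymm h2 h1
      rw [hY2] at h3
      exact h3
    obtain ⟨y₀, hy₀⟩ := hstrict
    have h1 : ∑ y : Y, Nat.card (centralizer ({(y : X)} : Set X)) <
        m * ∑ y : Y, Nat.card (centralizer ({y} : Set Y)) := by
      rw [Finset.mul_sum]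
      exact Finset.sum_lt_sum (fun y _ => hle3 y) ⟨y₀, Finset.mem_univ _, hy₀⟩
    have h2 : Nat.card (ConjClasses X) * (Nat.card Y * m) <
        m * (m * Nat.card (ConjClasses Y)) * Nat.card Y := by
      rw [hm, hX]
      calc _ ≤ m * ∑ y : Y, Nat.card (centralizer ({(y : X)} : Set X)) := hle2
        _ < m * (m * ∑ y : Y, Nat.card (centralizer ({y} : Set Y))) := Nat.mul_lt_mul_of_pos_left h1 hm0
        _ = _ := by rw [← hY]; ring
    have h3 : (Nat.card (ConjClasses X)) * (Nat.card Y * m) < (m * Nat.card (ConjClasses Y)) * (Nat.card Y * m) := by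
      calc _ < _ := h2
        _ = _ := by ring
    exact Nat.lt_of_mul_lt_mul_right h3

/-- The elements of a coset of `N` commuting with `x`: at most `|C_N(x)|`. -/
theorem card_filter_coset_le (N : Subgroup X) [N.Normal] [Fintype X] [DecidableEq X] [DecidableEq (X ⧸ N)] (x : X) (β : X ⧸ N) :
    (Finset.univ.filter (fun y : X => (y : X ⧸ N) = β ∧ x * y = y * x)).card ≤
      Nat.card (centralizer ({x} : Set X) ⊓ N : Subgroup X) := by
  classical
  by_cases hne : (Finset.univ.filter (fun y : X => (y : X ⧸ N) = β ∧ x * y = y * x)).Nonempty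
  swap
  · rw [Finset.not_nonempty_iff_eq_empty.mp hne]
    simp
  obtain ⟨y₀, hy₀⟩ := hne
  obtain ⟨-, hy₁, hy₂⟩ := Finset.mem_filter.mp hy₀
  rw [← Fintype.card_subtype, ← Nat.card_eq_fintype_card]
  have hf : ∀ y : {y : X // (y : X ⧸ N) = β ∧ x * y = y * x},
      y₀⁻¹ * y.1 ∈ (centralizer ({x} : Set X) ⊓ N : Subgroup X) := by
    rintro ⟨y, h1, h2⟩
    refine ⟨?_, ?_⟩
    · change y₀⁻¹ * y ∈ centralizer ({x} : Set X)
      rw [Subgroup.mem_centralizer_singleton_iff]
      have h3 : (y₀⁻¹ * y) * x = y₀⁻¹ * (y * x) := by group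
      rw [h3, ← h2]
      have h4 : x * y₀⁻¹ = y₀⁻¹ * x := (show Commute x y₀ from hy₂).inv_right.eq
      calc y₀⁻¹ * (x * y) = (y₀⁻¹ * x) * y := by group
        _ = (x * y₀⁻¹) * y := by rw [h4]
        _ = x * (y₀⁻¹ * y) := by group
    · have h5 : ((y₀ : X) : X ⧸ N) = (y : X ⧸ N) := hy₁.trans h1.symm
      exact QuotientGroup.eq.mp h5
  apply Nat.card_le_card_of_injective (fun y => (⟨y₀⁻¹ * y.1, hf y⟩ : (centralizer ({x} : Set X) ⊓ N : Subgroup X)))
  intro a b hab
  have h6 : y₀⁻¹ * a.1 = y₀⁻¹ * b.1 := congrArg Subtype.val hab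
  exact Subtype.ext (mul_left_cancel h6)

/-- **Gallagher**: `k(X) ≤ k(N) k(X / N)`. -/
theorem card_conjClasses_le_mul (N : Subgroup X) [N.Normal] :
    Nat.card (ConjClasses X) ≤ Nat.card (ConjClasses N) * Nat.card (ConjClasses (X ⧸ N)) := by
  classical
  have : Fintype X := Fintype.ofFinite X
  have : Fintype N := Fintype.ofFinite N
  have : Fintype (X ⧸ N) := Fintype.ofFinite _
  let S : Finset (X × X) := Finset.univ.filter (fun p => p.1 * p.2 = p.2 * p.1)
  let T : Finset ((X ⧸ N) × (X ⧸ N)) := Finset.univ.filter (fun p => p.1 * p.2 = p.2 * p.1)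
  let f : X × X → (X ⧸ N) × (X ⧸ N) := fun p => ((p.1 : X ⧸ N), (p.2 : X ⧸ N))
  have hmaps : ∀ p ∈ S, f p ∈ T := by
    intro p hp
    have h1 : p.1 * p.2 = p.2 * p.1 := (Finset.mem_filter.mp hp).2
    refine Finset.mem_filter.mpr ⟨Finset.mem_univ _, ?_⟩
    change (p.1 : X ⧸ N) * (p.2 : X ⧸ N) = (p.2 : X ⧸ N) * (p.1 : X ⧸ N)
    rw [← QuotientGroup.mk_mul, ← QuotientGroup.mk_mul, h1]
  have hSc : S.card = Nat.card (ConjClasses X) * Nat.card X := by
    rw [← card_comm_eq_card_conjClasses_mul_card, Nat.card_eq_fintype_card, Fintype.card_subtype]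
    apply congrArg Finset.card
    ext p
    simp only [S, Finset.mem_filter, Finset.mem_univ, true_and]
    exact Iff.rfl
  have hTc : T.card = Nat.card (ConjClasses (X ⧸ N)) * Nat.card (X ⧸ N) := by
    rw [← card_comm_eq_card_conjClasses_mul_card, Nat.card_eq_fintype_card, Fintype.card_subtype]
    apply congrArg Finset.card
    ext p
    simp only [T, Finset.mem_filter, Finset.mem_univ, true_and]
    exact Iff.rfl
  -- the centralizer order in `N` as a sum
  have hcen : ∀ x : X, Nat.card (centralizer ({x} : Set X) ⊓ N : Subgroup X) =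
      ∑ w : N, if (x * w = w * x) then 1 else 0 := by
    intro x
    rw [Finset.sum_boole, Nat.cast_id, Nat.card_eq_fintype_card, ← Fintype.card_subtype]
    apply Fintype.card_congr
    exact
      { toFun := fun a => ⟨⟨a.1, a.2.2⟩, (Subgroup.mem_centralizer_singleton_iff.mp a.2.1).symm⟩
        invFun := fun b => ⟨b.1.1, Subgroup.mem_centralizer_singleton_iff.mpr b.2.symm, b.1.2⟩
        left_inv := fun a => rfl
        right_inv := fun b => rfl }
  have hfiber : ∀ t ∈ T, (S.filter (fun p => f p = t)).card ≤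
      Nat.card (ConjClasses N) * Nat.card N := by
    rintro ⟨α, β⟩ -
    rw [card_conjClasses_mul_card_eq_sum N]
    have h1 : (S.filter (fun p => f p = (α, β))).card =
        ∑ x : X, if (x : X ⧸ N) = α then
          (Finset.univ.filter (fun y : X => (y : X ⧸ N) = β ∧ x * y = y * x)).card else 0 := by
      rw [Finset.card_filter, Finset.sum_filter, Fintype.sum_prod_type]
      refine Finset.sum_congr rfl fun x _ => ?_
      by_cases hx : (x : X ⧸ N) = α
      · rw [if_pos hx, Finset.card_filter]
        refine Finset.sum_congr rfl fun y _ => ?_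
        by_cases hy : (y : X ⧸ N) = β
        · by_cases hc : x * y = y * x
          · simp [f, hx, hy, hc]
          · simp [hc]
        · have : f (x, y) ≠ (α, β) := fun h => hy (congrArg Prod.snd h)
          simp [hy, this]
      · rw [if_neg hx]
        refine Finset.sum_eq_zero fun y _ => ?_
        have : f (x, y) ≠ (α, β) := fun h => hx (congrArg Prod.fst h)
        simp [this]
    rw [h1]
    calc ∑ x : X, (if (x : X ⧸ N) = α then
          (Finset.univ.filter (fun y : X => (y : X ⧸ N) = β ∧ x * y = y * x)).card else 0)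
        ≤ ∑ x : X, if (x : X ⧸ N) = α then
            ∑ w : N, (if (x * w = w * x) then 1 else 0) else 0 := by
          refine Finset.sum_le_sum fun x _ => ?_
          split_ifs
          · rw [← hcen]
            exact card_filter_coset_le N x β
          · exact le_rfl
      _ = ∑ w : N, ∑ x : X, if ((x : X ⧸ N) = α ∧ (w : X) * x = x * w) then 1 else 0 := by
          rw [Finset.sum_comm]
          refine Finset.sum_congr rfl fun x _ => ?_
          by_cases hx : (x : X ⧸ N) = α
          · simp only [if_pos hx, hx, true_and]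
            refine Finset.sum_congr rfl fun w _ => ?_
            exact if_congr ⟨fun h => h.symm, fun h => h.symm⟩ rfl rfl
          · simp [hx]
      _ ≤ ∑ w : N, Nat.card (centralizer ({w} : Set N)) := by
          refine Finset.sum_le_sum fun w _ => ?_
          rw [← Finset.card_filter, card_centralizer_subgroup N w]
          exact card_filter_coset_le N (w : X) α
  have h2 := Finset.card_le_mul_card_image_of_maps_to hmaps _ hfiber
  rw [hSc, hTc] at h2
  have hX : Nat.card X = Nat.card N * Nat.card (X ⧸ N) := by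
    rw [mul_comm]
    exact Subgroup.card_eq_card_quotient_mul_card_subgroup N
  rw [hX] at h2
  have hpos : 0 < Nat.card N * Nat.card (X ⧸ N) := by
    have h3 : 0 < Nat.card N := Nat.card_pos
    have h4 : 0 < Nat.card (X ⧸ N) := Nat.card_pos
    positivity
  have h5 : Nat.card (ConjClasses X) * (Nat.card N * Nat.card (X ⧸ N)) ≤
      (Nat.card (ConjClasses N) * Nat.card (ConjClasses (X ⧸ N))) * (Nat.card N * Nat.card (X ⧸ N)) := by
    calc _ ≤ _ := h2
      _ = _ := by ring
  exact Nat.le_of_mul_le_mul_right h5 hpos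

end Cfsg.Agent.Lib.ClassSizes
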