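import Mathlib
import Cfsg.Agent.Lib.Transfer.Frat
import Cfsg.Agent.Lib.Coprime.Elem
import Cfsg.Agent.Lib.Frobenius.Quaternion
import Cfsg.Agent.Lib.Hall.CoprimeAction
import Cfsg.Agent.Lib.Hall.CoprimeLemmas

set_option autoImplicit false

namespace Cfsg.Agent.Lib.ClassSizes.Dedekind

open Subgroup
open scoped commutatorElement

variable {G : Type*} [Group G]

lemma conj_mem (hn : ∀ H : Subgroup G, H.Normal) (x y : G) : x * y * x⁻¹ ∈ zpowers y :=
  (hn (zpowers y)).conj_mem y (mem_zpowers y) x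

lemma comm_mem_right (hn : ∀ H : Subgroup G, H.Normal) (x y : G) : ⁅x, y⁆ ∈ zpowers y := by
  rw [commutatorElement_def]
  exact mul_mem (conj_mem hn x y) (inv_mem (mem_zpowers y))

lemma comm_mem_left (hn : ∀ H : Subgroup G, H.Normal) (x y : G) : ⁅x, y⁆ ∈ zpowers x := by
  rw [commutatorElement_def]
  have : x * y * x⁻¹ * y⁻¹ = x * (y * x⁻¹ * y⁻¹) := by group
  rw [this]
  exact mul_mem (mem_zpowers x) ((hn (zpowers x)).conj_mem x⁻¹ (inv_mem (mem_zpowers x)) y)

lemma commute_of_mem_zpowers {u v : G} (h : u ∈ zpowers v) : Commute u v := by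
  obtain ⟨k, rfl⟩ := mem_zpowers_iff.mp h
  exact (Commute.refl v).zpow_left k

lemma conj_pow_eq {a b c : G} (hc : Commute c a) (h : a * b * a⁻¹ = c * b) (k : ℕ) :
    a ^ k * b * (a ^ k)⁻¹ = c ^ k * b := by
  induction k with
  | zero => simp
  | succ k ih =>
    have e : a ^ (k + 1) * b * (a ^ (k + 1))⁻¹ = a * (a ^ k * b * (a ^ k)⁻¹) * a⁻¹ := by
      rw [pow_succ']; group
    rw [e, ih]
    have hck : Commute (c ^ k) a := hc.pow_left k
    calc a * (c ^ k * b) * a⁻¹ = (a * c ^ k) * b * a⁻¹ := by group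
      _ = c ^ k * (a * b * a⁻¹) := by rw [← hck.eq]; group
      _ = c ^ (k + 1) * b := by rw [h, pow_succ]; group

/-- An element not commuting with `b`, all of whose powers of smaller order commute with `b`, has
prime power order. -/
lemma exists_primePow_order [Finite G] {g b : G} (hg : ¬ Commute g b)
    (hs : ∀ u ∈ zpowers g, orderOf u < orderOf g → Commute u b) :
    ∃ p m : ℕ, p.Prime ∧ 1 ≤ m ∧ orderOf g = p ^ m := by
  have hg1 : g ≠ 1 := by
    rintro rfl
    exact hg (Commute.one_left b)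
  have ho0 : orderOf g ≠ 0 := (orderOf_pos g).ne'
  have ho1 : orderOf g ≠ 1 := fun h => hg1 (orderOf_eq_one_iff.mp h)
  have hp : (orderOf g).minFac.Prime := Nat.minFac_prime ho1
  set p := (orderOf g).minFac with hpdef
  obtain ⟨k, t, hpt, ho⟩ := Nat.exists_eq_pow_mul_and_not_dvd ho0 p hp.ne_one
  have hk : 1 ≤ k := by
    by_contra hk
    have hk0 : k = 0 := by omega
    rw [hk0, pow_zero, one_mul] at ho
    exact hpt (ho ▸ Nat.minFac_dvd _)
  by_cases ht : t = 1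
  · exact ⟨p, k, hp, hk, by rw [ho, ht, mul_one]⟩
  exfalso
  have ht0 : t ≠ 0 := by
    rintro rfl
    simp at hpt
  have hr1 : 1 < p ^ k := Nat.one_lt_pow (by omega) hp.one_lt
  have ht1 : 1 < t := by omega
  have hcop : Nat.Coprime (p ^ k) t := Nat.Coprime.pow_left k ((Nat.Prime.coprime_iff_not_dvd hp).mpr hpt)
  have h1 : orderOf (g ^ p ^ k) = t := by
    rw [orderOf_pow_of_dvd (by positivity) (ho ▸ dvd_mul_right _ _), ho]
    exact Nat.mul_div_cancel_left t (by positivity)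
  have h2 : orderOf (g ^ t) = p ^ k := by
    rw [orderOf_pow_of_dvd ht0 (ho ▸ dvd_mul_left _ _), ho]
    exact Nat.mul_div_cancel _ (by omega)
  have hr : t < orderOf g := by rw [ho]; exact lt_mul_of_one_lt_left (by omega) hr1
  have hr' : p ^ k < orderOf g := by rw [ho]; exact lt_mul_of_one_lt_right (by positivity) ht1
  have c1 : Commute (g ^ p ^ k) b := hs _ (npow_mem_zpowers _ _) (by rw [h1]; exact hr)
  have c2 : Commute (g ^ t) b := hs _ (npow_mem_zpowers _ _) (by rw [h2]; exact hr')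
  have hbez : (1 : ℤ) = (p ^ k : ℕ) * Nat.gcdA (p ^ k) t + t * Nat.gcdB (p ^ k) t := by
    have := Nat.gcd_eq_gcd_ab (p ^ k) t
    rw [hcop] at this
    exact_mod_cast this
  apply hg
  have e : g = (g ^ p ^ k) ^ (Nat.gcdA (p ^ k) t) * (g ^ t) ^ (Nat.gcdB (p ^ k) t) := by
    conv_lhs => rw [← zpow_one g, hbez, zpow_add, zpow_mul, zpow_mul, zpow_natCast, zpow_natCast]
  rw [e]
  exact (c1.zpow_left _).mul_left (c2.zpow_left _)

/-- Elements of a cyclic subgroup with the same order generate the same subgroup. -/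
lemma mem_zpowers_of_same_order [Finite G] {g x y : G} (hx : x ∈ zpowers g) (hy : y ∈ zpowers g)
    (h : orderOf x ∣ orderOf y) : x ∈ zpowers y := by
  have h1 := Cfsg.Agent.Lib.Coprime.mem_zpowers_of_orderOf_dvd (G := zpowers g)
    (x := ⟨x, hx⟩) (y := ⟨y, hy⟩) (by simpa [Subgroup.orderOf_mk] using h)
  obtain ⟨k, hk⟩ := mem_zpowers_iff.mp h1
  exact mem_zpowers_iff.mpr ⟨k, by simpa using congrArg Subtype.val hk⟩

/-- Arithmetic for the binomial coefficient in the Hall formula. -/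
lemma choose_arith {p n : ℕ} (hp : p.Prime) (hn : 1 ≤ n) (h : ¬ p ∣ (p ^ (n - 1)).choose 2) :
    p = 2 ∧ n = 2 := by
  obtain ⟨k, rfl⟩ : ∃ k, n = k + 1 := ⟨n - 1, by omega⟩
  simp only [Nat.add_sub_cancel] at h
  rcases k with _ | k
  · simp at h
  rw [Nat.choose_two_right] at h
  have hk : p ^ (k + 1) * (p ^ (k + 1) - 1) = 2 * (p ^ (k + 1) * (p ^ (k + 1) - 1) / 2) :=
    (Nat.mul_div_cancel' (Nat.even_mul_pred_self _).two_dvd).symm
  have hp2 : p = 2 := by
    by_contra hp2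
    apply h
    have h1 : p ∣ 2 * (p ^ (k + 1) * (p ^ (k + 1) - 1) / 2) := by
      rw [← hk, pow_succ', mul_assoc]
      exact dvd_mul_right _ _
    rcases (Nat.Prime.dvd_mul hp).mp h1 with h2 | h2
    · exact absurd ((Nat.prime_dvd_prime_iff_eq hp Nat.prime_two).mp h2) hp2
    · exact h2
  subst hp2
  refine ⟨rfl, ?_⟩
  rcases k with _ | k
  · rfl
  exfalso
  apply h
  have e : 2 ^ (k + 1 + 1) * (2 ^ (k + 1 + 1) - 1) / 2 = 2 * (2 ^ k * (2 ^ (k + 1 + 1) - 1)) := by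
    have : 2 ^ (k + 1 + 1) * (2 ^ (k + 1 + 1) - 1) = 2 * (2 * (2 ^ k * (2 ^ (k + 1 + 1) - 1))) := by
      rw [pow_succ 2 (k + 1), pow_succ 2 k]
      ring
    rw [this]
    exact Nat.mul_div_cancel_left _ (by norm_num)
  rw [e]
  exact dvd_mul_right _ _

/-- The key step: a non-commuting pair of minimal total order yields a quaternion pair. -/
theorem q8_of_min [Finite G] (hn : ∀ H : Subgroup G, H.Normal) {a b : G} (hab : ¬ Commute a b)
    (hle : orderOf b ≤ orderOf a)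
    (hmin : ∀ x y : G, ¬ Commute x y → orderOf a + orderOf b ≤ orderOf x + orderOf y) :
    ∃ a' b' : G, a' ^ 4 = 1 ∧ a' ^ 2 ≠ 1 ∧ b' ^ 2 = a' ^ 2 ∧ b' * a' * b'⁻¹ = a'⁻¹ := by
  classical
  have hsa : ∀ u ∈ zpowers a, orderOf u < orderOf a → Commute u b := by
    intro u _ hlt
    by_contra h
    have := hmin u b h
    omega
  have hsb : ∀ u ∈ zpowers b, orderOf u < orderOf b → Commute u a := by
    intro u _ hlt
    by_contra h
    have := hmin a u (fun h' => h h'.symm)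
    omega
  obtain ⟨p, m, hp, hm, hoa⟩ := exists_primePow_order hab hsa
  obtain ⟨q, n, hq, hn', hob⟩ := exists_primePow_order (fun h => hab h.symm) hsb
  set c := ⁅a, b⁆ with hc
  have hc1 : c ≠ 1 := fun h => hab (commutatorElement_eq_one_iff_commute.mp h)
  have hca : c ∈ zpowers a := comm_mem_left hn a b
  have hcb : c ∈ zpowers b := comm_mem_right hn a b
  have hcca : Commute c a := commute_of_mem_zpowers hca
  have hccb : Commute c b := commute_of_mem_zpowers hcb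
  have hpq : q = p := by
    by_contra hne
    have h1 : orderOf c ∣ p ^ m := hoa ▸ orderOf_dvd_of_mem_zpowers hca
    have h2 : orderOf c ∣ q ^ n := hob ▸ orderOf_dvd_of_mem_zpowers hcb
    have h3 : Nat.Coprime (p ^ m) (q ^ n) :=
      Nat.Coprime.pow _ _ ((Nat.coprime_primes hp hq).mpr (Ne.symm hne))
    have h4 : orderOf c = 1 := Nat.eq_one_of_dvd_coprimes h3 h1 h2
    exact hc1 (orderOf_eq_one_iff.mp h4)
  subst hpq
  haveI : Fact q.Prime := ⟨hq⟩
  have hconj0 : a * b * a⁻¹ = c * b := by rw [hc, commutatorElement_def]; group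
  have hcq : c ^ q = 1 := by
    have h1 : orderOf (a ^ q) < orderOf a := by
      rw [orderOf_pow_of_dvd hq.ne_zero (hoa ▸ dvd_pow_self q (by omega)), hoa]
      exact Nat.div_lt_self (by have := hq.pos; positivity) hq.one_lt
    have h2 : Commute (a ^ q) b := hsa _ (npow_mem_zpowers _ _) h1
    have h3 := conj_pow_eq hcca hconj0 q
    have h4 : a ^ q * b * (a ^ q)⁻¹ = b := by rw [h2.eq]; group
    rw [h4] at h3
    exact (mul_eq_right).mp h3.symm
  have hco : orderOf c = q := orderOf_eq_prime hcq hc1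
  obtain ⟨k, hk⟩ : ∃ k, k = q ^ (n - 1) := ⟨_, rfl⟩
  obtain ⟨l, hl⟩ : ∃ l, l = q ^ (m - 1) := ⟨_, rfl⟩
  have hk0 : 0 < k := by rw [hk]; exact pow_pos hq.pos _
  have hl0 : 0 < l := by rw [hl]; exact pow_pos hq.pos _
  have hob' : orderOf b = q * k := by
    rw [hob, hk, ← pow_succ']; congr 1; omega
  have hoa' : orderOf a = q * l := by
    rw [hoa, hl, ← pow_succ']; congr 1; omega
  obtain ⟨w, hw⟩ : ∃ w, w = b ^ k := ⟨_, rfl⟩
  obtain ⟨z, hz⟩ : ∃ z, z = a ^ l := ⟨_, rfl⟩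
  have how : orderOf w = q := by
    rw [hw, orderOf_pow_of_dvd hk0.ne' (hob' ▸ dvd_mul_left _ _), hob']
    exact Nat.mul_div_cancel _ hk0
  have hoz : orderOf z = q := by
    rw [hz, orderOf_pow_of_dvd hl0.ne' (hoa' ▸ dvd_mul_left _ _), hoa']
    exact Nat.mul_div_cancel _ hl0
  have hw1 : w ∈ zpowers c :=
    mem_zpowers_of_same_order (hw ▸ npow_mem_zpowers b k) hcb (by rw [how, hco])
  have hc2 : c ∈ zpowers z :=
    mem_zpowers_of_same_order hca (hz ▸ npow_mem_zpowers a l) (by rw [hco, hoz])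
  have hwz : w ∈ zpowers z := (zpowers_le.mpr hc2) hw1
  obtain ⟨e, he⟩ : ∃ e : ℕ, z ^ e = w := by
    have := (mem_powers_iff_mem_zpowers).mpr hwz
    exact this
  have hnm : n ≤ m := by
    rw [hob, hoa] at hle
    exact (Nat.pow_le_pow_iff_right hq.one_lt).mp hle
  obtain ⟨g', hg'⟩ : ∃ g', g' = q ^ (m - n) * e := ⟨_, rfl⟩
  obtain ⟨a₁, ha₁⟩ : ∃ a₁, a₁ = a ^ g' := ⟨_, rfl⟩
  have ha₁k : a₁ ^ k = w := by
    rw [ha₁, ← he, hz, ← pow_mul, ← pow_mul]
    congr 1
    rw [hg', hk, hl]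
    have : q ^ (m - 1) = q ^ (m - n) * q ^ (n - 1) := by
      rw [← pow_add]; congr 1; omega
    rw [this]; ring
  have hcomm : Commute a a₁ := ha₁ ▸ (Commute.refl a).pow_right g'
  obtain ⟨b₁, hb₁⟩ : ∃ b₁, b₁ = b * a₁⁻¹ := ⟨_, rfl⟩
  have hnc : ¬ Commute a b₁ := by
    intro h
    apply hab
    have : b = b₁ * a₁ := by rw [hb₁]; group
    rw [this]
    exact h.mul_right hcomm
  have hgeq : orderOf b ≤ orderOf b₁ := by
    have := hmin a b₁ hnc
    omega
  have hconj₁ : a₁ * b * a₁⁻¹ = c ^ g' * b := ha₁ ▸ conj_pow_eq hcca hconj0 g'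
  obtain ⟨d, hd⟩ : ∃ d, d = ⁅a₁⁻¹, b⁆ := ⟨_, rfl⟩
  have hcga : Commute (c ^ g') a₁ := ha₁ ▸ (hcca.pow_left g').pow_right g'
  have hd' : d = (c ^ g')⁻¹ := by
    rw [hd, commutatorElement_def, inv_inv]
    have h1 : b = a₁⁻¹ * (c ^ g' * b) * a₁ := by rw [← hconj₁]; group
    have h2 : a₁⁻¹ * b * a₁ = (c ^ g')⁻¹ * b := by
      have h3 : a₁⁻¹ * (c ^ g' * b) * a₁ = c ^ g' * (a₁⁻¹ * b * a₁) := by
        have := hcga.inv_right.eq
        calc a₁⁻¹ * (c ^ g' * b) * a₁ = (a₁⁻¹ * c ^ g') * b * a₁ := by group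
          _ = (c ^ g' * a₁⁻¹) * b * a₁ := by rw [this]
          _ = c ^ g' * (a₁⁻¹ * b * a₁) := by group
      rw [h3] at h1
      rw [eq_inv_mul_iff_mul_eq]
      exact h1.symm
    rw [h2]; group
  have hdb : Commute d b := hd' ▸ (hccb.pow_left g').inv_left
  have hda : Commute d a₁⁻¹ := hd' ▸ hcga.inv_left.inv_right
  have hkpow : b₁ ^ k = d ^ (k.choose 2) := by
    have h1 := Cfsg.Agent.Lib.Transfer.mul_pow_class2 (x := b) (y := a₁⁻¹) (hd ▸ hdb) (hd ▸ hda) k
    rw [hb₁, h1, ← hd, inv_pow, ha₁k, ← hw]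
    group
  have hdq : d ^ q = 1 := by
    rw [hd', inv_pow, ← pow_mul, mul_comm, pow_mul, hcq, one_pow, inv_one]
  have hlt : b₁ ^ k = 1 → False := by
    intro h
    have h1 := orderOf_dvd_of_pow_eq_one h
    have h2 := Nat.le_of_dvd hk0 h1
    rw [hob'] at hgeq
    have := Nat.mul_le_mul_right k hq.two_le
    omega
  have hcase : q = 2 ∧ n = 2 := by
    apply choose_arith hq hn'
    intro hdvd
    apply hlt
    rw [hkpow]
    obtain ⟨t, ht⟩ := (hk ▸ hdvd : q ∣ k.choose 2)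
    rw [ht, pow_mul, hdq, one_pow]
  obtain ⟨hq2, hn2⟩ := hcase
  subst hq2
  subst hn2
  have hk2 : k = 2 := by rw [hk]; rfl
  have hm2 : m = 2 := by
    by_contra hm3
    have hm4 : 3 ≤ m := by omega
    apply hlt
    rw [hkpow, hk2]
    have h1 : (2 : ℕ).choose 2 = 1 := rfl
    rw [h1, pow_one, hd']
    have h2 : 2 ∣ g' := by
      rw [hg']
      exact Dvd.dvd.mul_right (dvd_pow_self 2 (by omega)) e
    obtain ⟨t, ht⟩ := h2
    rw [ht, pow_mul, hcq, one_pow, inv_one]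
  subst hm2
  have ha4 : a ^ 4 = 1 := by
    have := pow_orderOf_eq_one a
    rwa [hoa] at this
  have hb4 : b ^ 4 = 1 := by
    have := pow_orderOf_eq_one b
    rwa [hob] at this
  have ha2 : a ^ 2 ≠ 1 := by
    intro h
    have h1 := orderOf_dvd_of_pow_eq_one h
    rw [hoa] at h1
    norm_num at h1
  have hb2 : b ^ 2 ≠ 1 := by
    intro h
    have h1 := orderOf_dvd_of_pow_eq_one h
    rw [hob] at h1
    norm_num at h1
  have key : ∀ x : G, x ^ 4 = 1 → x ^ 2 ≠ 1 → c ∈ zpowers x → c = x ^ 2 := by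
    intro x hx4 hx2 hcx
    rcases Cfsg.Agent.Lib.Frobenius.mem_zpowers_four hx4 hcx with h | h | h | h
    · exact absurd h hc1
    · rw [h] at hcq; exact absurd hcq hx2
    · exact h
    · rw [h, inv_pow] at hcq
      exact absurd (inv_eq_one.mp hcq) hx2
  have hca2 := key a ha4 ha2 hca
  have hcb2 := key b hb4 hb2 hcb
  refine ⟨a, b, ha4, ha2, by rw [← hca2, ← hcb2], ?_⟩
  have h5 : a * b * a⁻¹ * b⁻¹ = a ^ 2 := by
    rw [← hca2, hc, commutatorElement_def]
  have h6 : b * a⁻¹ * b⁻¹ = a := by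
    have : a * (b * a⁻¹ * b⁻¹) = a * a := by
      rw [← pow_two, ← h5]; group
    exact mul_left_cancel this
  have h7 : b * a * b⁻¹ = (b * a⁻¹ * b⁻¹)⁻¹ := by group
  rw [h7, h6]

/-- A finite non-abelian group all of whose subgroups are normal has a quaternion pair. -/
theorem exists_q8 [Finite G] (hn : ∀ H : Subgroup G, H.Normal) {x y : G} (hxy : ¬ Commute x y) :
    ∃ a' b' : G, a' ^ 4 = 1 ∧ a' ^ 2 ≠ 1 ∧ b' ^ 2 = a' ^ 2 ∧ b' * a' * b'⁻¹ = a'⁻¹ := by
  classical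
  let S : ℕ → Prop := fun N => ∃ u v : G, ¬ Commute u v ∧ orderOf u + orderOf v = N
  have hS : ∃ N, S N := ⟨_, x, y, hxy, rfl⟩
  obtain ⟨a, b, hab, hN⟩ := Nat.find_spec hS
  have hmin : ∀ u v : G, ¬ Commute u v → orderOf a + orderOf b ≤ orderOf u + orderOf v := by
    intro u v huv
    rw [hN]
    exact Nat.find_min' hS ⟨u, v, huv, rfl⟩
  rcases le_total (orderOf b) (orderOf a) with hle | hle
  · exact q8_of_min hn hab hle hmin
  · exact q8_of_min hn (fun h => hab h.symm) hle (by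
      intro u v huv
      have := hmin u v huv
      omega)

/-- A homomorphism out of the quaternion group of order `8`, with explicit values. -/
theorem q8_hom (I J : G) (hI : I ^ 4 = 1) (hJ : J ^ 2 = I ^ 2) (hIJ : I * J = J * I ^ 3) :
    ∃ φ : QuaternionGroup 2 →* G, (∀ i, φ (QuaternionGroup.a i) = I ^ i.val) ∧
      (∀ i, φ (QuaternionGroup.xa i) = J * I ^ i.val) := by
  let E : ZMod (2 * 2) → G := fun i => I ^ i.val
  have hmod : ∀ k : ℕ, I ^ k = I ^ (k % 4) := by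
    intro k
    conv_lhs => rw [← Nat.mod_add_div k 4, pow_add, pow_mul, hI, one_pow, mul_one]
  have hadd : ∀ i j : ZMod (2 * 2), E (i + j) = E i * E j := by
    intro i j
    show I ^ (i + j).val = I ^ i.val * I ^ j.val
    rw [← pow_add, ZMod.val_add]
    exact (hmod _).symm
  have hE0 : E 0 = 1 := by
    show I ^ (0 : ZMod (2 * 2)).val = 1
    rw [ZMod.val_zero, pow_zero]
  have hE2 : E ((2 : ℕ) : ZMod (2 * 2)) = I ^ 2 := rfl
  have hswap : ∀ i : ZMod (2 * 2), E i * J = J * E (-i) := by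
    have h1 : ∀ k : ℕ, I ^ k * J = J * (I ^ 3) ^ k := by
      intro k
      induction k with
      | zero => simp
      | succ k ih =>
        rw [pow_succ, mul_assoc, hIJ, ← mul_assoc, ih, mul_assoc, pow_succ (I ^ 3) k]
    intro i
    show I ^ i.val * J = J * I ^ (-i).val
    rw [h1, ← pow_mul, hmod (3 * i.val)]
    have h2 : ∀ i : ZMod (2 * 2), (3 * i.val) % 4 = (-i).val := by decide
    rw [h2]
  refine ⟨{ toFun := fun g => match g with
              | QuaternionGroup.a i => E i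
              | QuaternionGroup.xa i => J * E i
            map_one' := ?_
            map_mul' := ?_ }, fun _ => rfl, fun _ => rfl⟩
  · exact hE0
  · intro g h
    cases g with
    | a i =>
      cases h with
      | a j =>
        rw [QuaternionGroup.a_mul_a]
        exact hadd i j
      | xa j =>
        rw [QuaternionGroup.a_mul_xa]
        show J * E (j - i) = E i * (J * E j)
        rw [← mul_assoc, hswap, mul_assoc, ← hadd, neg_add_eq_sub]
    | xa i =>
      cases h with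
      | a j =>
        rw [QuaternionGroup.xa_mul_a]
        show J * E (i + j) = J * E i * E j
        rw [hadd, mul_assoc]
      | xa j =>
        rw [QuaternionGroup.xa_mul_xa]
        show E (((2 : ℕ) : ZMod (2 * 2)) + j - i) = J * E i * (J * E j)
        have h1 : J * E i * (J * E j) = J * (E i * J) * E j := by
          simp only [mul_assoc]
        rw [h1, hswap]
        have h2 : J * (J * E (-i)) * E j = J ^ 2 * (E (-i) * E j) := by
          rw [pow_two]; simp only [mul_assoc]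
        rw [h2, hJ, ← hE2, ← hadd, ← hadd]
        congr 1
        ring

lemma comm_of_conj {x u : G} (h : x * u * x⁻¹ = u) : Commute x u := by
  rw [mul_inv_eq_iff_eq_mul] at h
  exact h

lemma mem_zpowers_two {y w : G} (hy : y ^ 2 = 1) (hw : w ∈ zpowers y) : w = 1 ∨ w = y := by
  obtain ⟨k, rfl⟩ := mem_zpowers_iff.mp hw
  rw [zpow_eq_zpow_emod' k hy]
  have hcases : k % ((2 : ℕ) : ℤ) = 0 ∨ k % ((2 : ℕ) : ℤ) = 1 := by omega
  rcases hcases with h | h
  · rw [h]; simp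
  · rw [h]; simp

/-- Hereditariness. -/
lemma normal_subtype (hn : ∀ H : Subgroup G, H.Normal) (C : Subgroup G) (H : Subgroup C) : H.Normal := by
  constructor
  intro x hx g
  obtain ⟨m, hm, he⟩ := (hn (H.map C.subtype)).conj_mem (x : G) ⟨x, hx, rfl⟩ (g : G)
  have : m = g * x * g⁻¹ := by
    ext1
    exact he
  rw [← this]
  exact hm

section Main

variable [Finite G]

theorem dedekind_baer (hna : ¬ IsMulCommutative G) (hn : ∀ H : Subgroup G, H.Normal) :
    ∃ Q E A : Subgroup G, Nonempty (Q ≃* QuaternionGroup 2) ∧ (IsMulCommutative E ∧ ∀ x ∈ E, x ^ 2 = 1) ∧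
      IsMulCommutative A ∧ Odd (Nat.card A) ∧ E ⊓ A = ⊥ ∧ Q ⊓ (E ⊔ A) = ⊥ ∧ Q ⊔ (E ⊔ A) = ⊤ := by
  classical
  have hxy : ∃ x y : G, ¬ Commute x y := by
    by_contra h
    push Not at h
    exact hna ⟨⟨fun x y => h x y⟩⟩
  obtain ⟨x, y, hxy⟩ := hxy
  obtain ⟨a, b, ha4, ha2, hb2, hba⟩ := exists_q8 hn hxy
  have hb4 : b ^ 4 = 1 := by
    have : b ^ 4 = (b ^ 2) ^ 2 := by rw [← pow_mul]
    rw [this, hb2, ← pow_mul]; exact ha4
  have hb2' : b ^ 2 ≠ 1 := by rw [hb2]; exact ha2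
  have hna1 : a * a = a⁻¹ * a⁻¹ := by
    have h : a ^ 4 = 1 := ha4
    have e : a ^ 4 = (a * a) * (a * a) := by
      simp only [pow_succ, pow_zero, one_mul, mul_assoc]
    rw [e] at h
    have h2 : (a * a) = (a * a)⁻¹ := eq_inv_of_mul_eq_one_left h
    rw [h2]; group
  have hbinv : a⁻¹ * a⁻¹ = b * b := by
    have : b ^ 2 = a ^ 2 := hb2
    rw [pow_two, pow_two] at this
    rw [this, hna1]
  have hb3 : b * b * b = b⁻¹ := by
    have h : b ^ 4 = 1 := hb4
    have e : b ^ 4 = (b * b * b) * b := by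
      simp only [pow_succ, pow_zero, one_mul, mul_assoc]
    rw [e] at h
    exact eq_inv_of_mul_eq_one_left h
  -- conjugation relations
  have hab1 : a * b * a⁻¹ = b⁻¹ := by
    have h1 : b * a = a⁻¹ * b := by
      rw [mul_inv_eq_iff_eq_mul] at hba; exact hba
    have h2 : a * b = b * a⁻¹ := by
      have : a * (b * a) = a * (a⁻¹ * b) := by rw [h1]
      rw [mul_inv_cancel_left, ← mul_assoc] at this
      rw [eq_mul_inv_iff_mul_eq]; exact this
    rw [h2, mul_assoc, hbinv, ← mul_assoc, hb3]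
  have hab2 : a⁻¹ * b * a = b⁻¹ := by
    have h : a * b⁻¹ * a⁻¹ = b := by
      have : a * b⁻¹ * a⁻¹ = (a * b * a⁻¹)⁻¹ := by group
      rw [this, hab1, inv_inv]
    have h3 : a⁻¹ * (a * b⁻¹ * a⁻¹) * a = b⁻¹ := by group
    rwa [h] at h3
  have hba2 : b⁻¹ * a * b = a⁻¹ := by
    have h : b * a⁻¹ * b⁻¹ = a := by
      have : b * a⁻¹ * b⁻¹ = (b * a * b⁻¹)⁻¹ := by group
      rw [this, hba, inv_inv]
    have h2 : b⁻¹ * a * b = b⁻¹ * (b * a⁻¹ * b⁻¹) * b := by rw [h]
    rw [h2]; group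
  have hnc : ¬ Commute a b := by
    intro h
    have h1 : b * a * b⁻¹ = a := by rw [← h.eq]; group
    rw [h1] at hba
    apply ha2
    rw [pow_two]
    nth_rewrite 2 [hba]
    group
  -- the quaternion subgroup
  have hinv3 : a⁻¹ = a ^ 3 := inv_eq_of_mul_eq_one_left (by rw [← pow_succ]; exact ha4)
  have hba' : b * a⁻¹ * b⁻¹ = a := by
    have : b * a⁻¹ * b⁻¹ = (b * a * b⁻¹)⁻¹ := by group
    rw [this, hba, inv_inv]
  have hIJ : a * b = b * a ^ 3 := by
    rw [← hinv3]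
    have h := hba'
    rw [mul_inv_eq_iff_eq_mul] at h
    exact h.symm
  obtain ⟨f, hfa, hfx⟩ := q8_hom a b ha4 hb2 hIJ
  have horda : orderOf a = 4 := by
    have : orderOf a = 2 ^ (1 + 1) :=
      orderOf_eq_prime_pow (p := 2) (n := 1) (by simpa using ha2) (by simpa using ha4)
    simpa using this
  have hfinj : Function.Injective f := by
    rw [injective_iff_map_eq_one]
    rintro (i | i) h
    · rw [hfa] at h
      have h2 := orderOf_dvd_of_pow_eq_one h
      rw [horda] at h2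
      have h3 : i.val < 2 * 2 := ZMod.val_lt i
      have h4 : i.val = 0 := Nat.eq_zero_of_dvd_of_lt h2 h3
      have h5 : i = 0 := (ZMod.val_eq_zero i).mp h4
      rw [h5]
      rfl
    · exfalso
      rw [hfx] at h
      have h2 : b = (a ^ i.val)⁻¹ := eq_inv_of_mul_eq_one_left h
      apply hnc
      rw [h2]
      exact ((Commute.refl a).pow_right _).inv_right
  obtain ⟨Q, hQ⟩ : ∃ Q, Q = f.range := ⟨_, rfl⟩
  have haQ : a ∈ Q := by
    rw [hQ]
    refine ⟨QuaternionGroup.a 1, ?_⟩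
    rw [hfa]
    have : (1 : ZMod (2 * 2)).val = 1 := rfl
    rw [this, pow_one]
  have hbQ : b ∈ Q := by
    rw [hQ]
    refine ⟨QuaternionGroup.xa 0, ?_⟩
    rw [hfx]
    simp
  have hzQ : a ^ 2 ∈ Q := pow_mem haQ 2
  have hQiso : Nonempty (Q ≃* QuaternionGroup 2) := by
    rw [hQ]
    exact ⟨(MonoidHom.ofInjective hfinj).symm⟩
  have hQC : ∀ x ∈ Q, Commute x a → Commute x b → x = 1 ∨ x = a ^ 2 := by
    intro x hx hxa hxb
    rw [hQ] at hx
    obtain ⟨q, rfl⟩ := hx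
    cases q with
    | a i =>
      rw [hfa] at hxb ⊢
      have hi : i.val < 4 := ZMod.val_lt i
      generalize i.val = k at hi hxb ⊢
      interval_cases k
      · left; simp
      · exfalso; apply hnc; simpa using hxb
      · right; rfl
      · exfalso
        apply hnc
        rw [← hinv3] at hxb
        simpa using hxb.inv_left
    | xa i =>
      exfalso
      rw [hfx] at hxa
      apply hnc
      have h1 : b = (b * a ^ i.val) * (a ^ i.val)⁻¹ := by group
      have h2 : Commute b a := by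
        rw [h1]
        exact hxa.mul_left (((Commute.refl a).pow_left _).inv_left)
      exact h2.symm
  -- conjugation on the generators
  have hconj2 : ∀ g u : G, u ^ 4 = 1 → u ^ 2 ≠ 1 → g * u * g⁻¹ = u ∨ g * u * g⁻¹ = u⁻¹ := by
    intro g u hu4 hu2
    have hm := conj_mem hn g u
    rcases Cfsg.Agent.Lib.Frobenius.mem_zpowers_four hu4 hm with h | h | h | h
    · exfalso
      apply hu2
      have h1 : u = 1 := by
        have h2 : g⁻¹ * (g * u * g⁻¹) * g = u := by group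
        rw [← h2, h]; group
      rw [h1, one_pow]
    · left; exact h
    · exfalso
      apply hu2
      have h1 : (g * u * g⁻¹) ^ 2 = g * u ^ 2 * g⁻¹ := conj_pow
      rw [h, ← pow_mul] at h1
      have h4 : u ^ (2 * 2) = 1 := hu4
      rw [h4] at h1
      have h2 : g⁻¹ * (g * u ^ 2 * g⁻¹) * g = u ^ 2 := by group
      rw [← h2, ← h1]; group
    · right; exact h
  have hdec : ∀ g : G, ∃ q ∈ Q, ∃ x, Commute x a ∧ Commute x b ∧ g = q * x := by
    intro g
    rcases hconj2 g a ha4 ha2 with h1 | h1 <;> rcases hconj2 g b hb4 hb2' with h2 | h2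
    · exact ⟨1, one_mem _, g, comm_of_conj h1, comm_of_conj h2, by simp⟩
    · refine ⟨a, haQ, a⁻¹ * g, comm_of_conj ?_, comm_of_conj ?_, by group⟩
      · have : a⁻¹ * g * a * (a⁻¹ * g)⁻¹ = a⁻¹ * (g * a * g⁻¹) * a := by group
        rw [this, h1]; group
      · have : a⁻¹ * g * b * (a⁻¹ * g)⁻¹ = a⁻¹ * (g * b * g⁻¹) * a := by group
        rw [this, h2]
        have h3 : a⁻¹ * b⁻¹ * a = (a⁻¹ * b * a)⁻¹ := by group
        rw [h3, hab2, inv_inv]
    · refine ⟨b, hbQ, b⁻¹ * g, comm_of_conj ?_, comm_of_conj ?_, by group⟩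
      · have : b⁻¹ * g * a * (b⁻¹ * g)⁻¹ = b⁻¹ * (g * a * g⁻¹) * b := by group
        rw [this, h1]
        have h3 : b⁻¹ * a⁻¹ * b = (b⁻¹ * a * b)⁻¹ := by group
        rw [h3, hba2, inv_inv]
      · have : b⁻¹ * g * b * (b⁻¹ * g)⁻¹ = b⁻¹ * (g * b * g⁻¹) * b := by group
        rw [this, h2]; group
    · refine ⟨a * b, mul_mem haQ hbQ, b⁻¹ * a⁻¹ * g, comm_of_conj ?_, comm_of_conj ?_, by group⟩
      · have : b⁻¹ * a⁻¹ * g * a * (b⁻¹ * a⁻¹ * g)⁻¹ = b⁻¹ * a⁻¹ * (g * a * g⁻¹) * a * b := by group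
        rw [this, h1]
        have h3 : b⁻¹ * a⁻¹ * a⁻¹ * a * b = (b⁻¹ * a * b)⁻¹ := by group
        rw [h3, hba2, inv_inv]
      · have : b⁻¹ * a⁻¹ * g * b * (b⁻¹ * a⁻¹ * g)⁻¹ = b⁻¹ * a⁻¹ * (g * b * g⁻¹) * a * b := by group
        rw [this, h2]
        have h3 : b⁻¹ * a⁻¹ * b⁻¹ * a * b = b⁻¹ * (a⁻¹ * b * a)⁻¹ * b := by group
        rw [h3, hab2]; group
  -- the centralizer
  obtain ⟨C, hmemC⟩ : ∃ C : Subgroup G, ∀ x, x ∈ C ↔ Commute x a ∧ Commute x b := by
    refine ⟨Subgroup.centralizer ({a, b} : Set G), ?_⟩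
    intro x
    rw [Subgroup.mem_centralizer_iff]
    constructor
    · intro h
      exact ⟨(h a (by simp)).symm, (h b (by simp)).symm⟩
    · rintro ⟨h1, h2⟩ h (rfl | rfl)
      · exact h1.symm
      · exact h2.symm
  have hno4 : ∀ x ∈ C, x ^ 4 = 1 → x ^ 2 = 1 := by
    intro x hx hx4
    obtain ⟨hxa, hxb⟩ := (hmemC x).mp hx
    by_contra hx2
    obtain ⟨y, hy⟩ : ∃ y, y = a * x := ⟨_, rfl⟩
    have hy4 : y ^ 4 = 1 := by
      rw [hy, hxa.symm.mul_pow, ha4, hx4, one_mul]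
    have hcomm : ⁅y, b⁆ = a ^ 2 := by
      rw [commutatorElement_def, hy]
      have h1 : a * x * b * (a * x)⁻¹ * b⁻¹ = a * (x * b * x⁻¹) * a⁻¹ * b⁻¹ := by group
      have h2 : x * b * x⁻¹ = b := by rw [hxb.eq]; group
      rw [h1, h2, hab1]
      have h3 : b⁻¹ * b⁻¹ = (b * b)⁻¹ := by group
      rw [h3, ← hbinv]
      have h4 : (a⁻¹ * a⁻¹)⁻¹ = a * a := by rw [mul_inv_rev, inv_inv]
      rw [h4, pow_two]
    have hmem : a ^ 2 ∈ zpowers y := hcomm ▸ comm_mem_left hn y b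
    rcases Cfsg.Agent.Lib.Frobenius.mem_zpowers_four hy4 hmem with h | h | h | h
    · exact ha2 h
    · rw [hy, pow_two] at h
      have h1 : a = x := mul_left_cancel h
      exact hnc (h1 ▸ hxb)
    · rw [hy, hxa.symm.mul_pow] at h
      have h1 : x ^ 2 = 1 := by
        have := mul_eq_left.mp h.symm
        exact this
      exact hx2 h1
    · rw [hy, mul_inv_rev] at h
      have h1 : x⁻¹ = a⁻¹ := by
        have h2 : a ^ 2 * a = x⁻¹ * a⁻¹ * a := by rw [h]
        rw [inv_mul_cancel_right, ← pow_succ] at h2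
        rw [hinv3, h2]
      have h2 : x = a := inv_injective h1
      exact hnc (h2 ▸ hxb)
  have hCab : ∀ u ∈ C, ∀ v ∈ C, Commute u v := by
    intro u hu v hv
    by_contra huv
    have huv' : ¬ Commute (⟨u, hu⟩ : C) ⟨v, hv⟩ := fun h => huv (congrArg Subtype.val h)
    obtain ⟨a', b', h4, h2, _, _⟩ := exists_q8 (normal_subtype hn C) huv'
    apply h2
    have h5 : ((a' : G)) ^ 4 = 1 := by
      have := congrArg Subtype.val h4
      simpa using this
    have := hno4 a' a'.2 h5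
    ext1
    simpa using this
  -- the two characteristic pieces of `C`
  obtain ⟨E', hE'⟩ : ∃ E' : Subgroup G, ∀ x, x ∈ E' ↔ x ∈ C ∧ x ^ 2 = 1 := by
    refine ⟨{ carrier := {x | x ∈ C ∧ x ^ 2 = 1}
              mul_mem' := ?_
              one_mem' := ⟨C.one_mem, one_pow 2⟩
              inv_mem' := ?_ }, fun x => Iff.rfl⟩
    · rintro x y ⟨hx, hx2⟩ ⟨hy, hy2⟩
      exact ⟨C.mul_mem hx hy, by rw [(hCab x hx y hy).mul_pow, hx2, hy2, one_mul]⟩
    · rintro x ⟨hx, hx2⟩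
      exact ⟨C.inv_mem hx, by rw [inv_pow, hx2, inv_one]⟩
  obtain ⟨A, hA⟩ : ∃ A : Subgroup G, ∀ y, y ∈ A ↔ ∃ x ∈ C, x ^ 2 = y := by
    refine ⟨{ carrier := {y | ∃ x ∈ C, x ^ 2 = y}
              mul_mem' := ?_
              one_mem' := ⟨1, C.one_mem, one_pow 2⟩
              inv_mem' := ?_ }, fun x => Iff.rfl⟩
    · rintro _ _ ⟨x, hx, rfl⟩ ⟨y, hy, rfl⟩
      exact ⟨x * y, C.mul_mem hx hy, (hCab x hx y hy).mul_pow 2⟩
    · rintro _ ⟨x, hx, rfl⟩
      exact ⟨x⁻¹, C.inv_mem hx, inv_pow x 2⟩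
  have hE'C : E' ≤ C := fun x hx => ((hE' x).mp hx).1
  have hAC : A ≤ C := by
    intro y hy
    obtain ⟨x, hx, rfl⟩ := (hA y).mp hy
    exact pow_mem hx 2
  have hAsq : ∀ y ∈ A, y ^ 2 = 1 → y = 1 := by
    intro y hy hy2
    obtain ⟨x, hx, rfl⟩ := (hA y).mp hy
    apply hno4 x hx
    rw [← hy2, ← pow_mul]
  have hAodd : Odd (Nat.card A) := by
    by_contra h
    rw [Nat.not_odd_iff_even, even_iff_two_dvd] at h
    haveI : Fact (Nat.Prime 2) := ⟨Nat.prime_two⟩
    obtain ⟨y, hy⟩ := exists_prime_orderOf_dvd_card' 2 h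
    have hy2 : (y : G) ^ 2 = 1 := by
      have := pow_orderOf_eq_one y
      rw [hy] at this
      simpa using congrArg Subtype.val this
    have h1 := hAsq y y.2 hy2
    have h2 : y = 1 := Subtype.ext h1
    rw [h2, orderOf_one] at hy
    omega
  have hpow2 : ∀ k : ℕ, ∀ u ∈ C, u ^ 2 ^ k = 1 → u ^ 2 = 1 := by
    intro k
    induction k with
    | zero =>
      intro u _ h
      simp only [pow_zero, pow_one] at h
      rw [h, one_pow]
    | succ k ih =>
      intro u hu h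
      rcases k with _ | k
      · simpa using h
      · apply ih u hu
        have h1 : (u ^ 2 ^ k) ^ 4 = 1 := by
          rw [← pow_mul, ← h]
          congr 1
          rw [pow_succ 2 (k + 1), pow_succ 2 k]
          ring
        have h2 := hno4 _ (pow_mem hu _) h1
        rw [← pow_mul] at h2
        rw [pow_succ]
        exact h2
  have hdecC : ∀ x ∈ C, ∃ e ∈ E', ∃ t ∈ A, x = e * t := by
    intro x hx
    obtain ⟨k, t, ht, ho⟩ := Nat.exists_eq_two_pow_mul_odd (orderOf_pos x).ne'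
    have h1 : (x ^ t) ^ 2 ^ k = 1 := by
      rw [← pow_mul, mul_comm, ← ho, pow_orderOf_eq_one]
    have h2 := hpow2 k _ (pow_mem hx t) h1
    obtain ⟨r, hr⟩ := ht
    refine ⟨x ^ t, (hE' _).mpr ⟨pow_mem hx t, h2⟩, ((x ^ r)⁻¹) ^ 2,
      (hA _).mpr ⟨_, C.inv_mem (pow_mem hx r), rfl⟩, ?_⟩
    rw [hr, pow_succ, inv_pow, ← pow_mul, mul_comm r 2]
    have h3 : Commute (x ^ (2 * r)) x := (Commute.refl x).pow_left _
    rw [h3.eq]
    group
  have hzC : a ^ 2 ∈ C := by
    rw [hmemC]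
    refine ⟨(Commute.refl a).pow_left 2, ?_⟩
    rw [← hb2]
    exact (Commute.refl b).pow_left 2
  have hzE' : a ^ 2 ∈ E' := by
    rw [hE']
    refine ⟨hzC, ?_⟩
    rw [← pow_mul]
    exact ha4
  -- a complement of `⟨a²⟩` in `E'`
  obtain ⟨E₀, hE₀⟩ : ∃ E₀ : Subgroup G, Maximal (· ∈ {H : Subgroup G | H ≤ E' ∧ a ^ 2 ∉ H}) E₀ :=
    (Set.toFinite {H : Subgroup G | H ≤ E' ∧ a ^ 2 ∉ H}).exists_maximal
      ⟨⊥, bot_le, by simpa using ha2⟩
  obtain ⟨⟨hE₀le, hzE₀⟩, hE₀max⟩ := hE₀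
  have hcompl : ∀ y ∈ E', ∃ e ∈ E₀, y = e ∨ y = e * a ^ 2 := by
    intro y hy
    by_cases hyE : y ∈ E₀
    · exact ⟨y, hyE, Or.inl rfl⟩
    have hnorm : zpowers y ≤ Subgroup.normalizer (E₀ : Set G) := by
      intro g _
      exact Cfsg.Agent.Lib.Hall.mem_normalizer_of_conj_le (fun n hh => (hn E₀).conj_mem n hh g)
    have hsup : E₀ ⊔ zpowers y ≤ E' := sup_le hE₀le (zpowers_le.mpr hy)
    have hz' : a ^ 2 ∈ E₀ ⊔ zpowers y := by
      by_contra hz
      have h1 := hE₀max (y := E₀ ⊔ zpowers y) ⟨hsup, hz⟩ le_sup_left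
      exact hyE (h1 (Subgroup.mem_sup_right (mem_zpowers y)))
    obtain ⟨e, he, w, hw, hzz⟩ :=
      Cfsg.Agent.Lib.Hall.exists_mul_of_mem_sup_normalizes hnorm hz'
    rcases mem_zpowers_two ((hE' y).mp hy).2 hw with rfl | rfl
    · rw [mul_one] at hzz
      exact absurd (hzz ▸ he) hzE₀
    · refine ⟨e⁻¹, E₀.inv_mem he, Or.inr ?_⟩
      rw [hzz]; group
  refine ⟨Q, E₀, A, hQiso, ⟨⟨⟨?_⟩⟩, fun x hx => ((hE' x).mp (hE₀le hx)).2⟩, ⟨⟨?_⟩⟩, hAodd, ?_, ?_, ?_⟩
  · intro x y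
    exact Subtype.ext (hCab x (hE'C (hE₀le x.2)) y (hE'C (hE₀le y.2))).eq
  · intro x y
    exact Subtype.ext (hCab x (hAC x.2) y (hAC y.2)).eq
  · rw [eq_bot_iff]
    rintro y ⟨hy1, hy2⟩
    exact hAsq y hy2 ((hE' y).mp (hE₀le hy1)).2
  · rw [eq_bot_iff]
    rintro x ⟨hxQ, hxS⟩
    have hnorm : A ≤ Subgroup.normalizer (E₀ : Set G) := by
      intro g _
      exact Cfsg.Agent.Lib.Hall.mem_normalizer_of_conj_le (fun n hh => (hn E₀).conj_mem n hh g)
    obtain ⟨e, he, t, ht, rfl⟩ := Cfsg.Agent.Lib.Hall.exists_mul_of_mem_sup_normalizes hnorm hxS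
    have hxC : e * t ∈ C := C.mul_mem (hE'C (hE₀le he)) (hAC ht)
    obtain ⟨hxa, hxb⟩ := (hmemC _).mp hxC
    rcases hQC _ hxQ hxa hxb with h | h
    · exact h
    · exfalso
      have h1 : t = e⁻¹ * a ^ 2 := by rw [← h]; group
      have h2 : t ∈ E' := by
        rw [h1]
        exact mul_mem (inv_mem (hE₀le he)) hzE'
      have h3 : t = 1 := hAsq t ht ((hE' t).mp h2).2
      rw [h3, mul_one] at h
      exact hzE₀ (h ▸ he)
  · rw [eq_top_iff]
    intro g _
    obtain ⟨q, hq, x, hxa, hxb, rfl⟩ := hdec g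
    have hx : x ∈ C := (hmemC x).mpr ⟨hxa, hxb⟩
    obtain ⟨e, he, t, ht, rfl⟩ := hdecC x hx
    have hq' : q ∈ Q ⊔ (E₀ ⊔ A) := Subgroup.mem_sup_left hq
    have ht' : t ∈ Q ⊔ (E₀ ⊔ A) := Subgroup.mem_sup_right (Subgroup.mem_sup_right ht)
    refine mul_mem hq' (mul_mem ?_ ht')
    obtain ⟨e₀, he₀, h | h⟩ := hcompl e he
    · rw [h]
      exact Subgroup.mem_sup_right (Subgroup.mem_sup_left he₀)
    · rw [h]
      exact mul_mem (Subgroup.mem_sup_right (Subgroup.mem_sup_left he₀)) (Subgroup.mem_sup_left hzQ)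

end Main

end Cfsg.Agent.Lib.ClassSizes.Dedekind
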