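import Mathlib
import Cfsg.Agent.Lib.Coprime.FrobCount
import Cfsg.Agent.Lib.ClassSizes.Basic

/-!
# Frobenius' theorem on the number of solutions of `x ^ n = c`
-/

set_option autoImplicit false

namespace Cfsg.Agent.Lib.ClassSizes.FrobGen

open Subgroup Finset
open Cfsg.Agent.Lib.Coprime

universe u

/-- Frobenius' theorem with a gcd. -/
theorem frob_gcd {T : Type u} [Group T] [Finite T] (n : ℕ) :
    Nat.gcd n (Nat.card T) ∣ Nat.card {u : T // u ^ n = 1} := by
  have h1 := frobenius_count (G := T) (Nat.gcd n (Nat.card T)) (Nat.gcd_dvd_right _ _)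
  have h2 : Nat.card {u : T // u ^ n = 1} = Nat.card {u : T // u ^ (Nat.gcd n (Nat.card T)) = 1} := by
    refine Nat.card_congr (Equiv.subtypeEquivRight fun x => ?_)
    constructor
    · intro h
      exact orderOf_dvd_iff_pow_eq_one.mp (Nat.dvd_gcd (orderOf_dvd_of_pow_eq_one h) (orderOf_dvd_natCard x))
    · intro h
      obtain ⟨e, he⟩ := Nat.gcd_dvd_left n (Nat.card T)
      rw [he, pow_mul, h, one_pow]
  rw [h2]
  exact h1

section Power

variable {T : Type u} [Group T] [Finite T]

/-- Raising to a power prime to `p` embeds the solutions. -/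
theorem card_sol_le_pow {p a k r : ℕ} (hp : p.Prime) (hr : ¬ p ∣ r) {d : T} (hd : d ^ (p ^ k) = 1) :
    Nat.card {u : T // u ^ (p ^ a) = d} ≤ Nat.card {u : T // u ^ (p ^ a) = d ^ r} := by
  have hco : Nat.Coprime r (p ^ (a + k)) :=
    Nat.Coprime.pow_right _ (((Nat.Prime.coprime_iff_not_dvd hp).mpr hr).symm)
  obtain ⟨r', -, hr'⟩ := Nat.exists_mul_mod_eq_of_coprime 1 hco (by have := hp.pos; positivity)
  have hmod : r * r' ≡ 1 [MOD p ^ (a + k)] := hr'
  have hback : ∀ u : T, u ^ (p ^ a) = d → (u ^ r) ^ r' = u := by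
    intro u hu
    have h1 : u ^ (p ^ (a + k)) = 1 := by
      rw [pow_add, pow_mul, hu, hd]
    rw [← pow_mul]
    have h2 := pow_eq_pow_iff_modEq.mpr (hmod.of_dvd (orderOf_dvd_of_pow_eq_one h1))
    rw [h2, pow_one]
  apply Nat.card_le_card_of_injective
    (fun u : {u : T // u ^ (p ^ a) = d} => (⟨u.1 ^ r, by
      rw [← pow_mul, mul_comm, pow_mul, u.2]⟩ : {u : T // u ^ (p ^ a) = d ^ r}))
  intro x y hxy
  apply Subtype.ext
  have h1 : x.1 ^ r = y.1 ^ r := Subtype.mk.inj hxy
  rw [← hback x.1 x.2, ← hback y.1 y.2, h1]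

/-- The number of solutions only depends on the cyclic subgroup generated by `d`. -/
theorem card_sol_pow_eq {p a k r : ℕ} (hp : p.Prime) (hr : ¬ p ∣ r) {d : T} (hd : d ^ (p ^ k) = 1) :
    Nat.card {u : T // u ^ (p ^ a) = d ^ r} = Nat.card {u : T // u ^ (p ^ a) = d} := by
  apply le_antisymm _ (card_sol_le_pow hp hr hd)
  have hco : Nat.Coprime r (p ^ (k + 1)) :=
    Nat.Coprime.pow_right _ (((Nat.Prime.coprime_iff_not_dvd hp).mpr hr).symm)
  obtain ⟨r', -, hr'⟩ := Nat.exists_mul_mod_eq_of_coprime 1 hco (by have := hp.pos; positivity)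
  have hmod : r * r' ≡ 1 [MOD p ^ (k + 1)] := hr'
  have hr'p : ¬ p ∣ r' := by
    intro h
    have h1 : p ∣ r * r' := Dvd.dvd.mul_left h r
    have h2 : p ∣ 1 := (Nat.ModEq.dvd_iff (hmod.of_dvd (dvd_pow_self p (by omega))) (dvd_refl p)).mp h1
    exact hp.one_lt.ne' (Nat.dvd_one.mp h2)
  have hd' : (d ^ r) ^ (p ^ k) = 1 := by
    rw [← pow_mul, mul_comm, pow_mul, hd, one_pow]
  have h := card_sol_le_pow (a := a) hp hr'p hd'
  have hdd : (d ^ r) ^ r' = d := by
    rw [← pow_mul]
    have h2 := pow_eq_pow_iff_modEq.mpr (hmod.of_dvd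
      ((orderOf_dvd_of_pow_eq_one hd).trans (pow_dvd_pow p (by omega))))
    rw [h2, pow_one]
  rwa [hdd] at h

end Power

section Quot

variable {T : Type u} [Group T] [Fintype T] [DecidableEq T]

open Classical in
/-- Counting solutions modulo a normal subgroup. -/
theorem sum_card_sol_quotient (Δ : Subgroup T) [Δ.Normal] (N : ℕ) (d : T) :
    ∑ t ∈ univ.filter (· ∈ Δ), Nat.card {u : T // u ^ N = d * t} =
      Nat.card Δ * Nat.card {v : T ⧸ Δ // v ^ N = (d : T ⧸ Δ)} := by
  classical
  haveI : Fintype (T ⧸ Δ) := Fintype.ofFinite _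
  have hD : (univ.filter (· ∈ Δ)).card = Nat.card Δ := by
    rw [Nat.card_eq_fintype_card, Fintype.card_subtype]
  have h1 : ∀ t, Nat.card {u : T // u ^ N = d * t} = (univ.filter fun u : T => u ^ N = d * t).card := by
    intro t
    rw [Nat.card_eq_fintype_card, Fintype.card_subtype]
  simp_rw [h1]
  have h2 : Nat.card {v : T ⧸ Δ // v ^ N = (d : T ⧸ Δ)} =
      (univ.filter fun v : T ⧸ Δ => v ^ N = (d : T ⧸ Δ)).card := by
    rw [Nat.card_eq_fintype_card, Fintype.card_subtype]
  rw [h2]
  -- the set of all lifts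
  have h3 : (univ.filter fun u : T => ((u : T ⧸ Δ)) ^ N = (d : T ⧸ Δ)).card =
      ∑ t ∈ univ.filter (· ∈ Δ), (univ.filter fun u : T => u ^ N = d * t).card := by
    rw [Finset.card_eq_sum_card_fiberwise (f := fun u : T => d⁻¹ * u ^ N)
      (t := univ.filter (· ∈ Δ))]
    · apply Finset.sum_congr rfl
      intro t ht
      congr 1
      ext u
      simp only [mem_filter, mem_univ, true_and]
      have ht' : t ∈ Δ := (mem_filter.mp ht).2
      constructor
      · rintro ⟨-, h⟩
        rw [← h]; group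
      · intro h
        constructor
        · rw [← QuotientGroup.mk_pow, h, QuotientGroup.mk_mul,
            (QuotientGroup.eq_one_iff t).mpr ht', mul_one]
        · rw [h]; group
    · intro u hu
      have hu' : ((u : T ⧸ Δ)) ^ N = (d : T ⧸ Δ) := (mem_filter.mp (Finset.mem_coe.mp hu)).2
      simp only [Finset.coe_filter, mem_univ, true_and, Set.mem_setOf_eq]
      rw [← QuotientGroup.mk_pow] at hu'
      exact QuotientGroup.eq.mp hu'.symm
  have h4 : (univ.filter fun u : T => ((u : T ⧸ Δ)) ^ N = (d : T ⧸ Δ)).card =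
      ∑ v ∈ univ.filter (fun v : T ⧸ Δ => v ^ N = (d : T ⧸ Δ)),
        (univ.filter fun u : T => (u : T ⧸ Δ) = v).card := by
    rw [Finset.card_eq_sum_card_fiberwise (f := fun u : T => (u : T ⧸ Δ))
      (t := univ.filter (fun v : T ⧸ Δ => v ^ N = (d : T ⧸ Δ)))]
    · apply Finset.sum_congr rfl
      intro v hv
      congr 1
      ext u
      simp only [mem_filter, mem_univ, true_and]
      constructor
      · rintro ⟨-, h⟩
        exact h
      · intro h
        refine ⟨?_, h⟩
        rw [h]
        exact (mem_filter.mp hv).2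
    · intro u hu
      have hu' := (mem_filter.mp (Finset.mem_coe.mp hu)).2
      simp only [Finset.coe_filter, mem_univ, true_and, Set.mem_setOf_eq]
      exact hu'
  have h5 : ∀ v : T ⧸ Δ, (univ.filter fun u : T => (u : T ⧸ Δ) = v).card = Nat.card Δ := by
    intro v
    obtain ⟨x, rfl⟩ := QuotientGroup.mk_surjective v
    rw [← hD]
    symm
    refine Finset.card_bij (fun t _ => x * t) ?_ ?_ ?_
    · intro t ht
      have ht' : t ∈ Δ := (mem_filter.mp ht).2
      simp only [mem_filter, mem_univ, true_and]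
      rw [QuotientGroup.mk_mul, (QuotientGroup.eq_one_iff t).mpr ht', mul_one]
    · intro t _ t' _ h
      exact mul_left_cancel h
    · intro u hu
      have hu' : (u : T ⧸ Δ) = (x : T ⧸ Δ) := (mem_filter.mp hu).2
      refine ⟨x⁻¹ * u, ?_, by group⟩
      simp only [mem_filter, mem_univ, true_and]
      exact QuotientGroup.eq.mp hu'.symm
  rw [← h3, h4, Finset.sum_congr rfl (fun v _ => h5 v), Finset.sum_const, smul_eq_mul, mul_comm]

end Quot

section Core

/-- The `p`-power case of the generalized Frobenius theorem: `d` a central `p`-element. -/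
theorem card_sol_central_aux : ∀ (N : ℕ) (T : Type u) [Group T] [Finite T], Nat.card T = N →
    ∀ (p : ℕ), p.Prime → ∀ (a : ℕ) (d : T), d ∈ center T → (∃ k, d ^ (p ^ k) = 1) →
      Nat.gcd (p ^ a) N ∣ Nat.card {u : T // u ^ (p ^ a) = d} := by
  intro N
  induction N using Nat.strong_induction_on with
  | _ N ih =>
  intro T _ _ hN p hp a d hdc hdk
  classical
  haveI := Fintype.ofFinite T
  haveI : Fact p.Prime := ⟨hp⟩
  obtain ⟨k, hk⟩ := hdk
  by_cases hd1 : d = 1
  · subst hd1
    subst hN
    exact frob_gcd _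
  -- the order of `d`
  obtain ⟨j, -, hj⟩ := (Nat.dvd_prime_pow hp).mp (orderOf_dvd_of_pow_eq_one hk)
  obtain ⟨k', rfl⟩ : ∃ k', j = k' + 1 := by
    rcases j with _ | j
    · rw [pow_zero] at hj
      exact absurd (orderOf_eq_one_iff.mp hj) hd1
    · exact ⟨j, rfl⟩
  have hdk' : d ^ (p ^ (k' + 1)) = 1 := by rw [← hj]; exact pow_orderOf_eq_one d
  obtain ⟨δ, hδ⟩ : ∃ δ, δ = d ^ (p ^ k') := ⟨_, rfl⟩
  have hδord : orderOf δ = p := by
    rw [hδ, orderOf_pow_of_dvd (by have := hp.pos; positivity) (by rw [hj]; exact pow_dvd_pow p (by omega)), hj,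
      pow_succ]
    exact Nat.mul_div_cancel_left _ (by have := hp.pos; positivity)
  have hδc : δ ∈ center T := hδ ▸ pow_mem hdc _
  obtain ⟨Δ, hΔ⟩ : ∃ Δ, Δ = zpowers δ := ⟨_, rfl⟩
  have hΔc : Δ ≤ center T := by
    rw [hΔ, zpowers_le]
    exact hδc
  haveI hΔn : Δ.Normal := by
    refine ⟨fun n hn g => ?_⟩
    have hg : g * n = n * g := (mem_center_iff.mp (hΔc hn)) g
    rw [hg]
    simpa using hn
  have hΔcard : Nat.card Δ = p := by rw [hΔ, Nat.card_zpowers, hδord]
  have hQcard : Nat.card (T ⧸ Δ) * p = N := by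
    have := Δ.card_mul_index
    rw [hΔcard, mul_comm] at this
    rw [← hN]
    exact this
  have hNpos : 0 < N := hN ▸ Nat.card_pos
  have hQlt : Nat.card (T ⧸ Δ) < N := by
    have h0 : 0 < Nat.card (T ⧸ Δ) := Nat.card_pos
    have := hp.two_le
    nlinarith
  have hQsum := sum_card_sol_quotient Δ (p ^ a) d
  rw [hΔcard] at hQsum
  have hDcard : (univ.filter (· ∈ Δ)).card = p := by
    rw [← hΔcard, Nat.card_eq_fintype_card, Fintype.card_subtype]
  have hdQ : (d : T ⧸ Δ) ∈ center (T ⧸ Δ) := by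
    rw [mem_center_iff]
    intro g
    obtain ⟨x, rfl⟩ := QuotientGroup.mk_surjective g
    rw [← QuotientGroup.mk_mul, ← QuotientGroup.mk_mul, (mem_center_iff.mp hdc) x]
  have hdQk : (d : T ⧸ Δ) ^ (p ^ (k' + 1)) = 1 := by
    rw [← QuotientGroup.mk_pow, hdk']
    rfl
  have hIH := ih _ hQlt (T ⧸ Δ) rfl p hp a _ hdQ ⟨_, hdQk⟩
  rcases k' with _ | k'
  · -- `d` has order `p`
    have hδd : δ = d := by rw [hδ]; simp
    have hdΔ : d ∈ Δ := by rw [hΔ, hδd]; exact mem_zpowers d
    have hdQ1 : (d : T ⧸ Δ) = 1 := (QuotientGroup.eq_one_iff d).mpr hdΔ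
    rw [hdQ1] at hQsum hIH
    -- reindex
    have hre : ∑ t ∈ univ.filter (· ∈ Δ), Nat.card {u : T // u ^ (p ^ a) = d * t} =
        ∑ t ∈ univ.filter (· ∈ Δ), Nat.card {u : T // u ^ (p ^ a) = t} := by
      apply Finset.sum_bij (fun t _ => d * t)
      · intro t ht
        simp only [mem_filter, mem_univ, true_and] at ht ⊢
        exact mul_mem hdΔ ht
      · intro t _ t' _ h
        exact mul_left_cancel h
      · intro t ht
        simp only [mem_filter, mem_univ, true_and] at ht
        exact ⟨d⁻¹ * t, by simpa using mul_mem (inv_mem hdΔ) ht, by group⟩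
      · intro t _
        rfl
    rw [hre] at hQsum
    have h1mem : (1 : T) ∈ univ.filter (· ∈ Δ) := by simp [Δ.one_mem]
    rw [← Finset.add_sum_erase _ _ h1mem] at hQsum
    have hrest : ∀ t ∈ (univ.filter (· ∈ Δ)).erase (1 : T),
        Nat.card {u : T // u ^ (p ^ a) = t} = Nat.card {u : T // u ^ (p ^ a) = d} := by
      intro t ht
      obtain ⟨ht1, ht2⟩ := Finset.mem_erase.mp ht
      have ht3 : t ∈ Δ := (mem_filter.mp ht2).2
      rw [hΔ, hδd] at ht3
      obtain ⟨r, rfl⟩ : ∃ r : ℕ, d ^ r = t := (mem_powers_iff_mem_zpowers).mpr ht3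
      have hr : ¬ p ∣ r := by
        rintro ⟨s, rfl⟩
        apply ht1
        have : d ^ p = 1 := by simpa using hdk'
        rw [pow_mul, this, one_pow]
      exact card_sol_pow_eq hp hr hdk'
    rw [Finset.sum_congr rfl hrest, Finset.sum_const, Finset.card_erase_of_mem h1mem, hDcard,
      smul_eq_mul] at hQsum
    have hF1 : Nat.gcd (p ^ a) N ∣ Nat.card {u : T // u ^ (p ^ a) = 1} := hN ▸ frob_gcd _
    have hM : Nat.gcd (p ^ a) N ∣ p * Nat.gcd (p ^ a) (Nat.card (T ⧸ Δ)) := by
      rw [← hQcard, mul_comm p]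
      refine (Nat.gcd_mul_right_dvd_mul_gcd _ _ _).trans ?_
      exact Nat.mul_dvd_mul_left _ (by
        have h := Nat.gcd_dvd_right (p ^ a) p
        exact h)
    have hM2 : Nat.gcd (p ^ a) N ∣ p * Nat.card {v : T ⧸ Δ // v ^ (p ^ a) = 1} :=
      hM.trans (Nat.mul_dvd_mul_left _ hIH)
    rw [← hQsum] at hM2
    have h3 := (Nat.dvd_add_right hF1).mp hM2
    have hcop : Nat.Coprime (Nat.gcd (p ^ a) N) (p - 1) := by
      apply Nat.Coprime.coprime_dvd_left (Nat.gcd_dvd_left _ _)
      apply Nat.Coprime.pow_left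
      rw [Nat.coprime_self_sub_right hp.one_lt.le]
      exact Nat.coprime_one_right _
    exact hcop.dvd_of_dvd_mul_left h3
  · -- `d` has order at least `p ^ 2`
    have hrest : ∀ t ∈ univ.filter (· ∈ Δ),
        Nat.card {u : T // u ^ (p ^ a) = d * t} = Nat.card {u : T // u ^ (p ^ a) = d} := by
      intro t ht
      have ht3 : t ∈ Δ := (mem_filter.mp ht).2
      rw [hΔ] at ht3
      obtain ⟨j, rfl⟩ : ∃ j : ℕ, δ ^ j = t := (mem_powers_iff_mem_zpowers).mpr ht3
      have he : d * δ ^ j = d ^ (1 + p ^ (k' + 1) * j) := by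
        rw [hδ, ← pow_mul, pow_add d 1, pow_one]
      have hr : ¬ p ∣ 1 + p ^ (k' + 1) * j := by
        intro h
        have h1 : p ∣ p ^ (k' + 1) * j := Dvd.dvd.mul_right (dvd_pow_self p (by omega)) j
        have h2 := (Nat.dvd_add_left h1).mp h
        exact hp.one_lt.ne' (Nat.dvd_one.mp h2)
      rw [he]
      exact card_sol_pow_eq hp hr hdk'
    rw [Finset.sum_congr rfl hrest, Finset.sum_const, hDcard, smul_eq_mul] at hQsum
    have hEq := Nat.eq_of_mul_eq_mul_left hp.pos hQsum
    by_cases hcase : p ^ a ∣ Nat.card (T ⧸ Δ)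
    · rw [hEq]
      have h1 : Nat.gcd (p ^ a) N ∣ p ^ a := Nat.gcd_dvd_left _ _
      have h2 : Nat.gcd (p ^ a) (Nat.card (T ⧸ Δ)) = p ^ a := Nat.gcd_eq_left hcase
      rw [h2] at hIH
      exact h1.trans hIH
    · -- no solutions at all
      have hempty : IsEmpty {u : T // u ^ (p ^ a) = d} := by
        refine ⟨fun ⟨u, hu⟩ => hd1 ?_⟩
        have h1 : u ^ (p ^ (a + (k' + 1 + 1))) = 1 := by
          rw [pow_add, pow_mul, hu, hdk']
        obtain ⟨i, -, hi⟩ := (Nat.dvd_prime_pow hp).mp (orderOf_dvd_of_pow_eq_one h1)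
        have hile : i ≤ a := by
          by_contra hlt
          apply hcase
          have h2 : orderOf u ∣ N := hN ▸ orderOf_dvd_natCard u
          rw [hi, ← hQcard] at h2
          have h3 : p ^ (a + 1) ∣ Nat.card (T ⧸ Δ) * p := (pow_dvd_pow p (by omega)).trans h2
          rw [pow_succ] at h3
          exact Nat.dvd_of_mul_dvd_mul_right hp.pos h3
        rw [← hu]
        exact orderOf_dvd_iff_pow_eq_one.mp (hi ▸ pow_dvd_pow p hile)
      rw [Nat.card_of_isEmpty]
      exact dvd_zero _

/-- The `p`-power case of the generalized Frobenius theorem. -/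
theorem card_sol_central {T : Type u} [Group T] [Finite T] {p : ℕ} (hp : p.Prime) (a : ℕ) {d : T}
    (hd : d ∈ center T) (hk : ∃ k, d ^ (p ^ k) = 1) :
    Nat.gcd (p ^ a) (Nat.card T) ∣ Nat.card {u : T // u ^ (p ^ a) = d} :=
  card_sol_central_aux _ T rfl p hp a d hd hk

end Core

section Reduce

variable {T : Type u} [Group T] [Finite T]

/-- Removing the prime-to-`p` part of the exponent on `p`-elements. -/
theorem card_reduce {p e a m g' : ℕ} (hp : p.Prime) (hm : ¬ p ∣ m) (hg' : ¬ p ∣ g')
    (hT : ∀ y : T, y ^ (p ^ e * g') = 1) {d : T} (hd : d ^ (p ^ e) = 1) :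
    Nat.card {y : T // y ^ (p ^ e) = 1 ∧ y ^ (p ^ a * m) = d} = Nat.card {y : T // y ^ (p ^ a) = d} := by
  have hco : Nat.Coprime m (p ^ e) :=
    Nat.Coprime.pow_right _ (((Nat.Prime.coprime_iff_not_dvd hp).mpr hm).symm)
  obtain ⟨m', -, hm'⟩ := Nat.exists_mul_mod_eq_of_coprime 1 hco (by have := hp.pos; positivity)
  have hmod : m * m' ≡ 1 [MOD p ^ e] := hm'
  have hback : ∀ y : T, y ^ (p ^ e) = 1 → y ^ (m * m') = y := by
    intro y hy
    have h2 := pow_eq_pow_iff_modEq.mpr (hmod.of_dvd (orderOf_dvd_of_pow_eq_one hy))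
    rw [h2, pow_one]
  have hcopg : Nat.Coprime (p ^ e) g' := Nat.Coprime.pow_left _ ((Nat.Prime.coprime_iff_not_dvd hp).mpr hg')
  have hpel : ∀ y : T, y ^ (p ^ a) = d → y ^ (p ^ e) = 1 := by
    intro y hy
    have h1 : y ^ (p ^ (a + e)) = 1 := by rw [pow_add, pow_mul, hy, hd]
    obtain ⟨i, -, hi⟩ := (Nat.dvd_prime_pow hp).mp (orderOf_dvd_of_pow_eq_one h1)
    have h2 : orderOf y ∣ p ^ e * g' := orderOf_dvd_of_pow_eq_one (hT y)
    rw [hi] at h2
    have h3 : p ^ i ∣ p ^ e :=
      ((Nat.Coprime.pow_left _ ((Nat.Prime.coprime_iff_not_dvd hp).mpr hg'))).dvd_of_dvd_mul_right h2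
    exact orderOf_dvd_iff_pow_eq_one.mp (hi ▸ h3)
  apply le_antisymm
  · apply Nat.card_le_card_of_injective
      (fun y : {y : T // y ^ (p ^ e) = 1 ∧ y ^ (p ^ a * m) = d} => (⟨y.1 ^ m, by
        have := y.2.2
        rw [← pow_mul, mul_comm m]
        exact this⟩ : {y : T // y ^ (p ^ a) = d}))
    intro x y hxy
    apply Subtype.ext
    have h1 : x.1 ^ m = y.1 ^ m := Subtype.mk.inj hxy
    have h2 := congrArg (· ^ m') h1
    simp only [← pow_mul] at h2
    rwa [hback _ x.2.1, hback _ y.2.1] at h2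
  · apply Nat.card_le_card_of_injective
      (fun y : {y : T // y ^ (p ^ a) = d} => (⟨y.1 ^ m', by
        constructor
        · rw [← pow_mul, mul_comm, pow_mul, hpel _ y.2, one_pow]
        · have e : (y.1 ^ m') ^ (p ^ a * m) = (y.1 ^ (p ^ a)) ^ (m * m') := by
            rw [← pow_mul, ← pow_mul]
            congr 1
            ring
          rw [e, y.2, hback d hd]⟩ : {y : T // y ^ (p ^ e) = 1 ∧ y ^ (p ^ a * m) = d}))
    intro x y hxy
    apply Subtype.ext
    have h1 : x.1 ^ m' = y.1 ^ m' := Subtype.mk.inj hxy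
    have h2 := congrArg (· ^ m) h1
    simp only [← pow_mul, mul_comm m' m] at h2
    rwa [hback _ (hpel _ x.2), hback _ (hpel _ y.2)] at h2

end Reduce

section General

variable {U : Type u} [Group U] [Finite U]

open Classical in
/-- The number of solutions of `y ^ n = d` (with `y` a `p`-element) commuting with `z`. -/
noncomputable def sol2 [Fintype U] (P n : ℕ) (d z : U) : ℕ :=
  (univ.filter fun y : U => Commute y z ∧ y ^ P = 1 ∧ y ^ n = d).card

theorem sol2_eq_of_isConj [Fintype U] (P n : ℕ) {d z z' : U} (hd : d ∈ center U) (h : IsConj z z') :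
    sol2 P n d z' = sol2 P n d z := by
  classical
  obtain ⟨g, rfl⟩ := isConj_iff.mp h
  unfold sol2
  have hdg : g⁻¹ * d * g = d := by
    have := (mem_center_iff.mp hd) g⁻¹
    rw [this]; group
  have hdg' : g * d * g⁻¹ = d := by
    have := (mem_center_iff.mp hd) g
    rw [this]; group
  refine Finset.card_bij (fun y _ => g⁻¹ * y * g) ?_ ?_ ?_
  · intro y hy
    simp only [mem_filter, mem_univ, true_and] at hy ⊢
    obtain ⟨h1, h2, h3⟩ := hy
    refine ⟨?_, ?_, ?_⟩
    · have h4 : y * (g * z * g⁻¹) = g * z * g⁻¹ * y := h1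
      show g⁻¹ * y * g * z = z * (g⁻¹ * y * g)
      calc g⁻¹ * y * g * z = g⁻¹ * (y * (g * z * g⁻¹)) * g := by group
        _ = g⁻¹ * (g * z * g⁻¹ * y) * g := by rw [h4]
        _ = z * (g⁻¹ * y * g) := by group
    · have : g⁻¹ * y * g = g⁻¹ * y * g⁻¹⁻¹ := by simp
      rw [this, conj_pow, h2]
      group
    · have : g⁻¹ * y * g = g⁻¹ * y * g⁻¹⁻¹ := by simp
      rw [this, conj_pow, h3]
      simpa using hdg
  · intro a _ b _ hab
    exact mul_left_cancel (mul_right_cancel hab)
  · intro y hy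
    simp only [mem_filter, mem_univ, true_and] at hy
    obtain ⟨h1, h2, h3⟩ := hy
    refine ⟨g * y * g⁻¹, ?_, by group⟩
    simp only [mem_filter, mem_univ, true_and]
    refine ⟨?_, ?_, ?_⟩
    · show g * y * g⁻¹ * (g * z * g⁻¹) = g * z * g⁻¹ * (g * y * g⁻¹)
      have h4 : y * z = z * y := h1
      calc g * y * g⁻¹ * (g * z * g⁻¹) = g * (y * z) * g⁻¹ := by group
        _ = g * (z * y) * g⁻¹ := by rw [h4]
        _ = _ := by group
    · rw [conj_pow, h2]
      group
    · rw [conj_pow, h3, hdg']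

/-- Generalized Frobenius: for a central element `c`, `gcd(n, |U|)` divides the number of solutions of
`x ^ n = c`. -/
theorem card_sol_central_gen (c : U) (hc : c ∈ center U) (n : ℕ) (hn : 0 < n) :
    Nat.gcd n (Nat.card U) ∣ Nat.card {x : U // x ^ n = c} := by
  classical
  haveI := Fintype.ofFinite U
  rw [Nat.dvd_iff_prime_pow_dvd_dvd]
  intro p s hp hps
  haveI : Fact p.Prime := ⟨hp⟩
  obtain ⟨a, m, hm, hnm⟩ := Nat.exists_eq_pow_mul_and_not_dvd hn.ne' p hp.ne_one
  obtain ⟨e, g', hg', hUm⟩ := Nat.exists_eq_pow_mul_and_not_dvd (Nat.card_pos (α := U)).ne' p hp.ne_one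
  set P := p ^ e with hP
  have hco : P.Coprime g' := Nat.Coprime.pow_left _ ((Nat.Prime.coprime_iff_not_dvd hp).mpr hg')
  have hexp : ∀ x : U, x ^ (P * g') = 1 := by
    intro x
    rw [← hUm]
    exact pow_card_eq_one'
  obtain ⟨u, hu1, hu2⟩ := Nat.chineseRemainder hco 1 0
  obtain ⟨v, hv1, hv2⟩ := Nat.chineseRemainder hco 0 1
  have hgu : g' ∣ u := (Nat.modEq_zero_iff_dvd).mp hu2
  have hPv : P ∣ v := (Nat.modEq_zero_iff_dvd).mp hv1
  have huv : u + v ≡ 1 [MOD P * g'] := by
    rw [← Nat.modEq_and_modEq_iff_modEq_mul hco]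
    constructor
    · have := hu1.add hv1
      simpa using this
    · have := hu2.add hv2
      simpa using this
  have huvx : ∀ x : U, x ^ u * x ^ v = x := by
    intro x
    rw [← pow_add, ← pow_mod_orderOf, show (u + v) % orderOf x = 1 % orderOf x from
      Nat.ModEq.of_dvd (orderOf_dvd_of_pow_eq_one (hexp x)) huv, pow_mod_orderOf, pow_one]
  obtain ⟨d, hd⟩ : ∃ d, d = c ^ u := ⟨_, rfl⟩
  obtain ⟨c', hc'⟩ : ∃ c', c' = c ^ v := ⟨_, rfl⟩
  have hdcen : d ∈ center U := hd ▸ pow_mem hc u
  have hc'cen : c' ∈ center U := hc' ▸ pow_mem hc v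
  have hdP : d ^ P = 1 := by
    obtain ⟨w, rfl⟩ := hgu
    rw [hd, ← pow_mul, show g' * w * P = P * g' * w by ring, pow_mul, hexp, one_pow]
  have hcdc : d * c' = c := by rw [hd, hc', huvx]
  let Z : Finset U := univ.filter fun z : U => z ^ g' = 1 ∧ z ^ n = c'
  have hX : (univ.filter fun x : U => x ^ n = c).card = ∑ z ∈ Z, sol2 P n d z := by
    have hsig : ∑ z ∈ Z, sol2 P n d z =
        (Z.sigma fun z => univ.filter fun y : U => Commute y z ∧ y ^ P = 1 ∧ y ^ n = d).card := by
      rw [card_sigma]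
      rfl
    rw [hsig]
    refine Finset.card_bij' (fun x _ => ⟨x ^ v, x ^ u⟩) (fun t _ => t.2 * t.1) ?_ ?_ ?_ ?_
    · intro x hx
      have hx1 : x ^ n = c := (mem_filter.mp hx).2
      have h1 : (x ^ v) ^ g' = 1 := by
        obtain ⟨w, rfl⟩ := hPv
        rw [← pow_mul, show P * w * g' = P * g' * w by ring, pow_mul, hexp, one_pow]
      have h2 : (x ^ v) ^ n = c' := by
        rw [← pow_mul, mul_comm, pow_mul, hx1, hc']
      have h3 : (x ^ u) ^ P = 1 := by
        obtain ⟨w, rfl⟩ := hgu
        rw [← pow_mul, show g' * w * P = P * g' * w by ring, pow_mul, hexp, one_pow]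
      have h4 : (x ^ u) ^ n = d := by
        rw [← pow_mul, mul_comm, pow_mul, hx1, hd]
      simp only [mem_sigma, Z, mem_filter, mem_univ, true_and]
      exact ⟨⟨h1, h2⟩, Commute.pow_pow_self x u v, h3, h4⟩
    · rintro ⟨z, y⟩ ht
      simp only [mem_sigma, Z, mem_filter, mem_univ, true_and] at ht
      obtain ⟨⟨hz1, hz2⟩, hcomm, hy1, hy2⟩ := ht
      simp only [mem_filter, mem_univ, true_and]
      rw [hcomm.mul_pow, hy2, hz2, hcdc]
    · intro x _
      show x ^ u * x ^ v = x
      exact huvx x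
    · rintro ⟨z, y⟩ ht
      simp only [mem_sigma, Z, mem_filter, mem_univ, true_and] at ht
      obtain ⟨⟨hz1, hz2⟩, hcomm, hy1, hy2⟩ := ht
      have hyu : y ^ u = y := by
        have hyP : orderOf y ∣ P := orderOf_dvd_of_pow_eq_one hy1
        rw [← pow_mod_orderOf, show u % orderOf y = 1 % orderOf y from
          Nat.ModEq.of_dvd hyP hu1, pow_mod_orderOf, pow_one]
      have hzu : z ^ u = 1 := by
        obtain ⟨w, rfl⟩ := hgu
        rw [pow_mul, hz1, one_pow]
      have hyv : y ^ v = 1 := by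
        obtain ⟨w, rfl⟩ := hPv
        rw [pow_mul, hy1, one_pow]
      have hzv : z ^ v = z := by
        have hzm : orderOf z ∣ g' := orderOf_dvd_of_pow_eq_one hz1
        rw [← pow_mod_orderOf, show v % orderOf z = 1 % orderOf z from Nat.ModEq.of_dvd hzm hv2,
          pow_mod_orderOf, pow_one]
      show (⟨(y * z) ^ v, (y * z) ^ u⟩ : Σ _ : U, U) = ⟨z, y⟩
      rw [hcomm.mul_pow, hcomm.mul_pow, hyu, hzu, hyv, hzv, mul_one, one_mul]
  have hXc : Nat.card {x : U // x ^ n = c} = (univ.filter fun x : U => x ^ n = c).card := by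
    rw [Nat.card_eq_fintype_card, Fintype.card_subtype]
  rw [hXc, hX]
  apply dvd_sum_of_setoid _ (IsConj.setoid U)
  · intro x _ y _ hxy
    exact sol2_eq_of_isConj P n hdcen (IsConj.symm hxy)
  · intro z hz
    have hz' : z ^ g' = 1 ∧ z ^ n = c' := (mem_filter.mp hz).2
    have hcard : (Z.filter fun y => (IsConj.setoid U).r y z).card =
        (centralizer ({z} : Set U)).index := by
      rw [← Cfsg.Agent.Lib.ClassSizes.card_isConj_eq_index, Nat.card_eq_fintype_card,
        Fintype.card_subtype]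
      congr 1
      ext y
      simp only [mem_filter, Z, mem_univ, true_and]
      constructor
      · rintro ⟨-, h⟩
        exact IsConj.symm h
      · intro h
        refine ⟨?_, IsConj.symm h⟩
        obtain ⟨g, rfl⟩ := isConj_iff.mp h
        constructor
        · rw [conj_pow, hz'.1]; group
        · rw [conj_pow, hz'.2, (mem_center_iff.mp hc'cen) g]; group
    rw [hcard]
    -- pass to the centralizer
    set T := centralizer ({z} : Set U) with hT
    have hdT : d ∈ T := by
      rw [hT, mem_centralizer_singleton_iff]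
      exact ((mem_center_iff.mp hdcen) z).symm
    let dT : T := ⟨d, hdT⟩
    have hdTc : dT ∈ center T := by
      rw [mem_center_iff]
      intro g
      apply Subtype.ext
      exact (mem_center_iff.mp hdcen) g
    have hdTP : dT ^ P = 1 := by
      apply Subtype.ext
      simpa using hdP
    have hsol : sol2 P n d z = Nat.card {y : T // y ^ P = 1 ∧ y ^ n = dT} := by
      unfold sol2
      rw [Nat.card_eq_fintype_card, Fintype.card_subtype]
      symm
      refine Finset.card_bij (fun y _ => (y : U)) ?_ ?_ ?_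
      · intro y hy
        obtain ⟨h1, h2⟩ := (mem_filter.mp hy).2
        simp only [mem_filter, mem_univ, true_and]
        refine ⟨mem_centralizer_singleton_iff.mp y.2, ?_, ?_⟩
        · simpa using congrArg Subtype.val h1
        · simpa [dT] using congrArg Subtype.val h2
      · intro s _ t _ hst
        exact Subtype.ext hst
      · intro y hy
        simp only [mem_filter, mem_univ, true_and] at hy
        obtain ⟨h1, h2, h3⟩ := hy
        refine ⟨⟨y, mem_centralizer_singleton_iff.mpr h1⟩, ?_, rfl⟩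
        simp only [mem_filter, mem_univ, true_and]
        constructor
        · apply Subtype.ext
          simpa using h2
        · apply Subtype.ext
          simpa [dT] using h3
    have hTexp : ∀ y : T, y ^ (p ^ e * g') = 1 := by
      intro y
      apply Subtype.ext
      simpa using hexp y
    rw [hsol, hnm]
    have hred := card_reduce (a := a) (m := m) hp hm hg' hTexp hdTP
    rw [hred]
    have hF := card_sol_central (T := T) hp a hdTc ⟨e, hdTP⟩
    have hTU : Nat.card T * T.index = Nat.card U := T.card_mul_index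
    have h1 : p ^ s ∣ p ^ a * T.index := by
      have : p ^ s ∣ n := hps.trans (Nat.gcd_dvd_left _ _)
      have h2 : p ^ s ∣ p ^ a * m := hnm ▸ this
      have h3 : p ^ s ∣ p ^ a :=
        ((Nat.Coprime.pow_left _ ((Nat.Prime.coprime_iff_not_dvd hp).mpr hm))).dvd_of_dvd_mul_right h2
      exact Dvd.dvd.mul_right h3 _
    have h2 : p ^ s ∣ Nat.card T * T.index := by
      rw [hTU]
      exact hps.trans (Nat.gcd_dvd_right _ _)
    have h3 : p ^ s ∣ Nat.gcd (p ^ a) (Nat.card T) * T.index := by
      rw [← Nat.gcd_mul_right]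
      exact Nat.dvd_gcd h1 h2
    rw [mul_comm]
    exact h3.trans (Nat.mul_dvd_mul_right hF _)

end General

section Final

variable {G : Type u} [Group G] [Finite G]

/-- **Frobenius' theorem** on elements whose `n`-th power lies in a given class. -/
theorem frobenius_class (c : G) (n : ℕ) :
    Nat.gcd (Nat.card {y : G // IsConj c y} * n) (Nat.card G) ∣ Nat.card {x : G // IsConj c (x ^ n)} := by
  classical
  haveI := Fintype.ofFinite G
  rcases Nat.eq_zero_or_pos n with rfl | hn
  · simp only [mul_zero, Nat.gcd_zero_left, pow_zero]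
    by_cases hc : c = 1
    · subst hc
      have : Nat.card {x : G // IsConj (1 : G) 1} = Nat.card G :=
        Nat.card_congr (Equiv.subtypeUnivEquiv (fun _ => IsConj.refl _))
      rw [this]
    · have : IsEmpty {x : G // IsConj c 1} := ⟨fun x => hc (isConj_one_right.mp x.2.symm)⟩
      have h0 : Nat.card {x : G // IsConj c 1} = 0 := Nat.card_of_isEmpty
      rw [h0]
      exact dvd_zero _
  set U := centralizer ({c} : Set G) with hU
  have hcU : c ∈ U := by
    rw [hU, mem_centralizer_singleton_iff]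
  let cU : U := ⟨c, hcU⟩
  have hcc : cU ∈ center U := by
    rw [mem_center_iff]
    intro g
    apply Subtype.ext
    exact mem_centralizer_singleton_iff.mp g.2
  have hF := card_sol_central_gen cU hcc n hn
  have hidx : Nat.card {y : G // IsConj c y} = U.index := Cfsg.Agent.Lib.ClassSizes.card_isConj_eq_index c
  have hUG : Nat.card U * U.index = Nat.card G := U.card_mul_index
  -- solutions in `G` and in the centralizer
  have hsol : Nat.card {x : G // x ^ n = c} = Nat.card {x : U // x ^ n = cU} := by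
    rw [Nat.card_eq_fintype_card, Nat.card_eq_fintype_card, Fintype.card_subtype, Fintype.card_subtype]
    symm
    refine Finset.card_bij (fun y _ => (y : G)) ?_ ?_ ?_
    · intro y hy
      have h1 := (mem_filter.mp hy).2
      simp only [mem_filter, mem_univ, true_and]
      simpa [cU] using congrArg Subtype.val h1
    · intro s _ t _ hst
      exact Subtype.ext hst
    · intro y hy
      simp only [mem_filter, mem_univ, true_and] at hy
      have hyc : y ∈ U := by
        rw [hU, mem_centralizer_singleton_iff, ← hy, ← pow_succ, pow_succ']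
      refine ⟨⟨y, hyc⟩, ?_, rfl⟩
      simp only [mem_filter, mem_univ, true_and]
      apply Subtype.ext
      simpa [cU] using hy
  -- partition by the value of the power
  have hcount : Nat.card {x : G // IsConj c (x ^ n)} =
      Nat.card {y : G // IsConj c y} * Nat.card {x : G // x ^ n = c} := by
    rw [Nat.card_eq_fintype_card, Nat.card_eq_fintype_card, Nat.card_eq_fintype_card,
      Fintype.card_subtype, Fintype.card_subtype, Fintype.card_subtype]
    rw [Finset.card_eq_sum_card_fiberwise (f := fun x : G => x ^ n)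
      (t := univ.filter fun y : G => IsConj c y)]
    · rw [Finset.sum_congr rfl (g := fun _ => (univ.filter fun x : G => x ^ n = c).card), Finset.sum_const,
        smul_eq_mul]
      intro y hy
      have hy' : IsConj c y := (mem_filter.mp hy).2
      obtain ⟨g, rfl⟩ := isConj_iff.mp hy'
      symm
      refine Finset.card_bij (fun x _ => g * x * g⁻¹) ?_ ?_ ?_
      · intro x hx
        have hx' : x ^ n = c := (mem_filter.mp hx).2
        simp only [mem_filter, mem_univ, true_and]
        rw [conj_pow, hx']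
        exact ⟨isConj_iff.mpr ⟨g, rfl⟩, rfl⟩
      · intro a _ b _ hab
        exact mul_left_cancel (mul_right_cancel hab)
      · intro x hx
        simp only [mem_filter, mem_univ, true_and] at hx
        refine ⟨g⁻¹ * x * g, ?_, by group⟩
        simp only [mem_filter, mem_univ, true_and]
        have : g⁻¹ * x * g = g⁻¹ * x * g⁻¹⁻¹ := by simp
        rw [this, conj_pow, hx.2]
        group
    · intro x hx
      have hx' := (mem_filter.mp (Finset.mem_coe.mp hx)).2
      simp only [Finset.coe_filter, mem_univ, true_and, Set.mem_setOf_eq]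
      exact hx'
  rw [hcount, hidx, hsol, ← hUG, mul_comm (Nat.card U), Nat.gcd_mul_left]
  exact Nat.mul_dvd_mul_left _ hF

end Final

end Cfsg.Agent.Lib.ClassSizes.FrobGen
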