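import Mathlib
import Cfsg.Agent.Lib.Hall.Gaschutz2

/-!
# Gaschütz's theorem: complements of abelian normal subgroups and Sylow subgroups of the quotient
-/

set_option autoImplicit false

namespace Cfsg.Agent.Lib.ClassSizes.GaschutzSylow

open Subgroup

variable {G : Type*} [Group G] [Finite G]

/-- The reduction step modulo `D`. -/
theorem exists_partial (A D U K : Subgroup G) [hA : A.Normal] [hD : D.Normal] (hAc : IsMulCommutative A)
    (hDA : D ≤ A) {p : ℕ} [Fact p.Prime] (hp : ∀ a ∈ A, ∃ k : ℕ, a ^ (p ^ k) ∈ D) (hAU : A ≤ U)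
    (hU : ¬ p ∣ U.index) (hKA : K ⊓ A = ⊥) (hKU : K ⊔ A = U) :
    ∃ C : Subgroup G, C ⊓ A = D ∧ C.index = D.relIndex A ∧ (∃ j : ℕ, C.index = p ^ j) ∧
      C.index ∣ Nat.card A := by
  classical
  set φ := QuotientGroup.mk' D with hφ
  have hsurj : Function.Surjective φ := QuotientGroup.mk'_surjective D
  have hker : φ.ker = D := QuotientGroup.ker_mk' D
  haveI hAn : (A.map φ).Normal := Subgroup.Normal.map hA φ hsurj
  haveI hAcm : IsMulCommutative (A.map φ) := by
    refine ⟨⟨?_⟩⟩
    rintro ⟨_, a, ha, rfl⟩ ⟨_, b, hb, rfl⟩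
    apply Subtype.ext
    show φ a * φ b = φ b * φ a
    have := hAc.is_comm.comm ⟨a, ha⟩ ⟨b, hb⟩
    have h2 : a * b = b * a := congrArg Subtype.val this
    rw [← map_mul, h2, map_mul]
  have hpg : IsPGroup p (A.map φ) := by
    rintro ⟨_, a, ha, rfl⟩
    obtain ⟨k, hk⟩ := hp a ha
    refine ⟨k, ?_⟩
    apply Subtype.ext
    show (φ a) ^ (p ^ k) = 1
    rw [← map_pow]
    exact (QuotientGroup.eq_one_iff _).mpr hk
  have hcardKbar : Nat.card (A.map φ) = D.relIndex A := by
    have h3 := Subgroup.relIndex_ker (K := A) φ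
    rw [hker] at h3
    exact h3.symm
  have hUidx : (U.map φ).index = U.index :=
    Subgroup.index_map_eq U hsurj (by rw [hker]; exact hDA.trans hAU)
  have hcop : (Nat.card (A.map φ)).Coprime (U.map φ).index := by
    obtain ⟨j, hj⟩ := IsPGroup.iff_card.mp hpg
    rw [hj, hUidx]
    exact Nat.Coprime.pow_left _ ((Nat.Prime.coprime_iff_not_dvd Fact.out).mpr hU)
  have hdisj : K.map φ ⊓ A.map φ = ⊥ := by
    rw [eq_bot_iff]
    rintro _ ⟨⟨k, hk, rfl⟩, ⟨a, ha, hak⟩⟩
    have h1 : a⁻¹ * k ∈ D := QuotientGroup.eq.mp hak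
    have h2 : k ∈ A := by
      have h3 : k = a * (a⁻¹ * k) := by group
      rw [h3]
      exact A.mul_mem ha (hDA h1)
    have h4 : k ∈ K ⊓ A := ⟨hk, h2⟩
    rw [hKA] at h4
    have h5 : k = 1 := h4
    rw [h5, map_one]
    exact Subgroup.one_mem _
  have hsup : A.map φ ⊔ K.map φ = U.map φ := by
    rw [← Subgroup.map_sup, sup_comm, hKU]
  obtain ⟨H, hH⟩ := Cfsg.Agent.Lib.Hall.gaschutz_exists (K := A.map φ) (U := U.map φ)
    (Subgroup.map_mono hAU) hcop (K.map φ) hdisj hsup
  refine ⟨H.comap φ, ?_, ?_, ?_, ?_⟩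
  · apply le_antisymm
    · rintro x ⟨hx1, hx2⟩
      have h1 : φ x ∈ A.map φ ⊓ H := ⟨⟨x, hx2, rfl⟩, hx1⟩
      rw [hH.disjoint.eq_bot] at h1
      exact (QuotientGroup.eq_one_iff x).mp h1
    · intro x hx
      refine ⟨?_, hDA hx⟩
      show φ x ∈ H
      have : φ x = 1 := (QuotientGroup.eq_one_iff x).mpr hx
      rw [this]
      exact H.one_mem
  · rw [Subgroup.index_comap_of_surjective _ hsurj, ← hcardKbar]
    exact hH.index_eq_card
  · rw [Subgroup.index_comap_of_surjective _ hsurj, hH.index_eq_card]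
    exact IsPGroup.iff_card.mp hpg
  · rw [Subgroup.index_comap_of_surjective _ hsurj, hH.index_eq_card, hcardKbar]
    exact Subgroup.relIndex_dvd_card _ _

/-- **Gaschütz's theorem**. -/
theorem gaschutz_sylow (A : Subgroup G) [hAn : A.Normal] (hA : IsMulCommutative A) :
    (∃ K : Subgroup G, K.IsComplement' A) ↔ ∀ p : ℕ, p.Prime → p ∣ A.index →
      ∃ (S : Sylow p (G ⧸ A)) (K : Subgroup G), K ⊓ A = ⊥ ∧
        K ⊔ A = (S : Subgroup (G ⧸ A)).comap (QuotientGroup.mk' A) := by
  classical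
  have hcomm : ∀ a ∈ A, ∀ b ∈ A, a * b = b * a := by
    intro a ha b hb
    exact congrArg Subtype.val (hA.is_comm.comm ⟨a, ha⟩ ⟨b, hb⟩)
  constructor
  · rintro ⟨C, hC⟩ p hp -
    haveI : Fact p.Prime := ⟨hp⟩
    let S : Sylow p (G ⧸ A) := default
    have hAP : A ≤ (S : Subgroup (G ⧸ A)).comap (QuotientGroup.mk' A) := by
      intro a ha
      rw [mem_comap]
      have : QuotientGroup.mk' A a = 1 := (QuotientGroup.eq_one_iff a).mpr ha
      rw [this]
      exact Subgroup.one_mem _
    refine ⟨S, C ⊓ (S : Subgroup (G ⧸ A)).comap (QuotientGroup.mk' A), ?_, ?_⟩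
    · rw [eq_bot_iff]
      rintro x ⟨⟨hx1, -⟩, hx2⟩
      have h1 : x ∈ C ⊓ A := ⟨hx1, hx2⟩
      rw [hC.disjoint.eq_bot] at h1
      exact h1
    · apply le_antisymm
      · exact sup_le inf_le_right hAP
      · intro x hx
        have hxtop : x ∈ C ⊔ A := by
          rw [hC.sup_eq_top]
          trivial
        obtain ⟨c, hc, a, ha, rfl⟩ := Subgroup.mem_sup_of_normal_right.mp hxtop
        refine Subgroup.mul_mem_sup ⟨hc, ?_⟩ ha
        have h1 : c = (c * a) * a⁻¹ := by group
        rw [h1]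
        exact Subgroup.mul_mem _ hx (hAP (A.inv_mem ha))
  · intro hyp
    have hcardA : Nat.card A ≠ 0 := Nat.card_pos.ne'
    have key : ∀ p : (Nat.card A).primeFactors, ∃ C : Subgroup G,
        (∀ x ∈ C, x ∈ A → ¬ (p : ℕ) ∣ orderOf x) ∧
          C.index ∣ (p : ℕ) ^ ((Nat.card A).factorization p) := by
      rintro ⟨p, hp⟩
      have hpp : p.Prime := Nat.prime_of_mem_primeFactors hp
      haveI : Fact p.Prime := ⟨hpp⟩
      obtain ⟨e, m, hm, hnm⟩ := Nat.exists_eq_pow_mul_and_not_dvd hcardA p hpp.ne_one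
      -- the `p'`-part of `A`
      obtain ⟨D, hD⟩ : ∃ D : Subgroup G, ∀ x, x ∈ D ↔ x ∈ A ∧ x ^ m = 1 := by
        refine ⟨{ carrier := {x | x ∈ A ∧ x ^ m = 1}
                  mul_mem' := ?_
                  one_mem' := ⟨A.one_mem, one_pow m⟩
                  inv_mem' := ?_ }, fun x => Iff.rfl⟩
        · rintro x y ⟨hx, hx2⟩ ⟨hy, hy2⟩
          refine ⟨A.mul_mem hx hy, ?_⟩
          have hc : Commute x y := hcomm x hx y hy
          rw [hc.mul_pow, hx2, hy2, one_mul]
        · rintro x ⟨hx, hx2⟩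
          exact ⟨A.inv_mem hx, by rw [inv_pow, hx2, inv_one]⟩
      haveI hDn : D.Normal := by
        refine ⟨fun x hx g => ?_⟩
        obtain ⟨h1, h2⟩ := (hD x).mp hx
        refine (hD _).mpr ⟨hAn.conj_mem x h1 g, ?_⟩
        rw [conj_pow, h2]
        group
      have hDA : D ≤ A := fun x hx => ((hD x).mp hx).1
      have hpow : ∀ a ∈ A, ∃ k : ℕ, a ^ (p ^ k) ∈ D := by
        intro a ha
        refine ⟨e, (hD _).mpr ⟨pow_mem ha _, ?_⟩⟩
        rw [← pow_mul, ← hnm]
        have h := pow_card_eq_one' (x := (⟨a, ha⟩ : A))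
        have h' : (((⟨a, ha⟩ : A) ^ Nat.card A : A) : G) = 1 := by rw [h]; rfl
        simpa only [Subgroup.coe_pow] using h'
      obtain ⟨U, K, hAU, hU, hKA, hKU⟩ : ∃ U K : Subgroup G, A ≤ U ∧ ¬ p ∣ U.index ∧ K ⊓ A = ⊥ ∧ K ⊔ A = U := by
        by_cases hdvd : p ∣ A.index
        · obtain ⟨S, K, h1, h2⟩ := hyp p hpp hdvd
          refine ⟨_, K, ?_, ?_, h1, h2⟩
          · rw [← h2]; exact le_sup_right
          · rw [Subgroup.index_comap_of_surjective _ (QuotientGroup.mk'_surjective A)]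
            exact S.not_dvd_index
        · exact ⟨A, ⊥, le_rfl, hdvd, bot_inf_eq _, bot_sup_eq _⟩
      obtain ⟨C, h1, -, ⟨j, hj⟩, h3⟩ := exists_partial A D U K hA hDA hpow hAU hU hKA hKU
      refine ⟨C, ?_, ?_⟩
      · intro x hxC hxA
        have hxD : x ∈ D := by
          rw [← h1]
          exact ⟨hxC, hxA⟩
        have h4 : x ^ m = 1 := ((hD x).mp hxD).2
        intro h5
        exact hm (h5.trans (orderOf_dvd_of_pow_eq_one h4))
      · rw [hj]
        rw [hj] at h3
        exact pow_dvd_pow p ((Nat.Prime.pow_dvd_iff_le_factorization hpp hcardA).mp h3)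
    choose C hC1 hC2 using key
    refine ⟨⨅ p, C p, ?_⟩
    have hdisj : Disjoint (⨅ p, C p) A := by
      rw [disjoint_iff, eq_bot_iff]
      rintro x ⟨hx1, hx2⟩
      rw [Subgroup.mem_bot]
      by_contra hx
      have h1 : orderOf x ≠ 1 := fun h => hx (orderOf_eq_one_iff.mp h)
      obtain ⟨r, hr, hrd⟩ := Nat.exists_prime_and_dvd h1
      have hrA : r ∣ Nat.card A := by
        refine hrd.trans ?_
        have := orderOf_dvd_natCard (⟨x, hx2⟩ : A)
        simpa [Subgroup.orderOf_mk] using this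
      have hmem : r ∈ (Nat.card A).primeFactors := Nat.mem_primeFactors.mpr ⟨hr, hrA, hcardA⟩
      exact hC1 ⟨r, hmem⟩ x ((Subgroup.mem_iInf).mp hx1 _) hx2 hrd
    apply Subgroup.isComplement'_of_card_mul_and_disjoint _ hdisj
    have hle : (⨅ p, C p).index ≤ Nat.card A := by
      refine (Subgroup.index_iInf_le C).trans ?_
      have h1 : ∏ p : (Nat.card A).primeFactors, (C p).index ∣
          ∏ p : (Nat.card A).primeFactors, (p : ℕ) ^ ((Nat.card A).factorization p) :=
        Finset.prod_dvd_prod_of_dvd _ _ (fun p _ => hC2 p)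
      have h2 : ∏ p : (Nat.card A).primeFactors, (p : ℕ) ^ ((Nat.card A).factorization p) = Nat.card A := by
        have h3 := Nat.factorization_prod_pow_eq_self hcardA
        rw [Finsupp.prod, Nat.support_factorization] at h3
        calc ∏ p : (Nat.card A).primeFactors, (p : ℕ) ^ ((Nat.card A).factorization p)
            = ∏ p ∈ (Nat.card A).primeFactors, p ^ ((Nat.card A).factorization p) :=
              Finset.prod_coe_sort (Nat.card A).primeFactors (fun p => p ^ (Nat.card A).factorization p)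
          _ = Nat.card A := h3
      rw [h2] at h1
      exact Nat.le_of_dvd Nat.card_pos h1
    have hge : Nat.card (⨅ p, C p : Subgroup G) * Nat.card A ≤ Nat.card G := by
      have h1 : Nat.card (⨅ p, C p : Subgroup G) * Nat.card A =
          Nat.card ((⨅ p, C p : Subgroup G) ⊔ A : Subgroup G) := by
        set D : Subgroup G := ⨅ p, C p with hDdef
        have hbot : A.subgroupOf D = ⊥ := by
          rw [eq_bot_iff]
          rintro ⟨x, hx⟩ hxA
          have hxA' : x ∈ A := by simpa [Subgroup.mem_subgroupOf] using hxA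
          have : x ∈ D ⊓ A := ⟨hx, hxA'⟩
          rw [hdisj.eq_bot] at this
          rw [Subgroup.mem_bot]
          exact Subtype.ext ((Subgroup.mem_bot).mp this)
        have h2 : A.relIndex D = Nat.card D := by
          rw [Subgroup.relIndex, hbot, Subgroup.index_bot]
        have h3 : A.relIndex (D ⊔ A) = A.relIndex D := Subgroup.relIndex_sup_right D A
        have h4 := (A.subgroupOf (D ⊔ A)).card_mul_index
        have h5 : Nat.card (A.subgroupOf (D ⊔ A)) = Nat.card A :=
          Nat.card_congr (Subgroup.subgroupOfEquivOfLe le_sup_right).toEquiv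
        rw [h5] at h4
        change Nat.card A * A.relIndex (D ⊔ A) = _ at h4
        rw [h3, h2] at h4
        rw [mul_comm]
        exact h4
      rw [h1]
      exact Nat.le_of_dvd Nat.card_pos (Subgroup.card_subgroup_dvd_card _)
    apply le_antisymm hge
    have h1 := (⨅ p, C p : Subgroup G).card_mul_index
    rw [← h1]
    exact Nat.mul_le_mul_left _ hle

end Cfsg.Agent.Lib.ClassSizes.GaschutzSylow
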