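import Mathlib
import Cfsg.Agent.Lib.ClassSizes.TameFocal

/-!
# Grün's first theorem
-/

set_option linter.style.haveILetI false

universe u

namespace Cfsg.Agent.Lib.ClassSizes.Grun

open Cfsg Cfsg.Agent.Lib.Techniques Cfsg.Agent.Lib.Transfer Cfsg.Agent.Lib.ClassSizes.TameFocal
open scoped commutatorElement Pointwise

variable {G : Type u} [Group G] [Finite G] {p : ℕ} [Fact p.Prime]

/-- Grün's first theorem. -/
theorem grun_first (P : Sylow p G) :
    (P : Subgroup G) ⊓ commutator G = ((P : Subgroup G) ⊓ ⁅Subgroup.normalizer ((P : Subgroup G) : Set G), Subgroup.normalizer ((P : Subgroup G) : Set G)⁆) ⊔ ⨆ z : G, (P : Subgroup G) ⊓ (⁅(P : Subgroup G), (P : Subgroup G)⁆).map (MulAut.conj z).toMonoidHom := by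
  set R : Subgroup G := ((P : Subgroup G) ⊓ ⁅Subgroup.normalizer ((P : Subgroup G) : Set G), Subgroup.normalizer ((P : Subgroup G) : Set G)⁆) ⊔ ⨆ z : G, (P : Subgroup G) ⊓ (⁅(P : Subgroup G), (P : Subgroup G)⁆).map (MulAut.conj z).toMonoidHom with hR
  apply le_antisymm
  · rw [focal_local P]
    apply sup_le
    · rw [Subgroup.commutator_le]
      intro a ha n hn
      apply (le_sup_left : _ ≤ R)
      refine Subgroup.mem_inf.mpr ⟨?_, Subgroup.commutator_mem_commutator (Subgroup.le_normalizer ha) hn⟩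
      have e : ⁅a, n⁆ = a * (n * a⁻¹ * n⁻¹) := by simp [commutatorElement_def, mul_assoc]
      rw [e]
      exact mul_mem ha ((Subgroup.mem_normalizer_iff.mp hn _).mp (inv_mem ha))
    · refine iSup_le fun Q => iSup_le fun _ => iSup_le fun x => iSup_le fun hx => ?_
      rw [Subgroup.commutator_le]
      intro a ha n hn
      apply (le_sup_right : _ ≤ R)
      have hD : IsPGroup p ((P : Subgroup G) ⊓ (Q : Subgroup G) : Subgroup G) :=
        P.isPGroup'.to_le inf_le_left
      have hX : IsPGroup p (Subgroup.zpowers x) := by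
        obtain ⟨k, hk⟩ := hx.2
        exact IsPGroup.of_card (n := k) (by rw [Nat.card_zpowers, hk])
      have hT : IsPGroup p ((Subgroup.zpowers x) ⊔ ((P : Subgroup G) ⊓ (Q : Subgroup G)) : Subgroup G) :=
        hX.to_sup_of_normal_right' hD (Subgroup.zpowers_le.mpr hx.1)
      obtain ⟨P₁, hP₁⟩ := hT.exists_le_sylow
      obtain ⟨z, rfl⟩ := MulAction.exists_smul_eq G P P₁
      refine Subgroup.mem_iSup_of_mem z (Subgroup.mem_inf.mpr ⟨?_, ?_⟩)
      · have e : ⁅a, n⁆ = a * (n * a⁻¹ * n⁻¹) := by simp [commutatorElement_def, mul_assoc]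
        rw [e]
        have hnN : n ∈ Subgroup.normalizer (((P : Subgroup G) ⊓ (Q : Subgroup G) : Subgroup G) : Set G) :=
          (Subgroup.zpowers_le.mpr hx.1) hn
        have h1 := (Subgroup.mem_normalizer_iff.mp hnN _).mp (inv_mem ha)
        exact mul_mem (Subgroup.mem_inf.mp ha).1 (Subgroup.mem_inf.mp h1).1
      · have h1 : a ∈ ((z • P : Sylow p G) : Subgroup G) := hP₁ ((le_sup_right : _ ≤ (Subgroup.zpowers x) ⊔ ((P : Subgroup G) ⊓ (Q : Subgroup G))) ha)
        have h2 : n ∈ ((z • P : Sylow p G) : Subgroup G) := hP₁ ((le_sup_left : _ ≤ (Subgroup.zpowers x) ⊔ ((P : Subgroup G) ⊓ (Q : Subgroup G))) hn)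
        have h3 := Subgroup.commutator_mem_commutator h1 h2
        have h4 : ((z • P : Sylow p G) : Subgroup G) = (P : Subgroup G).map (MulAut.conj z).toMonoidHom := by
          rw [Sylow.coe_subgroup_smul]
          rfl
        rw [h4, ← Subgroup.map_commutator] at h3
        exact h3
  · apply sup_le
    · exact inf_le_inf_left _ (Subgroup.commutator_mono le_top le_top)
    · refine iSup_le fun z => inf_le_inf_left _ ?_
      rintro _ ⟨c, hc, rfl⟩
      have hcG : c ∈ commutator G := (Subgroup.commutator_mono le_top le_top) hc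
      exact (inferInstance : (commutator G).Normal).conj_mem c hcG z

end Cfsg.Agent.Lib.ClassSizes.Grun
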