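import Mathlib
import Cfsg.Agent.Lib.Hall.Basic
import Cfsg.Agent.Lib.Core.Conj
import Cfsg.Agent.Lib.Core.MinNormal2
import Cfsg.Agent.Lib.ClassSizes.Basic

/-!
# The number of Hall subgroups of a solvable group (P. Hall)
-/

set_option autoImplicit false

namespace Cfsg.Agent.Lib.ClassSizes.HallCount

open Subgroup Cfsg.Agent.Lib.Core
open scoped Pointwise

universe u

variable {G : Type u} [Group G]

/-- The number of subgroups of a given order. -/
noncomputable abbrev hallCount (G : Type u) [Group G] (m : ℕ) : ℕ :=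
  Nat.card {H : Subgroup G // Nat.card H = m}

/-- A chief factor. -/
def IsChief (K L : Subgroup G) : Prop :=
  K.Normal ∧ L.Normal ∧ K < L ∧ ∀ M : Subgroup G, M.Normal → K ≤ M → M ≤ L → M = K ∨ M = L

/-- The properties of the factors. -/
def Good (G : Type u) [Group G] (m f : ℕ) : Prop :=
  (∃ q e : ℕ, q.Prime ∧ f = q ^ e) ∧ (∃ K L : Subgroup G, IsChief K L ∧ f ∣ K.relIndex L) ∧
    (∃ q : ℕ, q.Prime ∧ q ∣ m ∧ f ≡ 1 [MOD q])

section Conj

variable [Finite G] [Group.IsSolvable G]

/-- The number of Hall subgroups is the index of the normalizer of one of them. -/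
theorem hallCount_eq_index {m n : ℕ} (hG : Nat.card G = m * n) (hmn : m.Coprime n) (H : Subgroup G)
    (hH : Nat.card H = m) : hallCount G m = (normalizer (H : Set G)).index := by
  classical
  letI : MulAction G (Subgroup G) := MulAction.compHom _ (MulAut.conj : G →* MulAut G)
  have hsmul : ∀ (g : G) (K : Subgroup G), g • K = MulAut.conj g • K := fun _ _ => rfl
  have hstab : MulAction.stabilizer G H = normalizer (H : Set G) := by
    ext g
    rw [MulAction.mem_stabilizer_iff, hsmul]
    exact conj_smul_eq_self_iff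
  have horb : MulAction.orbit G H = {K : Subgroup G | Nat.card K = m} := by
    ext K
    constructor
    · rintro ⟨g, rfl⟩
      show Nat.card (MulAut.conj g • H : Subgroup G) = m
      rw [card_conj_smul, hH]
    · intro hK
      obtain ⟨g, hg⟩ := Cfsg.Agent.Lib.Hall.exists_conj_of_card_eq_of_solvable m n hG hmn H K hH hK
      exact ⟨g, hg⟩
  have h1 := MulAction.index_stabilizer G H
  rw [hstab, horb] at h1
  rw [h1]
  exact Nat.card_coe_set_eq _

end Conj

section Arith

variable [Finite G]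

/-- A chief factor of a solvable group has prime power order. -/
theorem chief_primePow [Group.IsSolvable G] {K L : Subgroup G} (h : IsChief K L) :
    ∃ q e : ℕ, q.Prime ∧ K.relIndex L = q ^ e := by
  classical
  obtain ⟨hK, hL, hlt, hmin⟩ := h
  haveI := hK
  haveI := hL
  set φ := QuotientGroup.mk' K with hφ
  have hsurj : Function.Surjective φ := QuotientGroup.mk'_surjective K
  have hker : φ.ker = K := QuotientGroup.ker_mk' K
  have hcomap : ∀ A : Subgroup (G ⧸ K), K ≤ A.comap φ := by
    intro A x hx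
    rw [mem_comap]
    have : φ x = 1 := (QuotientGroup.eq_one_iff x).mpr hx
    rw [this]
    exact A.one_mem
  haveI hNn : (L.map φ).Normal := Subgroup.Normal.map hL φ hsurj
  have hne : L.map φ ≠ ⊥ := by
    intro h0
    apply hlt.not_ge
    intro x hx
    have : φ x ∈ L.map φ := ⟨x, hx, rfl⟩
    rw [h0] at this
    exact (QuotientGroup.eq_one_iff x).mp this
  have hmin' : ∀ M : Subgroup (G ⧸ K), M.Normal → M ≤ L.map φ → M = ⊥ ∨ M = L.map φ := by
    intro M hM hML
    have h1 : M.comap φ ≤ L := by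
      intro x hx
      obtain ⟨y, hy, hyx⟩ := hML hx
      have h2 : y⁻¹ * x ∈ K := QuotientGroup.eq.mp hyx
      have h3 : x = y * (y⁻¹ * x) := by group
      rw [h3]
      exact L.mul_mem hy (hlt.le h2)
    rcases hmin (M.comap φ) (Subgroup.Normal.comap hM φ) (hcomap M) h1 with h2 | h2
    · left
      rw [eq_bot_iff]
      intro y hy
      obtain ⟨x, rfl⟩ := hsurj y
      have : x ∈ M.comap φ := hy
      rw [h2] at this
      exact (QuotientGroup.eq_one_iff x).mpr this
    · right
      apply le_antisymm hML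
      rintro _ ⟨x, hx, rfl⟩
      rw [← h2] at hx
      exact hx
  obtain ⟨-, q, hq, hexp⟩ := minimal_normal_elementary (L.map φ) hne hmin'
  haveI : Fact q.Prime := ⟨hq⟩
  have hP : IsPGroup q (L.map φ) := by
    intro x
    refine ⟨1, ?_⟩
    apply Subtype.ext
    simpa using hexp x x.2
  obtain ⟨e, he⟩ := IsPGroup.iff_card.mp hP
  refine ⟨q, e, hq, ?_⟩
  have h2 : K.relIndex L = Nat.card (L.map φ) := by
    have h3 := Subgroup.relIndex_ker (K := L) φ
    rwa [hker] at h3
  rw [h2, he]

/-- The index of the normalizer of a `q`-subgroup in a normal `q'`-subgroup is `1` modulo `q`. -/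
theorem relIndex_normalizer_modEq {q : ℕ} [Fact q.Prime] {Q X : Subgroup G} (hQ : IsPGroup q Q) [hX : X.Normal]
    (hXq : ¬ q ∣ Nat.card X) : (normalizer (Q : Set G)).relIndex X ≡ 1 [MOD q] := by
  classical
  set W := Q ⊔ X with hW
  have hQW : Q ≤ W := le_sup_left
  have hXW : X ≤ W := le_sup_right
  have hP : IsPGroup q (Q.subgroupOf W) := by
    have : Q.subgroupOf W ≤ Q.comap W.subtype := le_refl _
    intro x
    obtain ⟨k, hk⟩ := hQ ⟨(x : W), x.2⟩
    refine ⟨k, ?_⟩
    apply Subtype.ext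
    apply Subtype.ext
    simpa using congrArg Subtype.val hk
  have hidx : ¬ q ∣ (Q.subgroupOf W).index := by
    have h1 : (Q.subgroupOf W).index = Q.relIndex X := by
      rw [Cfsg.Agent.Lib.ClassSizes.relIndex_eq_relIndex_sup Q X]
      rfl
    rw [h1]
    intro h2
    apply hXq
    exact h2.trans (Subgroup.index_dvd_card _)
  let S : Sylow q W := hP.toSylow hidx
  have h1 : Nat.card (Sylow q W) ≡ 1 [MOD q] := card_sylow_modEq_one q W
  have h2 : Nat.card (Sylow q W) = (normalizer ((S : Subgroup W) : Set W)).index :=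
    Sylow.card_eq_index_normalizer S
  have hS : (S : Subgroup W) = Q.subgroupOf W := rfl
  rw [h2, hS, ← subgroupOf_normalizer_eq hQW] at h1
  have h3 : ((normalizer (Q : Set G)).subgroupOf W).index = (normalizer (Q : Set G)).relIndex X := by
    set N := normalizer (Q : Set G) with hN
    have hQN : Q ≤ N := Subgroup.le_normalizer
    have h4 : N.relIndex W = (N ⊓ W).relIndex W := (Subgroup.inf_relIndex_right N W).symm
    have h5 : (N ⊓ W) ⊔ X = W := by
      apply le_antisymm
      · exact sup_le inf_le_right hXW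
      · exact sup_le (le_sup_of_le_left (le_inf hQN hQW)) le_sup_right
    have h6 := Cfsg.Agent.Lib.ClassSizes.relIndex_eq_relIndex_sup (N ⊓ W) X
    rw [h5] at h6
    have h7 : (N ⊓ W).relIndex X = N.relIndex X := by
      rw [← Subgroup.inf_relIndex_right (N ⊓ W) X, ← Subgroup.inf_relIndex_right N X]
      congr 1
      rw [inf_assoc, inf_eq_right.mpr hXW]
    show N.relIndex W = N.relIndex X
    rw [h4, ← h6, h7]
  rwa [h3] at h1

/-- The multiplicativity of the normalizer index along a chief factor. -/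
theorem relIndex_normalizer_step (N Y X : Subgroup G) [hY : Y.Normal] (hYX : Y ≤ X) :
    N.relIndex X = N.relIndex Y * (Y ⊔ (N ⊓ X)).relIndex X := by
  have h1 : N.relIndex X = (N ⊓ X).relIndex X := (Subgroup.inf_relIndex_right N X).symm
  have h2 := Subgroup.relIndex_mul_relIndex (N ⊓ X) (Y ⊔ (N ⊓ X)) X le_sup_right
    (sup_le hYX inf_le_right)
  have h3 := Cfsg.Agent.Lib.ClassSizes.relIndex_eq_relIndex_sup (N ⊓ X) Y
  rw [sup_comm] at h3
  have h4 : (N ⊓ X).relIndex Y = N.relIndex Y := by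
    rw [← Subgroup.inf_relIndex_right (N ⊓ X) Y, ← Subgroup.inf_relIndex_right N Y]
    congr 1
    rw [inf_assoc, inf_eq_right.mpr hYX]
  rw [h1, ← h2, ← h3, h4]

/-- A maximal normal subgroup strictly below a nontrivial normal subgroup. -/
theorem exists_chief_below {X : Subgroup G} (hX : X.Normal) (hX1 : X ≠ ⊥) :
    ∃ Y : Subgroup G, IsChief Y X := by
  classical
  obtain ⟨Y, hY⟩ := (Set.toFinite {Y : Subgroup G | Y.Normal ∧ Y < X}).exists_maximal
    ⟨⊥, Subgroup.normal_bot, bot_lt_iff_ne_bot.mpr hX1⟩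
  obtain ⟨⟨hYn, hYlt⟩, hYmax⟩ := hY
  refine ⟨Y, hYn, hX, hYlt, ?_⟩
  intro M hM hYM hMX
  rcases hMX.eq_or_lt with h | h
  · exact Or.inr h
  · left
    exact le_antisymm (hYmax ⟨hM, h⟩ hYM) hYM

/-- A minimal normal subgroup above a normal subgroup. -/
theorem exists_chief_above {J : Subgroup G} (hJ : J.Normal) (hJ1 : J ≠ ⊤) :
    ∃ T : Subgroup G, IsChief J T := by
  classical
  obtain ⟨T, hT⟩ := (Set.toFinite {T : Subgroup G | T.Normal ∧ J < T}).exists_minimal
    ⟨⊤, Subgroup.normal_top, lt_top_iff_ne_top.mpr hJ1⟩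
  obtain ⟨⟨hTn, hTlt⟩, hTmin⟩ := hT
  refine ⟨T, hJ, hTn, hTlt, ?_⟩
  intro M hM hJM hMT
  rcases hJM.eq_or_lt with h | h
  · exact Or.inl h.symm
  · right
    exact le_antisymm hMT (hTmin ⟨hM, h⟩ hMT)

end Arith

section Lift

variable [Finite G]

/-- Chief factors of a quotient lift. -/
theorem good_of_quotient (R : Subgroup G) [hR : R.Normal] {m m' f : ℕ} (hm : m' ∣ m) (h : Good (G ⧸ R) m' f) :
    Good G m f := by
  obtain ⟨h1, ⟨K, L, ⟨hK, hL, hlt, hmin⟩, hdvd⟩, q, hq, hqm, hmod⟩ := h
  refine ⟨h1, ?_, q, hq, hqm.trans hm, hmod⟩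
  set φ := QuotientGroup.mk' R with hφ
  have hsurj : Function.Surjective φ := QuotientGroup.mk'_surjective R
  refine ⟨K.comap φ, L.comap φ, ⟨Subgroup.Normal.comap hK φ, Subgroup.Normal.comap hL φ, ?_, ?_⟩, ?_⟩
  · exact (Subgroup.comap_lt_comap_of_surjective hsurj).mpr hlt
  · intro M hM hKM hML
    have hmapN : (M.map φ).Normal := Subgroup.Normal.map hM φ hsurj
    have h1 : K ≤ M.map φ := by
      intro y hy
      obtain ⟨x, rfl⟩ := hsurj y
      exact ⟨x, hKM hy, rfl⟩
    have h2 : M.map φ ≤ L := by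
      rintro _ ⟨x, hx, rfl⟩
      exact hML hx
    have hcm : (M.map φ).comap φ = M := by
      rw [Subgroup.comap_map_eq]
      apply sup_eq_left.mpr
      rw [hφ, QuotientGroup.ker_mk']
      intro x hx
      apply hKM
      rw [mem_comap]
      have : QuotientGroup.mk' R x = 1 := (QuotientGroup.eq_one_iff x).mpr hx
      rw [this]
      exact K.one_mem
    rcases hmin _ hmapN h1 h2 with h3 | h3
    · left
      rw [← hcm, h3]
    · right
      rw [← hcm, h3]
  · have h2 : (K.comap φ).relIndex (L.comap φ) = K.relIndex L := by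
      rw [Subgroup.relIndex_comap, Subgroup.map_comap_eq_self_of_surjective hsurj]
    rw [h2]
    exact hdvd

/-- Chief factors of a subgroup have orders dividing those of chief factors of the group. -/
theorem good_of_subgroup (M : Subgroup G) {m f : ℕ} (h : Good M m f) : Good G m f := by
  classical
  obtain ⟨h1, ⟨B, A, ⟨hB, hA, hlt, hmin⟩, hdvd⟩, h3⟩ := h
  refine ⟨h1, ?_, h3⟩
  -- a minimal normal subgroup `L` of `G` covering `A / B`
  obtain ⟨L, hL⟩ := (Set.toFinite {L : Subgroup G | L.Normal ∧ A ≤ B ⊔ (A ⊓ L.subgroupOf M)}).exists_minimal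
    ⟨⊤, Subgroup.normal_top, by simp⟩
  obtain ⟨⟨hLn, hLcov⟩, hLmin⟩ := hL
  have hL1 : L ≠ ⊥ := by
    rintro rfl
    have : A ≤ B := by
      refine hLcov.trans (sup_le le_rfl ?_)
      have h0 : (⊥ : Subgroup G).subgroupOf M = ⊥ := Subgroup.bot_subgroupOf M
      rw [h0, inf_bot_eq]
      exact bot_le
    exact hlt.not_ge this
  obtain ⟨K, hK⟩ := exists_chief_below hLn hL1
  refine ⟨K, L, hK, ?_⟩
  obtain ⟨hKn, -, hKL, -⟩ := hK
  haveI := hKn
  haveI := hLn
  haveI := hA
  haveI := hB
  -- `K` does not cover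
  have hKnot : ¬ A ≤ B ⊔ (A ⊓ K.subgroupOf M) := by
    intro hcov
    have := hLmin ⟨hKn, hcov⟩ hKL.le
    exact hKL.not_ge this
  have hKM : (K.subgroupOf M).Normal := inferInstance
  have hLM : (L.subgroupOf M).Normal := inferInstance
  have hbetw : (B ⊔ (A ⊓ K.subgroupOf M)).Normal := inferInstance
  have hAK : A ⊓ K.subgroupOf M ≤ B := by
    rcases hmin _ hbetw le_sup_left (sup_le hlt.le inf_le_left) with h4 | h4
    · exact le_sup_right.trans h4.le
    · exact absurd h4.ge hKnot
  set C := A ⊓ L.subgroupOf M with hC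
  have hBC : B ⊔ C = A := le_antisymm (sup_le hlt.le inf_le_left) hLcov
  have h5 : B.relIndex A = B.relIndex C := by
    have h := Subgroup.relIndex_sup_left C B
    rwa [hBC] at h
  have h6 : K.subgroupOf M ⊓ C ≤ B := by
    refine le_trans ?_ hAK
    exact le_inf (inf_le_right.trans inf_le_left) inf_le_left
  have h7 : B.relIndex C ∣ (K.subgroupOf M).relIndex C := by
    rw [← Subgroup.inf_relIndex_right (K.subgroupOf M) C]
    exact Subgroup.relIndex_dvd_of_le_left C h6
  have h8 : (K.subgroupOf M).relIndex C = K.relIndex (C.map M.subtype) :=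
    Subgroup.relIndex_comap K M.subtype C
  have hCL : C.map M.subtype ≤ L := by
    rintro _ ⟨x, hx, rfl⟩
    exact hx.2
  have h9 : K.relIndex (C.map M.subtype) ∣ K.relIndex L := by
    rw [← Subgroup.relIndex_sup_right]
    exact Dvd.intro _ (Subgroup.relIndex_mul_relIndex K _ L le_sup_right (sup_le hCL hKL.le))
  rw [h5] at hdvd
  rw [h8] at h7
  exact hdvd.trans (h7.trans h9)

end Lift

section Main

/-- The list of factors for the index of the normalizer in a normal `q'`-subgroup. -/
theorem exists_list_relIndex [Finite G] [Group.IsSolvable G] {q m : ℕ} (hq : q.Prime) (hqm : q ∣ m)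
    {Q : Subgroup G} (hQ : IsPGroup q Q) :
    ∀ (c : ℕ) (X : Subgroup G), Nat.card X = c → X.Normal → ¬ q ∣ Nat.card X →
      ∃ l : List ℕ, (normalizer (Q : Set G)).relIndex X = l.prod ∧ ∀ f ∈ l, Good G m f := by
  intro c
  induction c using Nat.strong_induction_on with
  | _ c ih =>
  intro X hc hXn hXq
  haveI : Fact q.Prime := ⟨hq⟩
  by_cases hX1 : X = ⊥
  · subst hX1
    exact ⟨[], by simp, by simp⟩
  obtain ⟨Y, hY⟩ := exists_chief_below hXn hX1
  have hchief := hY
  obtain ⟨hYn, -, hYX, -⟩ := hY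
  haveI := hYn
  haveI := hXn
  have hYc : Nat.card Y ∣ Nat.card X := Subgroup.card_dvd_of_le hYX.le
  have hYlt : Nat.card Y < c := by
    rw [← hc]
    apply lt_of_le_of_ne (Nat.le_of_dvd Nat.card_pos hYc)
    intro h
    have : Y = X := Subgroup.eq_of_le_of_card_ge hYX.le h.ge
    exact hYX.ne this
  have hYq : ¬ q ∣ Nat.card Y := fun h => hXq (h.trans hYc)
  obtain ⟨l, hl, hgood⟩ := ih _ hYlt Y rfl hYn hYq
  set N := normalizer (Q : Set G) with hN
  have hstep := relIndex_normalizer_step N Y X hYX.le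
  set f := (Y ⊔ (N ⊓ X)).relIndex X with hf
  refine ⟨f :: l, ?_, ?_⟩
  · rw [List.prod_cons, hstep, hl, mul_comm]
  · intro g hg
    rcases List.mem_cons.mp hg with rfl | hg
    · have hfdvd : f ∣ Y.relIndex X :=
        Dvd.intro_left _ (Subgroup.relIndex_mul_relIndex Y (Y ⊔ (N ⊓ X)) X le_sup_left
          (sup_le hYX.le inf_le_right))
      obtain ⟨r, e, hr, he⟩ := chief_primePow hchief
      refine ⟨?_, ⟨Y, X, hchief, hfdvd⟩, q, hq, hqm, ?_⟩
      · rw [he] at hfdvd
        obtain ⟨i, -, hi⟩ := (Nat.dvd_prime_pow hr).mp hfdvd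
        exact ⟨r, i, hr, hi⟩
      · have h1 := relIndex_normalizer_modEq (q := q) hQ hXq
        have h2 := relIndex_normalizer_modEq (q := q) hQ hYq
        rw [hstep] at h1
        have h3 : N.relIndex Y * f ≡ 1 * f [MOD q] := Nat.ModEq.mul_right f h2
        rw [one_mul] at h3
        exact h3.symm.trans h1
    · exact hgood g hg

/-- The case of a normal `π`-subgroup. -/
theorem hallCount_quotient [Finite G] [Group.IsSolvable G] {m n m' : ℕ} (hG : Nat.card G = m * n)
    (hmn : m.Coprime n) (R : Subgroup G) [hR : R.Normal] (hm : m = Nat.card R * m') :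
    Nat.card (G ⧸ R) = m' * n ∧ hallCount G m = hallCount (G ⧸ R) m' := by
  classical
  have hQcard : Nat.card (G ⧸ R) = m' * n := by
    have h1 := R.card_mul_index
    have h2 : Nat.card R * (m' * n) = Nat.card R * Nat.card (G ⧸ R) := by
      rw [← mul_assoc, ← hm, ← hG]
      exact h1.symm
    exact (Nat.eq_of_mul_eq_mul_left Nat.card_pos h2).symm
  refine ⟨hQcard, ?_⟩
  have hcop' : m'.Coprime n := Nat.Coprime.coprime_dvd_left (Dvd.intro_left _ hm.symm) hmn
  have hRn : (Nat.card R).Coprime n := Nat.Coprime.coprime_dvd_left (Dvd.intro _ hm.symm) hmn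
  obtain ⟨H, hH, hRH⟩ := Cfsg.Agent.Lib.Hall.exists_card_eq_and_le_of_solvable m n hG hmn R hRn
  set φ := QuotientGroup.mk' R with hφ
  have hsurj : Function.Surjective φ := QuotientGroup.mk'_surjective R
  have hker : φ.ker = R := QuotientGroup.ker_mk' R
  have hidx : (H.map φ).index = H.index := Subgroup.index_map_eq H hsurj (by rw [hker]; exact hRH)
  have hHidx : H.index = n := by
    have h1 := H.card_mul_index
    rw [hH, hG] at h1
    have hmpos : 0 < m := by
      rw [← hH]; exact Nat.card_pos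
    exact Nat.eq_of_mul_eq_mul_left hmpos h1
  have hHbar : Nat.card (H.map φ) = m' := by
    have h1 := (H.map φ).card_mul_index
    rw [hidx, hHidx, hQcard] at h1
    have hnpos : 0 < n := by
      rw [← hHidx]
      exact Nat.pos_of_ne_zero Subgroup.index_ne_zero_of_finite
    exact Nat.eq_of_mul_eq_mul_right hnpos h1
  rw [hallCount_eq_index hG hmn H hH, hallCount_eq_index hQcard hcop' (H.map φ) hHbar,
    ← Subgroup.index_comap_of_surjective _ hsurj, Subgroup.comap_normalizer_eq_of_surjective _ hsurj,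
    Subgroup.comap_map_eq, hker, sup_eq_left.mpr hRH]

theorem card_subgroupOf_of_le {H K : Subgroup G} (h : H ≤ K) : Nat.card (H.subgroupOf K) = Nat.card H :=
  Nat.card_congr (Subgroup.subgroupOfEquivOfLe h).toEquiv

theorem hall_count_aux : ∀ (N : ℕ) (G : Type u) [Group G] [Finite G] [Group.IsSolvable G], Nat.card G = N →
    ∀ m n : ℕ, N = m * n → m.Coprime n →
      ∃ l : List ℕ, hallCount G m = l.prod ∧ ∀ f ∈ l, Good G m f := by
  intro N
  induction N using Nat.strong_induction_on with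
  | _ N ih =>
  intro G _ _ _ hN m n hmn hcop
  classical
  have hNpos : 0 < N := hN ▸ Nat.card_pos
  have hG : Nat.card G = m * n := hN.trans hmn
  by_cases hm1 : m = 1
  · subst hm1
    refine ⟨[], ?_, by simp⟩
    have : Unique {H : Subgroup G // Nat.card H = 1} :=
      { default := ⟨⊥, by simp⟩
        uniq := fun H => Subtype.ext (Subgroup.card_eq_one.mp H.2) }
    simp [hallCount, Nat.card_unique]
  have hmpos : 0 < m := Nat.pos_of_ne_zero (by
    rintro rfl
    simp at hmn
    omega)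
  -- the largest normal `π'`-subgroup
  obtain ⟨J, hJ⟩ := (Set.toFinite {X : Subgroup G | X.Normal ∧ (Nat.card X).Coprime m}).exists_maximal
    ⟨⊥, Subgroup.normal_bot, by simp⟩
  obtain ⟨⟨hJn, hJc⟩, hJmax⟩ := hJ
  haveI := hJn
  have hJtop : J ≠ ⊤ := by
    rintro rfl
    rw [Subgroup.card_top, hG] at hJc
    have h1 : m ∣ Nat.gcd (m * n) m := Nat.dvd_gcd (dvd_mul_right _ _) dvd_rfl
    rw [hJc] at h1
    exact hm1 (Nat.dvd_one.mp h1)
  obtain ⟨T, hT⟩ := exists_chief_above hJn hJtop
  have hchief := hT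
  obtain ⟨-, hTn, hJT, -⟩ := hT
  haveI := hTn
  obtain ⟨q, e, hq, he⟩ := chief_primePow hchief
  haveI : Fact q.Prime := ⟨hq⟩
  have hcardT : Nat.card T = Nat.card J * q ^ e := by
    have h1 := (J.subgroupOf T).card_mul_index
    rw [card_subgroupOf_of_le hJT.le] at h1
    rw [← h1, ← he]
    rfl
  have he0 : e ≠ 0 := by
    rintro rfl
    have h1 : Nat.card T = Nat.card J := by rw [hcardT]; simp
    exact hJT.ne (Subgroup.eq_of_le_of_card_ge hJT.le h1.le)
  have hqm : q ∣ m := by
    by_contra hqm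
    have h1 : (Nat.card T).Coprime m := by
      rw [hcardT]
      exact Nat.Coprime.mul_left hJc (Nat.Coprime.pow_left _ ((Nat.Prime.coprime_iff_not_dvd hq).mpr hqm))
    have h2 := hJmax ⟨hTn, h1⟩ hJT.le
    exact hJT.not_ge h2
  have hqJ : ¬ q ∣ Nat.card J := by
    intro h
    have := Nat.dvd_gcd h hqm
    rw [hJc] at this
    exact hq.one_lt.ne' (Nat.dvd_one.mp this)
  have hqn : ¬ q ∣ n := by
    intro h
    have := Nat.dvd_gcd hqm h
    rw [hcop] at this
    exact hq.one_lt.ne' (Nat.dvd_one.mp this)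
  -- a Sylow subgroup of `T`
  let Q₀ : Sylow q T := default
  have hQ₀card : Nat.card (Q₀ : Subgroup T) = q ^ e := by
    have h1 : q ^ e ∣ Nat.card (Q₀ : Subgroup T) :=
      Q₀.pow_dvd_card_of_pow_dvd_card (by rw [hcardT]; exact dvd_mul_left _ _)
    obtain ⟨k, hk⟩ := IsPGroup.iff_card.mp Q₀.isPGroup'
    have h2 : Nat.card (Q₀ : Subgroup T) ∣ Nat.card J * q ^ e := by
      rw [← hcardT]
      exact Subgroup.card_subgroup_dvd_card _
    rw [hk] at h1 h2 ⊢
    have h3 : q ^ k ∣ q ^ e :=
      (Nat.Coprime.pow_left _ ((Nat.Prime.coprime_iff_not_dvd hq).mpr hqJ)).dvd_of_dvd_mul_left h2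
    congr 1
    exact le_antisymm ((Nat.pow_dvd_pow_iff_le_right hq.one_lt).mp h3)
      ((Nat.pow_dvd_pow_iff_le_right hq.one_lt).mp h1)
  obtain ⟨Q, hQdef⟩ : ∃ Q, Q = (Q₀ : Subgroup T).map T.subtype := ⟨_, rfl⟩
  have hQcard : Nat.card Q = q ^ e := by
    rw [hQdef, ← hQ₀card]
    exact Nat.card_congr (((Q₀ : Subgroup T).equivMapOfInjective T.subtype T.subtype_injective).toEquiv.symm)
  have hQT : Q ≤ T := by
    rw [hQdef]
    exact Subgroup.map_subtype_le _
  have hQp : IsPGroup q Q := IsPGroup.of_card hQcard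
  have hQn : (Nat.card Q).Coprime n := by
    rw [hQcard]
    exact Nat.Coprime.pow_left _ ((Nat.Prime.coprime_iff_not_dvd hq).mpr hqn)
  have hQm : Nat.card Q ∣ m := by
    have h1 : Nat.card Q ∣ m * n := by
      rw [← hG]
      exact Subgroup.card_subgroup_dvd_card _
    exact hQn.dvd_of_dvd_mul_right h1
  by_cases hQnorm : Q.Normal
  · -- reduce modulo `Q`
    haveI := hQnorm
    obtain ⟨m', hm'⟩ := hQm
    obtain ⟨hcard', hcount⟩ := hallCount_quotient hG hcop Q hm'
    have hcop' : m'.Coprime n := Nat.Coprime.coprime_dvd_left (Dvd.intro_left _ hm'.symm) hcop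
    have hlt : Nat.card (G ⧸ Q) < N := by
      have h1 := Q.card_mul_index
      have h2 : 1 < Nat.card Q := by
        rw [hQcard]
        exact Nat.one_lt_pow he0 hq.one_lt
      have h3 : 0 < Nat.card (G ⧸ Q) := Nat.card_pos
      have h4 : Nat.card Q * Nat.card (G ⧸ Q) = N := by rw [← hN]; exact h1
      nlinarith
    obtain ⟨l, hl, hgood⟩ := ih _ hlt (G ⧸ Q) rfl m' n hcard' hcop'
    refine ⟨l, by rw [hcount, hl], fun f hf => good_of_quotient Q (Dvd.intro_left _ hm'.symm) (hgood f hf)⟩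
  · -- pass to the normalizer
    obtain ⟨M, hM⟩ : ∃ M, M = normalizer (Q : Set G) := ⟨_, rfl⟩
    have hMtop : M ≠ ⊤ := by
      rw [hM]
      intro h
      exact hQnorm (Subgroup.normalizer_eq_top_iff.mp h)
    obtain ⟨H, hHcard, hQH⟩ := Cfsg.Agent.Lib.Hall.exists_card_eq_and_le_of_solvable m n hG hcop Q hQn
    have hinf : H ⊓ T = Q := by
      symm
      apply Subgroup.eq_of_le_of_card_ge (le_inf hQH hQT)
      rw [hQcard]
      apply Nat.le_of_dvd (by have := hq.pos; positivity)
      have h1 : Nat.card (H ⊓ T : Subgroup G) ∣ m := by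
        rw [← hHcard]
        exact Subgroup.card_dvd_of_le inf_le_left
      have h2 : Nat.card (H ⊓ T : Subgroup G) ∣ Nat.card J * q ^ e := by
        rw [← hcardT]
        exact Subgroup.card_dvd_of_le inf_le_right
      have h3 : (Nat.card (H ⊓ T : Subgroup G)).Coprime (Nat.card J) :=
        Nat.Coprime.coprime_dvd_left h1 hJc.symm
      exact h3.dvd_of_dvd_mul_left h2
    have hconjQ : ∀ g : G, g ∈ normalizer (H : Set G) → g ∈ M := by
      intro g hg
      rw [hM]
      apply Cfsg.Agent.Lib.Hall.mem_normalizer_of_conj_le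
      intro a ha
      rw [← hinf] at ha ⊢
      exact ⟨(Subgroup.mem_normalizer_iff.mp hg a).mp ha.1, hTn.conj_mem a ha.2 g⟩
    have hHM : H ≤ M := fun h hh => hconjQ h (Subgroup.le_normalizer hh)
    have hnH : normalizer (H : Set G) ≤ M := hconjQ
    have hMcard : m ∣ Nat.card M := hHcard ▸ Subgroup.card_dvd_of_le hHM
    obtain ⟨n', hn'⟩ := hMcard
    have hn'n : n' ∣ n := by
      have h1 : Nat.card M ∣ m * n := by
        rw [← hG]
        exact Subgroup.card_subgroup_dvd_card _
      rw [hn'] at h1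
      exact Nat.dvd_of_mul_dvd_mul_left hmpos h1
    have hcop' : m.Coprime n' := Nat.Coprime.coprime_dvd_right hn'n hcop
    have hMlt : Nat.card M < N := by
      rw [← hN]
      apply lt_of_le_of_ne (Nat.le_of_dvd Nat.card_pos (Subgroup.card_subgroup_dvd_card M))
      intro h
      exact hMtop (Subgroup.eq_top_of_card_eq M h)
    obtain ⟨l₂, hl₂, hgood₂⟩ := ih _ hMlt M rfl m n' hn' hcop'
    have hHM' : Nat.card (H.subgroupOf M) = m := by
      rw [card_subgroupOf_of_le hHM, hHcard]
    have hc1 : hallCount G m = (normalizer (H : Set G)).index := hallCount_eq_index hG hcop H hHcard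
    have hc2 : hallCount M m = (normalizer (H : Set G)).relIndex M := by
      rw [hallCount_eq_index hn' hcop' (H.subgroupOf M) hHM', ← Subgroup.subgroupOf_normalizer_eq hHM]
      rfl
    have hc3 := Subgroup.relIndex_mul_index hnH
    -- `G = J M`
    have hTJ : T = Q ⊔ J := by
      symm
      apply Subgroup.eq_of_le_of_card_ge (sup_le hQT hJT.le)
      have h1 : Nat.card (Q ⊔ J : Subgroup G) = Nat.card Q * Q.relIndex (Q ⊔ J) := by
        have h2 := (Q.subgroupOf (Q ⊔ J)).card_mul_index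
        rw [card_subgroupOf_of_le le_sup_left] at h2
        exact h2.symm
      rw [h1, ← Cfsg.Agent.Lib.ClassSizes.relIndex_eq_relIndex_sup Q J, hcardT, hQcard, mul_comm]
      have h3 : Q.subgroupOf J = ⊥ := by
        rw [eq_bot_iff]
        intro x hx
        have h4 : (x : G) ∈ Q ⊓ J := ⟨hx, x.2⟩
        have h5 : Disjoint Q J := by
          apply Subgroup.disjoint_of_coprime_natCard
          rw [hQcard]
          exact Nat.Coprime.pow_left _ ((Nat.Prime.coprime_iff_not_dvd hq).mpr hqJ)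
        rw [h5.eq_bot] at h4
        exact Subtype.ext h4
      have h6 : Q.relIndex J = Nat.card J := by
        unfold Subgroup.relIndex
        rw [h3]
        exact Subgroup.index_bot
      rw [h6]
    have hsupJ : M ⊔ J = ⊤ := by
      have h1 : normalizer (((Q₀ : Subgroup T).map T.subtype : Subgroup G) : Set G) ⊔ T = ⊤ :=
        Sylow.normalizer_sup_eq_top Q₀
      rw [← hQdef, ← hM] at h1
      have hQM : Q ≤ M := hM ▸ Subgroup.le_normalizer
      have h2 : M ⊔ T = M ⊔ J := by
        rw [hTJ, ← sup_assoc, sup_eq_left.mpr hQM]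
      rw [← h2]
      exact h1
    have hc4 : M.relIndex J = M.index := by
      rw [Cfsg.Agent.Lib.ClassSizes.relIndex_eq_relIndex_sup M J, hsupJ, Subgroup.relIndex_top_right]
    obtain ⟨l₁, hl₁, hgood₁⟩ := exists_list_relIndex (m := m) hq hqm hQp (Nat.card J) J rfl hJn hqJ
    refine ⟨l₁ ++ l₂, ?_, ?_⟩
    · rw [List.prod_append, ← hl₂, ← hl₁, hc1, hc2, ← hM, hc4, mul_comm]
      exact hc3.symm
    · intro f hf
      rcases List.mem_append.mp hf with hf | hf
      · exact hgood₁ f hf
      · exact good_of_subgroup M (hgood₂ f hf)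

/-- **P. Hall's theorem** on the number of Hall subgroups of a solvable group. -/
theorem hall_count [Finite G] [Group.IsSolvable G] (m n : ℕ) (hG : Nat.card G = m * n) (hmn : m.Coprime n) :
    ∃ (k : ℕ) (f : Fin k → ℕ), Nat.card {H : Subgroup G // Nat.card H = m} = ∏ i, f i ∧
      ∀ i, (∃ q e : ℕ, q.Prime ∧ f i = q ^ e) ∧
        (∃ K L : Subgroup G, K.Normal ∧ L.Normal ∧ K < L ∧
          (∀ M : Subgroup G, M.Normal → K ≤ M → M ≤ L → M = K ∨ M = L) ∧ f i ∣ K.relIndex L) ∧
        (∃ q : ℕ, q.Prime ∧ q ∣ m ∧ f i ≡ 1 [MOD q]) := by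
  obtain ⟨l, hl, hgood⟩ := hall_count_aux _ G rfl m n hG hmn
  refine ⟨l.length, l.get, ?_, ?_⟩
  · rw [← List.prod_ofFn, List.ofFn_get]
    exact hl
  · intro i
    obtain ⟨h1, ⟨K, L, ⟨hK, hL, hlt, hmin⟩, hd⟩, h3⟩ := hgood (l.get i) (List.get_mem l i)
    exact ⟨h1, ⟨K, L, hK, hL, hlt, hmin, hd⟩, h3⟩

end Main


end Cfsg.Agent.Lib.ClassSizes.HallCount
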