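import Cfsg.Agent.Lib.Transfer.Hyperfocal
import Cfsg.Agent.Lib.PGroup.Basic
import Cfsg.Agent.Lib.Amalgam.ResOf
import Cfsg.Agent.Lib.Core.Factor
import Cfsg.Prelude.Def_BaumannBlocks
import Mathlib

/-! The Hall–Wielandt theorem: transfer with cocycles on coset spaces. -/

set_option autoImplicit false

namespace Cfsg.Agent.Lib.ClassSizes.HW

open Cfsg
open scoped commutatorElement IsMulCommutative

section Abstract

variable {Γ X A : Type*} [Group Γ] [MulAction Γ X] [CommGroup A]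

theorem prod_smul_eq [DecidableEq X] (Y : Finset X) {h : Γ} (hY : ∀ x ∈ Y, h • x ∈ Y) (F : X → A) :
    ∏ x ∈ Y, F (h • x) = ∏ x ∈ Y, F x := by
  have hinj : Function.Injective (fun x : X => h • x) := MulAction.injective h
  have himg : Y.image (fun x => h • x) = Y := by
    apply Finset.eq_of_subset_of_card_le
    · intro y hy
      obtain ⟨x, hx, rfl⟩ := Finset.mem_image.mp hy
      exact hY x hx
    · rw [Finset.card_image_of_injective _ hinj]
  conv_rhs => rw [← himg]
  rw [Finset.prod_image (fun a _ b _ e => hinj e)]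

variable (cc : Γ → X → A)

theorem cc_one (hc : ∀ g h x, cc (g * h) x = cc g (h • x) * cc h x) (x : X) : cc 1 x = 1 := by
  have := hc 1 1 x
  simpa using this

theorem vv_mul [DecidableEq X] (hc : ∀ g h x, cc (g * h) x = cc g (h • x) * cc h x) (Y : Finset X) {h : Γ}
    (hY : ∀ x ∈ Y, h • x ∈ Y) (g : Γ) :
    ∏ x ∈ Y, cc (g * h) x = (∏ x ∈ Y, cc g x) * ∏ x ∈ Y, cc h x := by
  simp_rw [hc]
  rw [Finset.prod_mul_distrib, prod_smul_eq Y hY (cc g)]

theorem vv_translate [DecidableEq X] (hc : ∀ g h x, cc (g * h) x = cc g (h • x) * cc h x) (Y : Finset X) {b : Γ}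
    (hY : ∀ x ∈ Y, b • x ∈ Y) (w : Γ) :
    ∏ x ∈ Y, cc (w * b * w⁻¹) (w • x) = ∏ x ∈ Y, cc b x := by
  have key : ∀ x, cc (w * b * w⁻¹) (w • x) = cc w (b • x) * cc b x * (cc w x)⁻¹ := by
    intro x
    have h1 := hc (w * b * w⁻¹) w x
    have h2 := hc w b x
    have e : w * b * w⁻¹ * w = w * b := by group
    rw [e, h2] at h1
    rw [h1]
    simp
  simp_rw [key]
  rw [Finset.prod_mul_distrib, Finset.prod_mul_distrib, Finset.prod_inv_distrib, prod_smul_eq Y hY (cc w)]
  rw [mul_comm (∏ x ∈ Y, cc w x), mul_assoc, mul_inv_cancel, mul_one]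

theorem cc_pow (hc : ∀ g h x, cc (g * h) x = cc g (h • x) * cc h x) (a : Γ) (x : X) (n : ℕ) :
    cc (a ^ n) x = ∏ i ∈ Finset.range n, cc a (a ^ i • x) := by
  induction n with
  | zero => simp [cc_one cc hc]
  | succ n ih =>
    rw [Finset.prod_range_succ, pow_succ', hc, ih, mul_comm]

/-- The product over a set on which `a` has no fixed points vanishes if the long cycles do. -/
theorem vv_cycle [Finite X] [DecidableEq X] (hc : ∀ g h x, cc (g * h) x = cc g (h • x) * cc h x) (a : Γ) :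
    ∀ Y : Finset X, (∀ x ∈ Y, a • x ∈ Y) →
      (∀ x ∈ Y, cc (a ^ Function.minimalPeriod (fun y => a • y) x) x = 1) →
      ∏ x ∈ Y, cc a x = 1 := by
  intro Y
  induction Y using Finset.strongInduction with
  | H Y ih =>
    intro hY hone
    rcases Y.eq_empty_or_nonempty with rfl | ⟨x0, hx0⟩
    · simp
    have hinj : Function.Injective (fun y : X => a • y) := MulAction.injective a
    have hper : x0 ∈ Function.periodicPts (fun y : X => a • y) := hinj.mem_periodicPts x0
    set n := Function.minimalPeriod (fun y => a • y) x0 with hn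
    have hnpos : 0 < n := Function.minimalPeriod_pos_of_mem_periodicPts hper
    have hpern : a ^ n • x0 = x0 := by
      have := Function.iterate_minimalPeriod (f := fun y : X => a • y) (x := x0)
      rwa [← hn, smul_iterate_apply] at this
    set C := (Finset.range n).image (fun i => a ^ i • x0) with hC
    have hpowY : ∀ i : ℕ, a ^ i • x0 ∈ Y := by
      intro i
      induction i with
      | zero => simpa using hx0
      | succ i ih' =>
        rw [pow_succ', mul_smul]
        exact hY _ ih'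
    have hCY : C ⊆ Y := by
      intro x hx
      obtain ⟨i, -, rfl⟩ := Finset.mem_image.mp hx
      exact hpowY i
    have hCa : ∀ x ∈ C, a • x ∈ C := by
      intro x hx
      obtain ⟨i, hi, rfl⟩ := Finset.mem_image.mp hx
      have hi' := Finset.mem_range.mp hi
      rw [← mul_smul, ← pow_succ']
      rcases Nat.lt_or_ge (i + 1) n with h | h
      · exact Finset.mem_image.mpr ⟨i + 1, Finset.mem_range.mpr h, rfl⟩
      · have : i + 1 = n := by omega
        rw [this, hpern]
        exact Finset.mem_image.mpr ⟨0, Finset.mem_range.mpr hnpos, by simp⟩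
    have hCimg : C.image (fun x => a • x) = C := by
      apply Finset.eq_of_subset_of_card_le
      · intro y hy
        obtain ⟨x, hx, rfl⟩ := Finset.mem_image.mp hy
        exact hCa x hx
      · rw [Finset.card_image_of_injective _ hinj]
    have hprodC : ∏ x ∈ C, cc a x = 1 := by
      rw [hC, Finset.prod_image, ← cc_pow cc hc]
      · exact hone x0 hx0
      · intro i hi j hj hij
        have h1 : (fun y : X => a • y)^[i] x0 = (fun y : X => a • y)^[j] x0 := by
          rw [smul_iterate_apply, smul_iterate_apply]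
          exact hij
        exact Function.iterate_injOn_Iio_minimalPeriod (f := fun y : X => a • y) (x := x0)
          (Finset.mem_range.mp hi) (Finset.mem_range.mp hj) h1
    have hx0C : x0 ∈ C := Finset.mem_image.mpr ⟨0, Finset.mem_range.mpr hnpos, by simp⟩
    have hss : Y \ C ⊂ Y := by
      refine Finset.ssubset_iff_subset_ne.mpr ⟨Finset.sdiff_subset, fun h => ?_⟩
      have : x0 ∈ Y \ C := by rw [h]; exact hx0
      exact (Finset.mem_sdiff.mp this).2 hx0C
    have hrest := ih _ hss (by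
      intro x hx
      have hx' := Finset.mem_sdiff.mp hx
      refine Finset.mem_sdiff.mpr ⟨hY x hx'.1, fun hax => hx'.2 ?_⟩
      rw [← hCimg] at hax
      obtain ⟨c, hc', hcc⟩ := Finset.mem_image.mp hax
      rw [← hinj hcc]
      exact hc') (fun x hx => hone x (Finset.mem_sdiff.mp hx).1)
    rw [← Finset.prod_sdiff hCY, hrest, hprodC, one_mul]

open Classical in
/-- The orbit as a finset. -/
noncomputable def orb [Fintype X] (Γ : Type*) [Group Γ] [MulAction Γ X] (x : X) : Finset X :=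
  Finset.univ.filter (fun y => y ∈ MulAction.orbit Γ x)

theorem mem_orb [Fintype X] {x y : X} : y ∈ orb Γ x ↔ ∃ g : Γ, g • x = y := by
  simp [orb, MulAction.mem_orbit_iff]

open Classical in
/-- A product over an invariant set vanishes if it vanishes over each orbit. -/
theorem vv_orbits [Fintype X] (F : X → A) : ∀ Y : Finset X, (∀ g : Γ, ∀ x ∈ Y, g • x ∈ Y) →
    (∀ x ∈ Y, ∏ y ∈ orb Γ x, F y = 1) → ∏ x ∈ Y, F x = 1 := by
  intro Y
  induction Y using Finset.strongInduction with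
  | H Y ih =>
    intro hY h
    rcases Y.eq_empty_or_nonempty with rfl | ⟨x0, hx0⟩
    · simp
    have hsub : orb Γ x0 ⊆ Y := by
      intro y hy
      obtain ⟨g, rfl⟩ := mem_orb.mp hy
      exact hY g x0 hx0
    have hx0O : x0 ∈ orb Γ x0 := mem_orb.mpr ⟨1, one_smul _ _⟩
    have hss : Y \ orb Γ x0 ⊂ Y := by
      refine Finset.ssubset_iff_subset_ne.mpr ⟨Finset.sdiff_subset, fun h' => ?_⟩
      have : x0 ∈ Y \ orb Γ x0 := by rw [h']; exact hx0
      exact (Finset.mem_sdiff.mp this).2 hx0O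
    have hrest := ih _ hss (by
      intro g x hx
      have hx' := Finset.mem_sdiff.mp hx
      refine Finset.mem_sdiff.mpr ⟨hY g x hx'.1, fun hgx => hx'.2 ?_⟩
      obtain ⟨t, ht⟩ := mem_orb.mp hgx
      refine mem_orb.mpr ⟨g⁻¹ * t, ?_⟩
      rw [mul_smul, ht, inv_smul_smul]) (fun x hx => h x (Finset.mem_sdiff.mp hx).1)
    rw [← Finset.prod_sdiff hsub, hrest, h x0 hx0, one_mul]

/-- The binomial expansion of a product along a conjugation. -/
theorem binom_prod (E : Subgroup Γ) (z : Γ) (hz : ∀ y ∈ E, z⁻¹ * y * z ∈ E) (f : Γ → A)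
    (hf : ∀ x ∈ E, ∀ y ∈ E, f (x * y) = f x * f y) :
    ∀ (k : ℕ) (y : Γ), y ∈ E → ∀ N, k ≤ N →
      ∏ j ∈ Finset.range k, f ((z ^ j)⁻¹ * y * z ^ j) =
        ∏ i ∈ Finset.range N, f ((fun y : Γ => y⁻¹ * z⁻¹ * y * z)^[i] y) ^ (k.choose (i + 1)) := by
  have hconj : ∀ (j : ℕ) (y : Γ), y ∈ E → (z ^ j)⁻¹ * y * z ^ j ∈ E := by
    intro j
    induction j with
    | zero => intro y hy; simpa using hy
    | succ j ih =>
      intro y hy
      have e : (z ^ (j + 1))⁻¹ * y * z ^ (j + 1) = (z ^ j)⁻¹ * (z⁻¹ * y * z) * z ^ j := by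
        rw [pow_succ']; group
      rw [e]
      exact ih _ (hz y hy)
  intro k
  induction k with
  | zero =>
    intro y _ N _
    simp
  | succ k ih =>
    intro y hy N hN
    obtain ⟨N', rfl⟩ : ∃ N', N = N' + 1 := ⟨N - 1, by omega⟩
    have hN' : k ≤ N' := by omega
    set com : Γ → Γ := fun y : Γ => y⁻¹ * z⁻¹ * y * z with hcom
    have hcomy : com y ∈ E := by
      have e : com y = y⁻¹ * (z⁻¹ * y * z) := by simp only [hcom]; group
      rw [e]
      exact mul_mem (inv_mem hy) (hz y hy)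
    have hstep : ∀ j, f ((z ^ (j + 1))⁻¹ * y * z ^ (j + 1)) =
        f ((z ^ j)⁻¹ * y * z ^ j) * f ((z ^ j)⁻¹ * com y * z ^ j) := by
      intro j
      rw [← hf _ (hconj j y hy) _ (hconj j _ hcomy)]
      congr 1
      simp only [hcom]
      rw [pow_succ']
      group
    have h1 := ih y hy (N' + 1) (by omega)
    have h2 := ih (com y) hcomy N' hN'
    rw [Finset.prod_range_succ']
    simp_rw [hstep]
    rw [Finset.prod_mul_distrib, h1, h2]
    rw [Finset.prod_range_succ', Finset.prod_range_succ' (fun i => f (com^[i] y) ^ ((k + 1).choose (i + 1)))]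
    simp only [Function.iterate_succ_apply, Function.iterate_zero, id, Nat.choose_one_right, pow_zero, zero_add, one_mul, mul_one,
      inv_one]
    have e3 : ∀ i, f (com^[i] (com y)) ^ ((k + 1).choose (i + 1 + 1)) =
        f (com^[i] (com y)) ^ (k.choose (i + 1 + 1)) * f (com^[i] (com y)) ^ (k.choose (i + 1)) := by
      intro i
      rw [Nat.choose_succ_succ' k (i + 1), pow_add, mul_comm]
    simp_rw [e3]
    rw [Finset.prod_mul_distrib, pow_succ]
    ac_rfl

open Classical in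
/-- The key vanishing on an orbit containing a fixed point of `a`. -/
theorem orbit_fixed [Finite Γ] [Fintype X] {p : ℕ} [hp : Fact p.Prime] (hΓ : IsPGroup p Γ)
    (hc : ∀ g h x, cc (g * h) x = cc g (h • x) * cc h x) (hA : ∀ y : A, y ^ p = 1)
    (a : Γ) (x0 : X) (ha : a • x0 = x0) (hnt : ∃ t : Γ, t • x0 ≠ x0)
    (Q : Subgroup Γ) (hQ : Q ⊔ Subgroup.zpowers a = ⊤)
    (hcom : ∀ z ∈ Q, (fun y : Γ => y⁻¹ * z⁻¹ * y * z)^[p - 1] a = 1) :
    ∏ x ∈ orb Γ x0, cc a x = 1 := by
  have hpp := hp.out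
  let D := MulAction.stabilizer Γ x0
  have haD : a ∈ D := ha
  have hDne : D ≠ ⊤ := by
    intro h
    obtain ⟨t, ht⟩ := hnt
    exact ht (show t ∈ D by rw [h]; trivial)
  obtain ⟨E, hEco, hDE⟩ := (eq_top_or_exists_le_coatom D).resolve_left hDne
  have hidx : E.index = p := Cfsg.Agent.Lib.PGroup.index_eq_prime_of_isCoatom hΓ hEco
  haveI hEn : E.Normal := Cfsg.Agent.Lib.PGroup.normal_of_index_eq_prime hΓ hidx
  have haE : a ∈ E := hDE haD
  obtain ⟨z, hzQ, hzE⟩ : ∃ z ∈ Q, z ∉ E := by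
    by_contra hcon
    push_neg at hcon
    apply hEco.1
    rw [eq_top_iff, ← hQ]
    exact sup_le hcon ((Subgroup.zpowers_le).mpr haE)
  -- the quotient
  let ζ : Γ ⧸ E := QuotientGroup.mk z
  have hζ : ζ ≠ 1 := fun h => hzE ((QuotientGroup.eq_one_iff z).mp h)
  haveI : Fintype (Γ ⧸ E) := Fintype.ofFinite _
  have hcard : Fintype.card (Γ ⧸ E) = p := by rw [← Nat.card_eq_fintype_card]; exact hidx
  have hord : orderOf ζ = p := orderOf_eq_prime (by rw [← hcard]; exact pow_card_eq_one) hζ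
  have hmkpow : ∀ (j : ℕ) (e : Γ), e ∈ E → (QuotientGroup.mk (z ^ j * e) : Γ ⧸ E) = ζ ^ j := by
    intro j e he
    rw [QuotientGroup.mk_mul, (QuotientGroup.eq_one_iff e).mpr he, mul_one, QuotientGroup.mk_pow]
  have hdec : ∀ t : Γ, ∃ j < p, ∃ e ∈ E, t = z ^ j * e := by
    intro t
    obtain ⟨j, hj⟩ := mem_powers_of_prime_card (show Nat.card (Γ ⧸ E) = p from hidx) hζ (g' := (QuotientGroup.mk t : Γ ⧸ E))
    refine ⟨j % p, Nat.mod_lt _ hpp.pos, (z ^ (j % p))⁻¹ * t, ?_, by group⟩
    apply QuotientGroup.eq.mp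
    have h1 : (QuotientGroup.mk (z ^ (j % p)) : Γ ⧸ E) = ζ ^ (j % p) := QuotientGroup.mk_pow _ _ _
    rw [h1, ← hord, pow_mod_orderOf]
    exact hj
  set O0 := Finset.univ.filter (fun x : X => ∃ e ∈ E, e • x0 = x) with hO0
  have hO0mem : ∀ x, x ∈ O0 ↔ ∃ e ∈ E, e • x0 = x := by
    intro x
    simp [hO0]
  have hO0inv : ∀ b ∈ E, ∀ x ∈ O0, b • x ∈ O0 := by
    intro b hb x hx
    obtain ⟨e, he, rfl⟩ := (hO0mem x).mp hx
    exact (hO0mem _).mpr ⟨b * e, mul_mem hb he, mul_smul _ _ _⟩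
  set f : Γ → A := fun y => ∏ x ∈ O0, cc y x with hf
  have hfmul : ∀ x ∈ E, ∀ y ∈ E, f (x * y) = f x * f y :=
    fun x _ y hy => vv_mul cc hc O0 (hO0inv y hy) x
  have hzconj : ∀ y ∈ E, z⁻¹ * y * z ∈ E := fun y hy => by
    simpa using hEn.conj_mem y hy z⁻¹
  have hdisj : (↑(Finset.range p) : Set ℕ).PairwiseDisjoint (fun j => O0.image (fun x => z ^ j • x)) := by
    intro i hi j hj hij
    rw [Function.onFun, Finset.disjoint_left]
    intro x hxi hxj
    obtain ⟨y, hy, rfl⟩ := Finset.mem_image.mp hxi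
    obtain ⟨y', hy', hyy⟩ := Finset.mem_image.mp hxj
    obtain ⟨e, he, rfl⟩ := (hO0mem _).mp hy
    obtain ⟨e', he', rfl⟩ := (hO0mem _).mp hy'
    apply hij
    have hst : (z ^ i * e)⁻¹ * (z ^ j * e') ∈ D := by
      show ((z ^ i * e)⁻¹ * (z ^ j * e')) • x0 = x0
      rw [mul_smul, mul_smul, hyy, inv_smul_eq_iff, mul_smul]
    have h1 : (QuotientGroup.mk (z ^ i * e) : Γ ⧸ E) = QuotientGroup.mk (z ^ j * e') :=
      QuotientGroup.eq.mpr (hDE hst)
    rw [hmkpow i e he, hmkpow j e' he'] at h1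
    have hi' : i < orderOf ζ := by rw [hord]; exact Finset.mem_range.mp (Finset.mem_coe.mp hi)
    have hj' : j < orderOf ζ := by rw [hord]; exact Finset.mem_range.mp (Finset.mem_coe.mp hj)
    exact pow_injOn_Iio_orderOf hi' hj' h1
  have hU : orb Γ x0 = (Finset.range p).biUnion (fun j => O0.image (fun x => z ^ j • x)) := by
    ext x
    rw [mem_orb, Finset.mem_biUnion]
    constructor
    · rintro ⟨t, rfl⟩
      obtain ⟨j, hj, e, he, rfl⟩ := hdec t
      refine ⟨j, Finset.mem_range.mpr hj, Finset.mem_image.mpr ⟨e • x0, (hO0mem _).mpr ⟨e, he, rfl⟩, ?_⟩⟩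
      rw [mul_smul]
    · rintro ⟨j, -, hx⟩
      obtain ⟨y, hy, rfl⟩ := Finset.mem_image.mp hx
      obtain ⟨e, -, rfl⟩ := (hO0mem _).mp hy
      exact ⟨z ^ j * e, mul_smul _ _ _⟩
  have hconj : ∀ (j : ℕ), (z ^ j)⁻¹ * a * z ^ j ∈ E := by
    intro j
    have := hEn.conj_mem a haE (z ^ j)⁻¹
    simpa using this
  rw [hU, Finset.prod_biUnion hdisj]
  have hterm : ∀ j ∈ Finset.range p, ∏ x ∈ O0.image (fun x => z ^ j • x), cc a x = f ((z ^ j)⁻¹ * a * z ^ j) := by
    intro j _
    rw [Finset.prod_image (fun _ _ _ _ e => MulAction.injective _ e)]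
    have h1 := vv_translate cc hc O0 (hO0inv _ (hconj j)) (z ^ j)
    have e : z ^ j * ((z ^ j)⁻¹ * a * z ^ j) * (z ^ j)⁻¹ = a := by group
    rw [e] at h1
    exact h1
  rw [Finset.prod_congr rfl hterm, binom_prod E z hzconj f hfmul p a haE p le_rfl]
  apply Finset.prod_eq_one
  intro i hi
  have hi' := Finset.mem_range.mp hi
  rcases Nat.lt_or_ge (i + 1) p with h | h
  · obtain ⟨c, hc'⟩ := hpp.dvd_choose_self (by omega : i + 1 ≠ 0) h
    rw [hc', pow_mul, hA, one_pow]
  · have h1 : i = p - 1 := by omega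
    rw [h1, hcom z hzQ]
    have h2 : f 1 = 1 := Finset.prod_eq_one (fun x _ => cc_one cc hc x)
    rw [h2, one_pow]

theorem orb_eq_of_mem [Fintype X] {x y : X} (h : y ∈ orb Γ x) : orb Γ y = orb Γ x := by
  obtain ⟨g, rfl⟩ := mem_orb.mp h
  ext w
  rw [mem_orb, mem_orb]
  constructor
  · rintro ⟨t, rfl⟩
    exact ⟨t * g, mul_smul _ _ _⟩
  · rintro ⟨t, rfl⟩
    exact ⟨t * g⁻¹, by rw [mul_smul, inv_smul_smul]⟩

open Classical in
/-- The main vanishing theorem for a `p`-group acting. -/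
theorem vv_vanish [Finite Γ] [Fintype X] {p : ℕ} [hp : Fact p.Prime] (hΓ : IsPGroup p Γ)
    (hc : ∀ g h x, cc (g * h) x = cc g (h • x) * cc h x) (hA : ∀ y : A, y ^ p = 1)
    (a : Γ) (Q : Subgroup Γ) (hQ : Q ⊔ Subgroup.zpowers a = ⊤)
    (hcom : ∀ z ∈ Q, (fun y : Γ => y⁻¹ * z⁻¹ * y * z)^[p - 1] a = 1)
    (Y : Finset X) (hY : ∀ g : Γ, ∀ x ∈ Y, g • x ∈ Y) (hnt : ∀ x ∈ Y, ∃ t : Γ, t • x ≠ x)
    (hlong : ∀ x ∈ Y, a • x ≠ x → cc (a ^ Function.minimalPeriod (fun y => a • y) x) x = 1) :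
    ∏ x ∈ Y, cc a x = 1 := by
  apply vv_orbits (Γ := Γ) (cc a) Y hY
  intro x hx
  have hsub : ∀ y ∈ orb Γ x, y ∈ Y := by
    intro y hy
    obtain ⟨g, rfl⟩ := mem_orb.mp hy
    exact hY g x hx
  by_cases h : ∃ y ∈ orb Γ x, a • y = y
  · obtain ⟨y, hy, hay⟩ := h
    rw [← orb_eq_of_mem hy]
    exact orbit_fixed cc hΓ hc hA a y hay (hnt y (hsub y hy)) Q hQ hcom
  · push_neg at h
    apply vv_cycle cc hc a
    · intro y hy
      obtain ⟨g, rfl⟩ := mem_orb.mp hy
      exact mem_orb.mpr ⟨a * g, mul_smul _ _ _⟩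
    · intro y hy
      exact hlong y (hsub y hy) (h y hy)

end Abstract

section Concrete

variable {G : Type*} [Group G] {H : Subgroup G} {A : Type*} [CommGroup A]

/-- The section of the coset map. -/
noncomputable def sec (q : G ⧸ H) : G := Quotient.out q

theorem mk_sec (q : G ⧸ H) : (QuotientGroup.mk (sec q) : G ⧸ H) = q := QuotientGroup.out_eq' q

theorem sec_mem (g : G) (q : G ⧸ H) : (sec (g • q))⁻¹ * g * sec q ∈ H := by
  have h : (QuotientGroup.mk (sec (g • q)) : G ⧸ H) = QuotientGroup.mk (g * sec q) := by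
    rw [mk_sec]
    conv_lhs => rw [← mk_sec q]
    rfl
  have := QuotientGroup.eq.mp h
  simpa [mul_assoc] using this

/-- The transfer cocycle. -/
noncomputable def cc0 (φ : H →* A) (g : G) (q : G ⧸ H) : A :=
  φ ⟨(sec (g • q))⁻¹ * g * sec q, sec_mem g q⟩

theorem cc0_mul (φ : H →* A) (g h : G) (q : G ⧸ H) : cc0 φ (g * h) q = cc0 φ g (h • q) * cc0 φ h q := by
  unfold cc0
  rw [← map_mul]
  congr 1
  apply Subtype.ext
  simp [mul_smul, mul_assoc]

theorem coe_iterate_com (T : Subgroup G) (z u : T) (k : ℕ) :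
    (((fun y : T => y⁻¹ * z⁻¹ * y * z)^[k] u : T) : G) =
      (fun y : G => y⁻¹ * (z : G)⁻¹ * y * z)^[k] (u : G) := by
  induction k with
  | zero => rfl
  | succ k ih =>
    rw [Function.iterate_succ_apply', Function.iterate_succ_apply', ← ih]
    simp

variable [Finite G] {p : ℕ} [hp : Fact p.Prime]

theorem sec_conj_mem_normalizer {P Q : Subgroup G} (hPM : P ≤ Subgroup.normalizer (Q : Set G))
    {t : G} (ht : t ∈ Subgroup.normalizer (Q : Set G)) {q : G ⧸ P}
    (hq : sec q ∈ Subgroup.normalizer (Q : Set G)) : sec (t • q) ∈ Subgroup.normalizer (Q : Set G) := by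
  have h1 := sec_mem t q
  have e : sec (t • q) = t * sec q * ((sec (t • q))⁻¹ * t * sec q)⁻¹ := by group
  rw [e]
  exact mul_mem (mul_mem ht hq) (inv_mem (hPM h1))

theorem mem_normalizer_of_map_eq {Q : Subgroup G} {g : G}
    (h : Q.map (MulAut.conj g).toMonoidHom = Q) : g ∈ Subgroup.normalizer (Q : Set G) := by
  rw [Subgroup.mem_normalizer_iff]
  intro x
  constructor
  · intro hx
    rw [← h]
    exact ⟨x, hx, rfl⟩
  · intro hx
    rw [← h] at hx
    obtain ⟨y, hy, e⟩ := hx
    have e' : g * y * g⁻¹ = g * x * g⁻¹ := e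
    have : y = x := by simpa using e'
    rwa [← this]

theorem normalizer_le_of_weaklyClosed {P Q : Subgroup G} (hQ : IsWeaklyClosed Q P) :
    P ≤ Subgroup.normalizer (Q : Set G) := by
  intro t ht
  apply mem_normalizer_of_map_eq
  apply hQ.2
  rintro _ ⟨z, hz, rfl⟩
  exact mul_mem (mul_mem ht (hQ.1 hz)) (inv_mem ht)

theorem fixed_iff {P Q : Subgroup G} (hQ : IsWeaklyClosed Q P) (q : G ⧸ P) :
    (∀ z ∈ Q, z • q = q) ↔ sec q ∈ Subgroup.normalizer (Q : Set G) := by
  have hfix : ∀ z : G, z • q = q ↔ (sec q)⁻¹ * z * sec q ∈ P := by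
    intro z
    have e : z • q = (QuotientGroup.mk (z * sec q) : G ⧸ P) := by
      conv_lhs => rw [← mk_sec q]
      rfl
    rw [e]
    conv_lhs => rhs; rw [← mk_sec q]
    rw [QuotientGroup.eq]
    constructor
    · intro h
      have := inv_mem h
      simpa [mul_assoc] using this
    · intro h
      have := inv_mem h
      simpa [mul_assoc] using this
  constructor
  · intro h
    have h1 : Q.map (MulAut.conj (sec q)⁻¹).toMonoidHom ≤ P := by
      rintro _ ⟨z, hz, rfl⟩
      have := (hfix z).mp (h z hz)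
      simpa using this
    have h2 := mem_normalizer_of_map_eq (hQ.2 _ h1)
    simpa using inv_mem h2
  · intro h z hz
    rw [hfix]
    exact hQ.1 ((Subgroup.mem_normalizer_iff.mp (inv_mem h) z).mp hz |> fun h' => by simpa using h')

theorem eq_one_of_pow_coprime {B : Type*} [Group B] {y : B} {m n : ℕ} (h1 : y ^ m = 1) (h2 : y ^ n = 1)
    (hc : Nat.Coprime m n) : y = 1 :=
  orderOf_eq_one_iff.mp (Nat.eq_one_of_dvd_coprimes hc (orderOf_dvd_of_pow_eq_one h1)
    (orderOf_dvd_of_pow_eq_one h2))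

open Classical in
/-- **Core of Hall–Wielandt.** A homomorphism of the normalizer of `Q` to an elementary abelian `p`-group
kills `P ∩ O^p(G)`. -/
theorem core (P : Sylow p G) (Q : Subgroup G) (hQ : IsWeaklyClosed Q (P : Subgroup G))
    (hcom : ∀ u ∈ (P : Subgroup G), ∀ z ∈ Q, (fun y : G => y⁻¹ * z⁻¹ * y * z)^[p - 1] u = 1)
    (hA : ∀ y : A, y ^ p = 1)
    (Λ : Subgroup.normalizer (Q : Set G) →* A) (r : G) (hrP : r ∈ (P : Subgroup G))
    (hrX : r ∈ pResidual p G) (hrM : r ∈ Subgroup.normalizer (Q : Set G)) : Λ ⟨r, hrM⟩ = 1 := by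
  have hpp := hp.out
  have hPM : (P : Subgroup G) ≤ Subgroup.normalizer (Q : Set G) := normalizer_le_of_weaklyClosed hQ
  let φ : (P : Subgroup G) →* A := Λ.comp (Subgroup.inclusion hPM)
  haveI : Fintype (G ⧸ (P : Subgroup G)) := Fintype.ofFinite _
  set YM : Finset (G ⧸ (P : Subgroup G)) := Finset.univ.filter (fun q => sec q ∈ Subgroup.normalizer (Q : Set G)) with hYM
  set Ω : Finset (G ⧸ (P : Subgroup G)) := Finset.univ.filter (fun q => ¬ sec q ∈ Subgroup.normalizer (Q : Set G)) with hΩ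
  set m := YM.card with hm
  have hmc : Nat.Coprime m p := by
    have h1 := IsPGroup.card_modEq_card_fixedPoints (p := p) (G := Q)
      (P.isPGroup'.to_le hQ.1) (G ⧸ (P : Subgroup G))
    have h2 : Nat.card (MulAction.fixedPoints Q (G ⧸ (P : Subgroup G))) = m := by
      apply Nat.subtype_card
      intro q
      rw [hYM, Finset.mem_filter]
      simp only [Finset.mem_univ, true_and]
      rw [← fixed_iff hQ q]
      exact ⟨fun h z => h z z.2, fun h z hz => h ⟨z, hz⟩⟩
    rw [h2] at h1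
    have h3 : ¬ p ∣ Nat.card (G ⧸ (P : Subgroup G)) := P.not_dvd_index
    have h4 : ¬ p ∣ m := fun h => h3 ((Nat.modEq_zero_iff_dvd).mp (h1.trans (Nat.modEq_zero_iff_dvd.mpr h)))
    exact ((Nat.Prime.coprime_iff_not_dvd hpp).mpr h4).symm
  let V : G → A := fun g => ∏ q, cc0 φ g q
  have hVmul : ∀ g h, V (g * h) = V g * V h := fun g h =>
    vv_mul (cc0 φ) (cc0_mul φ) Finset.univ (fun _ _ => Finset.mem_univ _) g
  have hV1 : V 1 = 1 := Finset.prod_eq_one (fun q _ => cc_one (cc0 φ) (cc0_mul φ) q)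
  have hVconj : ∀ x b, V (x⁻¹ * b * x) = V b := by
    intro x b
    rw [hVmul, hVmul]
    have h1 : V x⁻¹ * V x = 1 := by
      rw [← hVmul]
      simpa using hV1
    calc V x⁻¹ * V b * V x = (V x⁻¹ * V x) * V b := by ac_rfl
      _ = V b := by rw [h1, one_mul]
  have hmain : ∀ n : ℕ, ∀ (a : G) (ha : a ∈ (P : Subgroup G)), orderOf a = n → V a = φ ⟨a, ha⟩ ^ m := by
    intro n
    induction n using Nat.strong_induction_on with
    | _ n ih =>
      intro a ha hn
      have hlong0 : ∀ q, a • q ≠ q → cc0 φ (a ^ Function.minimalPeriod (fun y => a • y) q) q = 1 := by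
        intro q hq
        set k := Function.minimalPeriod (fun y => a • y) q with hk
        have hkfix : a ^ k • q = q := by
          have := Function.iterate_minimalPeriod (f := fun y : G ⧸ (P : Subgroup G) => a • y) (x := q)
          rwa [← hk, smul_iterate_apply] at this
        have hdvd : k ∣ orderOf a := by
          apply Function.IsPeriodicPt.minimalPeriod_dvd
          rw [Function.IsPeriodicPt, Function.IsFixedPt, smul_iterate_apply, pow_orderOf_eq_one, one_smul]
        obtain ⟨l, hl⟩ := IsPGroup.iff_orderOf.mp P.isPGroup' ⟨a, ha⟩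
        rw [Subgroup.orderOf_mk] at hl
        have hk1 : k ≠ 1 := by
          intro h
          apply hq
          have h5 := hkfix
          rw [h, pow_one] at h5
          exact h5
        obtain ⟨i, -, hi⟩ := (Nat.dvd_prime_pow hpp).mp (hl ▸ hdvd)
        have hi0 : i ≠ 0 := by
          rintro rfl
          exact hk1 (by simpa using hi)
        have hpk : p ∣ k := by
          rw [hi]
          exact dvd_pow_self p hi0
        have hk0 : k ≠ 0 := by
          rw [hi]
          exact pow_ne_zero _ hpp.ne_zero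
        have hord : orderOf (a ^ k) < n := by
          rw [orderOf_pow_of_dvd hk0 hdvd, ← hn]
          exact Nat.div_lt_self (orderOf_pos a) (by omega)
        set b := a ^ k with hb
        have hbP : b ∈ (P : Subgroup G) := pow_mem ha k
        set x := sec q with hx
        have hb' : x⁻¹ * b * x ∈ (P : Subgroup G) := by
          have h5 := sec_mem (H := (P : Subgroup G)) b q
          rwa [hkfix] at h5
        have h1 := ih (orderOf b) hord b hbP rfl
        have h2 := ih (orderOf b) hord (x⁻¹ * b * x) hb' (by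
          have h5 := Cfsg.Agent.Lib.Transfer.orderOf_conj x⁻¹ b
          simpa using h5)
        rw [hVconj, h1] at h2
        have h3 : φ ⟨x⁻¹ * b * x, hb'⟩ = φ ⟨b, hbP⟩ := by
          have h5 : (φ ⟨x⁻¹ * b * x, hb'⟩ * (φ ⟨b, hbP⟩)⁻¹) ^ m = 1 := by
            rw [mul_pow, inv_pow, ← h2, mul_inv_cancel]
          have h6 := eq_one_of_pow_coprime h5 (hA _) hmc
          exact mul_inv_eq_one.mp h6
        have h4 : φ ⟨b, hbP⟩ = 1 := by
          have e : (⟨b, hbP⟩ : (P : Subgroup G)) = ⟨a, ha⟩ ^ k := rfl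
          rw [e, map_pow]
          obtain ⟨c, hc⟩ := hpk
          rw [hc, pow_mul, hA, one_pow]
        have e : (⟨(sec (b • q))⁻¹ * b * sec q, sec_mem b q⟩ : (P : Subgroup G)) = ⟨x⁻¹ * b * x, hb'⟩ :=
          Subtype.ext (by simp only [hkfix]; rfl)
        show φ _ = 1
        rw [e, h3, h4]
      have hsplit : V a = (∏ q ∈ YM, cc0 φ a q) * ∏ q ∈ Ω, cc0 φ a q :=
        (Finset.prod_filter_mul_prod_filter_not _ _ _).symm
      have haM : a ∈ Subgroup.normalizer (Q : Set G) := hPM ha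
      have hYMinv : ∀ q ∈ YM, a • q ∈ YM := by
        intro q hq
        rw [hYM, Finset.mem_filter] at hq ⊢
        exact ⟨Finset.mem_univ _, sec_conj_mem_normalizer hPM haM hq.2⟩
      let L : G ⧸ (P : Subgroup G) → A := fun q => if h : sec q ∈ Subgroup.normalizer (Q : Set G) then Λ ⟨sec q, h⟩ else 1
      have hterm : ∀ q ∈ YM, cc0 φ a q = (L (a • q))⁻¹ * φ ⟨a, ha⟩ * L q := by
        intro q hq
        have h1 : sec q ∈ Subgroup.normalizer (Q : Set G) := (Finset.mem_filter.mp hq).2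
        have h2 : sec (a • q) ∈ Subgroup.normalizer (Q : Set G) := (Finset.mem_filter.mp (hYMinv q hq)).2
        have e1 : L q = Λ ⟨sec q, h1⟩ := dif_pos h1
        have e2 : L (a • q) = Λ ⟨sec (a • q), h2⟩ := dif_pos h2
        rw [e1, e2, ← map_inv]
        show Λ _ = Λ _ * Λ _ * Λ _
        rw [← map_mul, ← map_mul]
        congr 1
      have hfirst : ∏ q ∈ YM, cc0 φ a q = φ ⟨a, ha⟩ ^ m := by
        rw [Finset.prod_congr rfl hterm, Finset.prod_mul_distrib, Finset.prod_mul_distrib, Finset.prod_const,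
          Finset.prod_inv_distrib, prod_smul_eq YM hYMinv L, mul_comm (∏ q ∈ YM, L q)⁻¹, mul_assoc, inv_mul_cancel,
          mul_one]
      have hsecond : ∏ q ∈ Ω, cc0 φ a q = 1 := by
        let T : Subgroup G := Q ⊔ Subgroup.zpowers a
        have hTP : T ≤ (P : Subgroup G) := sup_le hQ.1 ((Subgroup.zpowers_le).mpr ha)
        have haT : a ∈ T := Subgroup.mem_sup_right (Subgroup.mem_zpowers a)
        let a' : T := ⟨a, haT⟩
        let cc' : T → (G ⧸ (P : Subgroup G)) → A := fun t q => cc0 φ (t : G) q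
        have hc' : ∀ (g h : T) (x : G ⧸ (P : Subgroup G)), cc' (g * h) x = cc' g (h • x) * cc' h x :=
          fun g h x => cc0_mul φ g h x
        have hQ' : Q.subgroupOf T ⊔ Subgroup.zpowers a' = ⊤ := by
          rw [eq_top_iff]
          have hle : T ≤ (Q.subgroupOf T ⊔ Subgroup.zpowers a').map T.subtype := by
            refine sup_le ?_ ((Subgroup.zpowers_le).mpr ?_)
            · intro z hz
              exact ⟨⟨z, Subgroup.mem_sup_left hz⟩,
                Subgroup.mem_sup_left (show (⟨z, Subgroup.mem_sup_left hz⟩ : T) ∈ Q.subgroupOf T from hz), rfl⟩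
            · exact ⟨a', Subgroup.mem_sup_right (Subgroup.mem_zpowers a'), rfl⟩
          intro t _
          obtain ⟨t', ht', e⟩ := hle t.2
          have : t' = t := Subtype.ext e
          rwa [← this]
        have hcom' : ∀ z ∈ Q.subgroupOf T, (fun y : T => y⁻¹ * z⁻¹ * y * z)^[p - 1] a' = 1 := by
          intro z hz
          apply Subtype.ext
          rw [coe_iterate_com]
          exact hcom a ha z hz
        refine vv_vanish cc' (P.isPGroup'.to_le hTP) hc' hA a' (Q.subgroupOf T) hQ' hcom' Ω ?_ ?_ ?_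
        · intro t q hq
          rw [hΩ, Finset.mem_filter] at hq ⊢
          refine ⟨Finset.mem_univ _, fun h => hq.2 ?_⟩
          have ht : (t : G) ∈ Subgroup.normalizer (Q : Set G) := hPM (hTP t.2)
          have h5 := sec_conj_mem_normalizer hPM (inv_mem ht) h
          have e : (t : G)⁻¹ • (t • q) = q := by
            show (t : G)⁻¹ • ((t : G) • q) = q
            exact inv_smul_smul _ _
          rwa [e] at h5
        · intro q hq
          have h1 : ¬ sec q ∈ Subgroup.normalizer (Q : Set G) := (Finset.mem_filter.mp hq).2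
          rw [← fixed_iff hQ q] at h1
          push_neg at h1
          obtain ⟨z, hz, hzq⟩ := h1
          exact ⟨⟨z, Subgroup.mem_sup_left hz⟩, hzq⟩
        · intro q _ hne
          exact hlong0 q hne
      rw [hsplit, hfirst, hsecond, mul_one]
  let Vh : G →* A := MonoidHom.mk' V hVmul
  have hAp : IsPGroup p A := fun y => ⟨1, by simpa using hA y⟩
  have hker : V r = 1 := Cfsg.Agent.Lib.Transfer.pResidual_le_ker hAp Vh hrX
  have h2 := hmain _ r hrP rfl
  rw [hker] at h2
  show φ ⟨r, hrP⟩ = 1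
  exact eq_one_of_pow_coprime h2.symm (hA _) hmc

/-- A central section of exponent `p`. -/
theorem exists_central_section (P : Subgroup G) (hPp : IsPGroup p P) (S0 R : Subgroup G) (hSR : S0 ≤ R)
    (hRP : R ≤ P) (hS0n : P ≤ Subgroup.normalizer (S0 : Set G)) (hRnorm : P ≤ Subgroup.normalizer (R : Set G))
    (hne : S0 ≠ R) :
    ∃ S : Subgroup G, S0 ≤ S ∧ S ≤ R ∧ S ≠ R ∧ P ≤ Subgroup.normalizer (S : Set G) ∧
      (∀ r ∈ R, ∀ x ∈ P, ⁅r, x⁆ ∈ S) ∧ ∃ y ∈ R, y ^ p ∈ S ∧ S ⊔ Subgroup.zpowers y = R := by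
  obtain ⟨S, hS0S, ⟨hS1, hS2, hS3⟩, hmax⟩ :=
    (Set.toFinite {S : Subgroup G | S ≤ R ∧ P ≤ Subgroup.normalizer (S : Set G) ∧ S ≠ R}).exists_le_maximal
      (a := S0) ⟨hSR, hS0n, hne⟩
  haveI hN1 : (S.subgroupOf P).Normal := Subgroup.normal_subgroupOf_of_le_normalizer hS2
  haveI hN2 : (R.subgroupOf P).Normal := Subgroup.normal_subgroupOf_of_le_normalizer hRnorm
  have hnotle : ¬ R.subgroupOf P ≤ S.subgroupOf P := by
    intro h
    apply hS3
    apply le_antisymm hS1
    intro x hx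
    exact h (show (⟨x, hRP hx⟩ : P) ∈ R.subgroupOf P from hx)
  obtain ⟨z₀, hz₀R, hz₀S, hz₀c⟩ := Cfsg.Agent.Lib.Techniques.exists_mem_not_mem_commutator_mem_of_normal
    hPp (S.subgroupOf P) (R.subgroupOf P) hnotle
  set W := Cfsg.Agent.Lib.Transfer.centralMod P S hS2 with hW
  have hzW : (z₀ : G) ∈ W := ⟨z₀.2, fun x hx => hz₀c ⟨x, hx⟩⟩
  have hexa : ∃ a : ℕ, (z₀ : G) ^ p ^ a ∈ S := by
    obtain ⟨b, hb⟩ := hPp z₀
    refine ⟨b, ?_⟩
    have : (z₀ : G) ^ p ^ b = 1 := congrArg Subtype.val hb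
    rw [this]; exact one_mem _
  classical
  have ha0 : Nat.find hexa ≠ 0 := by
    intro h0
    have := Nat.find_spec hexa
    rw [h0] at this
    simp only [pow_zero, pow_one] at this
    exact hz₀S this
  obtain ⟨c, hc⟩ := Nat.exists_eq_succ_of_ne_zero ha0
  set y := (z₀ : G) ^ p ^ c with hy
  have hyS : y ∉ S := Nat.find_min hexa (by omega : c < Nat.find hexa)
  have hypS : y ^ p ∈ S := by
    have := Nat.find_spec hexa
    rw [hc, pow_succ, pow_mul] at this
    exact this
  have hyW : y ∈ W := pow_mem hzW _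
  have hyR : y ∈ R := pow_mem hz₀R _
  have hyc : ∀ x ∈ P, ⁅y, x⁆ ∈ S := hyW.2
  have hsup : S ⊔ Subgroup.zpowers y = R := by
    by_contra hne2
    have h3 := hmax (y := S ⊔ Subgroup.zpowers y)
      ⟨sup_le hS1 ((Subgroup.zpowers_le).mpr hyR), Cfsg.Agent.Lib.Transfer.normalizer_sup_zpowers hS2 hyc, hne2⟩ le_sup_left
    exact hyS (h3 (Subgroup.mem_sup_right (Subgroup.mem_zpowers y)))
  have hSW : S ≤ W := by
    intro s hs
    refine ⟨hRP (hS1 hs), fun x hx => ?_⟩
    have e : ⁅s, x⁆ = s * (x * s⁻¹ * x⁻¹) := by simp [commutatorElement_def, mul_assoc]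
    rw [e]
    exact mul_mem hs (Cfsg.Agent.Lib.Transfer.conj_mem_of_mem_normalizer (hS2 hx) (inv_mem hs))
  have hRW : R ≤ W := by
    rw [← hsup]
    exact sup_le hSW ((Subgroup.zpowers_le).mpr hyW)
  exact ⟨S, hS0S, hS1, hS3, hS2, fun r hr => (hRW hr).2, y, hyR, hypS, hsup⟩

/-- **Tate step**. -/
theorem inf_le_residualOf (P : Sylow p G) (Q : Subgroup G) (hQ : IsWeaklyClosed Q (P : Subgroup G))
    (hcom : ∀ u ∈ (P : Subgroup G), ∀ z ∈ Q, (fun y : G => y⁻¹ * z⁻¹ * y * z)^[p - 1] u = 1) :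
    pResidual p G ⊓ (P : Subgroup G) ≤ pResidualOf p (Subgroup.normalizer (Q : Set G)) := by
  have hpp := hp.out
  have hPM : (P : Subgroup G) ≤ Subgroup.normalizer (Q : Set G) := normalizer_le_of_weaklyClosed hQ
  set K := pResidualOf p (Subgroup.normalizer (Q : Set G)) with hK
  set X := pResidual p G with hX
  have hKX : K ≤ X := by
    rw [hK, pResidualOf, Cfsg.Agent.Lib.Amalgam.map_pResidual_eq_closure, Subgroup.closure_le]
    rintro g ⟨-, hg⟩
    exact Subgroup.subset_closure hg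
  have hKn : Subgroup.normalizer (Q : Set G) ≤ Subgroup.normalizer (K : Set G) :=
    (Subgroup.le_normalizer).trans Cfsg.Agent.Lib.Amalgam.le_normalizer_map_pResidual
  set R := X ⊓ (P : Subgroup G) with hR
  by_contra hnot
  set S0 := K ⊓ (P : Subgroup G) with hS0
  have hRP : R ≤ (P : Subgroup G) := inf_le_right
  have hPp : IsPGroup p (P : Subgroup G) := P.isPGroup'
  have hinfn : ∀ L : Subgroup G, (P : Subgroup G) ≤ Subgroup.normalizer (L : Set G) →
      (P : Subgroup G) ≤ Subgroup.normalizer ((L ⊓ (P : Subgroup G) : Subgroup G) : Set G) := by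
    intro L hL t ht
    rw [Subgroup.mem_normalizer_iff]
    intro x
    have h1 := Subgroup.mem_normalizer_iff.mp (hL ht) x
    constructor
    · intro hx
      have hx' := Subgroup.mem_inf.mp hx
      exact Subgroup.mem_inf.mpr ⟨h1.mp hx'.1, mul_mem (mul_mem ht hx'.2) (inv_mem ht)⟩
    · intro hx
      have hx' := Subgroup.mem_inf.mp hx
      refine Subgroup.mem_inf.mpr ⟨h1.mpr hx'.1, ?_⟩
      have := mul_mem (mul_mem (inv_mem ht) hx'.2) ht
      simpa [mul_assoc] using this
  have hRnorm : (P : Subgroup G) ≤ Subgroup.normalizer (R : Set G) := hinfn X (by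
    intro t _
    rw [Subgroup.normalizer_eq_top_iff.mpr inferInstance]; trivial)
  have hS0n : (P : Subgroup G) ≤ Subgroup.normalizer (S0 : Set G) := hinfn K (hPM.trans hKn)
  have hS0R : S0 ≤ R := inf_le_inf_right _ hKX
  have hne : S0 ≠ R := by
    intro h
    apply hnot
    rw [← h]
    exact inf_le_left
  obtain ⟨S, hS0S, hS1, hS3, hS2, hRc, y, hyR, hypS, hsup⟩ :=
    exists_central_section (P : Subgroup G) hPp S0 R hS0R hRP hS0n hRnorm hne
  let S' : Subgroup R := S.subgroupOf R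
  haveI hS'n : S'.Normal := Subgroup.normal_subgroupOf_of_le_normalizer (hRP.trans hS2)
  let A := R ⧸ S'
  let ρ : R →* A := QuotientGroup.mk' S'
  haveI hAc : IsMulCommutative A := by
    refine ⟨⟨fun a b => ?_⟩⟩
    obtain ⟨a', rfl⟩ := QuotientGroup.mk'_surjective S' a
    obtain ⟨b', rfl⟩ := QuotientGroup.mk'_surjective S' b
    have h1 : ⁅(a' : G), (b' : G)⁆ ∈ S := hRc _ a'.2 _ (hRP b'.2)
    have h2 : QuotientGroup.mk' S' ⁅a', b'⁆ = 1 := by
      apply (QuotientGroup.eq_one_iff _).mpr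
      show ((⁅a', b'⁆ : R) : G) ∈ S
      have e : ((⁅a', b'⁆ : R) : G) = ⁅(a' : G), (b' : G)⁆ := by simp [commutatorElement_def]
      rw [e]; exact h1
    rw [map_commutatorElement, commutatorElement_eq_one_iff_mul_comm] at h2
    exact h2
  have hApow : ∀ a : A, a ^ p = 1 := by
    let L : Subgroup G := (((powMonoidHom p : A →* A).ker).comap ρ).map R.subtype
    have hRL : R ≤ L := by
      rw [← hsup]
      refine sup_le ?_ ((Subgroup.zpowers_le).mpr ?_)
      · intro s hs
        refine ⟨⟨s, hS1 hs⟩, ?_, rfl⟩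
        show ρ ⟨s, hS1 hs⟩ ^ p = 1
        have : ρ ⟨s, hS1 hs⟩ = 1 := (QuotientGroup.eq_one_iff _).mpr hs
        rw [this, one_pow]
      · refine ⟨⟨y, hyR⟩, ?_, rfl⟩
        show ρ ⟨y, hyR⟩ ^ p = 1
        rw [← map_pow]
        exact (QuotientGroup.eq_one_iff _).mpr (show ((⟨y, hyR⟩ ^ p : R) : G) ∈ S from by simpa using hypS)
    intro a
    obtain ⟨r, rfl⟩ := QuotientGroup.mk'_surjective S' a
    obtain ⟨r', hr', hrr⟩ := hRL r.2
    have : r' = r := Subtype.ext hrr
    rw [← this]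
    exact hr'
  have hAp : IsPGroup p A := fun a => ⟨1, by rw [pow_one]; exact hApow a⟩
  have hKtriv : ∀ f : X →* A, f = 1 := by
    intro f
    have h1 := Cfsg.Agent.Lib.Transfer.pResidual_le_ker hAp f
    have hres : pResidual p X = ⊤ := Cfsg.Agent.Lib.Transfer.residual_residual p
    rw [hres] at h1
    ext k
    exact h1 (Subgroup.mem_top k)
  obtain ⟨μ, n, hn, hμ⟩ := Cfsg.Agent.Lib.Transfer.tate_extension (P : Subgroup G) X ρ (by
    intro x hx r h
    symm
    apply QuotientGroup.eq.mpr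
    show ((r⁻¹ * ⟨x⁻¹ * (r : G) * x, h⟩ : R) : G) ∈ S
    have e : ((r⁻¹ * ⟨x⁻¹ * (r : G) * x, h⟩ : R) : G) = ⁅(r : G)⁻¹, x⁻¹⁆ := by
      simp [commutatorElement_def, mul_assoc]
    rw [e]
    exact hRc _ (inv_mem r.2) _ (inv_mem hx)) hKtriv
  have hnc : Nat.Coprime n p := by
    refine ((Nat.Prime.coprime_iff_not_dvd hpp).mpr fun h => ?_).symm
    exact P.not_dvd_index (h.trans hn)
  -- the extension of `μ` to `M`
  let K0 : Subgroup (Subgroup.normalizer (Q : Set G)) := pResidual p (Subgroup.normalizer (Q : Set G))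
  haveI hK0n : K0.Normal := Cfsg.Agent.Lib.Transfer.pResidual_normal
  let ψ : (P : Subgroup G) →* (Subgroup.normalizer (Q : Set G)) ⧸ K0 :=
    (QuotientGroup.mk' K0).comp (Subgroup.inclusion hPM)
  have hsurj : Function.Surjective ψ := by
    intro q
    obtain ⟨m, rfl⟩ := QuotientGroup.mk'_surjective K0 q
    have h1 := Cfsg.Agent.Lib.Transfer.sup_pResidual_sylow (P.subtype hPM)
    have hm : m ∈ K0 ⊔ ((P.subtype hPM : Sylow p _) : Subgroup _) := by
      rw [h1]; trivial
    obtain ⟨k, hk, t, ht, e⟩ := Cfsg.Agent.Lib.Core.exists_mul_of_mem_sup_normal_left hm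
    rw [Sylow.coe_subtype] at ht
    refine ⟨⟨t, Subgroup.mem_subgroupOf.mp ht⟩, ?_⟩
    show QuotientGroup.mk' K0 _ = QuotientGroup.mk' K0 m
    have h0 : QuotientGroup.mk' K0 k = 1 := (QuotientGroup.eq_one_iff k).mpr hk
    rw [e, map_mul, h0, one_mul]
    rfl
  have hker : ψ.ker ≤ μ.ker := by
    intro t ht
    have h1 : (Subgroup.inclusion hPM t : Subgroup.normalizer (Q : Set G)) ∈ K0 := (QuotientGroup.eq_one_iff _).mp ht
    have h2 : (t : G) ∈ K := ⟨_, h1, rfl⟩
    have h3 : (t : G) ∈ S := hS0S (Subgroup.mem_inf.mpr ⟨h2, t.2⟩)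
    have h4 : (t : G) ∈ R := hS1 h3
    have h5 := hμ (t : G) h4
    have h6 : ρ ⟨(t : G), h4⟩ = 1 := (QuotientGroup.eq_one_iff _).mpr h3
    rw [h6, one_pow] at h5
    exact h5
  let lift : (Subgroup.normalizer (Q : Set G)) ⧸ K0 →* A := ψ.liftOfSurjective hsurj ⟨μ, hker⟩
  let Λ : Subgroup.normalizer (Q : Set G) →* A := lift.comp (QuotientGroup.mk' K0)
  have hΛ : ∀ t : (P : Subgroup G), Λ (Subgroup.inclusion hPM t) = μ t := fun t =>
    MonoidHom.liftOfRightInverse_comp_apply ψ (Function.surjInv hsurj) (Function.rightInverse_surjInv hsurj) ⟨μ, hker⟩ t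
  apply hS3
  apply le_antisymm hS1
  intro r hr
  have hr' := Subgroup.mem_inf.mp hr
  have h1 := core P Q hQ hcom hApow Λ r hr'.2 hr'.1 (hPM hr'.2)
  have h2 := hΛ ⟨r, hr'.2⟩
  have h3 : Λ (Subgroup.inclusion hPM ⟨r, hr'.2⟩) = 1 := h1
  rw [h3, hμ r hr] at h2
  have h4 := eq_one_of_pow_coprime h2.symm (hApow _) hnc
  have h5 : (⟨r, hr⟩ : R) ∈ S' := (QuotientGroup.eq_one_iff (⟨r, hr⟩ : R)).mp h4
  exact h5

/-- **The Hall–Wielandt theorem.** -/
theorem hall_wielandt (P : Sylow p G) (Q : Subgroup G) (hQ : IsWeaklyClosed Q (P : Subgroup G))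
    (hcom : ∀ u ∈ (P : Subgroup G), ∀ z ∈ Q, (fun y : G => y⁻¹ * z⁻¹ * y * z)^[p - 1] u = 1) :
    pResidualOf p (Subgroup.normalizer (Q : Set G)) = pResidual p G ⊓ Subgroup.normalizer (Q : Set G) := by
  have hPM : (P : Subgroup G) ≤ Subgroup.normalizer (Q : Set G) := normalizer_le_of_weaklyClosed hQ
  have hKX : pResidualOf p (Subgroup.normalizer (Q : Set G)) ≤ pResidual p G := by
    rw [pResidualOf, Cfsg.Agent.Lib.Amalgam.map_pResidual_eq_closure, Subgroup.closure_le]
    rintro g ⟨-, hg⟩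
    exact Subgroup.subset_closure hg
  apply le_antisymm
  · refine le_inf hKX ?_
    exact Cfsg.Agent.Lib.Amalgam.map_pResidual_le
  · intro m hm
    have hm' := Subgroup.mem_inf.mp hm
    let K0 : Subgroup (Subgroup.normalizer (Q : Set G)) := pResidual p (Subgroup.normalizer (Q : Set G))
    haveI hK0n : K0.Normal := Cfsg.Agent.Lib.Transfer.pResidual_normal
    have h1 := Cfsg.Agent.Lib.Transfer.sup_pResidual_sylow (P.subtype hPM)
    have hm2 : (⟨m, hm'.2⟩ : Subgroup.normalizer (Q : Set G)) ∈ K0 ⊔ ((P.subtype hPM : Sylow p _) : Subgroup _) := by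
      rw [h1]; trivial
    obtain ⟨k, hk, t, ht, e⟩ := Cfsg.Agent.Lib.Core.exists_mul_of_mem_sup_normal_left hm2
    rw [Sylow.coe_subtype] at ht
    have e' : m = (k : G) * (t : G) := congrArg Subtype.val e
    have hkK : (k : G) ∈ pResidualOf p (Subgroup.normalizer (Q : Set G)) := ⟨k, hk, rfl⟩
    have htX : (t : G) ∈ pResidual p G := by
      have e2 : (t : G) = (k : G)⁻¹ * m := by rw [e']; group
      rw [e2]
      exact mul_mem (inv_mem (hKX hkK)) hm'.1
    rw [e']
    exact mul_mem hkK (inf_le_residualOf P Q hQ hcom (Subgroup.mem_inf.mpr ⟨htX, ht⟩))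

/-- The normalizer of a Sylow subgroup of class less than `p` controls the `p`-residual. -/
theorem hall_wielandt_class (P : Sylow p G) (hcl : (P : Subgroup G).lowerCentralSeries (p - 1) = ⊥) :
    pResidualOf p (Subgroup.normalizer ((P : Subgroup G) : Set G)) =
      pResidual p G ⊓ Subgroup.normalizer ((P : Subgroup G) : Set G) := by
  have hcoe : ∀ (k : ℕ) (u : G), u ∈ (P : Subgroup G) → ∀ z ∈ (P : Subgroup G),
      (fun y : G => y⁻¹ * z⁻¹ * y * z)^[k] u ∈ (P : Subgroup G).lowerCentralSeries k := by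
    intro k u hu z hz
    induction k with
    | zero => exact hu
    | succ k ih =>
      rw [Function.iterate_succ_apply']
      have e : ∀ y : G, y⁻¹ * z⁻¹ * y * z = ⁅y⁻¹, z⁻¹⁆ := by
        intro y
        simp [commutatorElement_def]
      show _ * _ * _ * _ ∈ _
      rw [e]
      exact Subgroup.commutator_mem_commutator (inv_mem ih) (inv_mem hz)
  apply hall_wielandt P (P : Subgroup G)
  · refine ⟨le_rfl, fun g hg => ?_⟩
    apply Subgroup.eq_of_le_of_card_ge hg
    have h1 : Nat.card ((P : Subgroup G).map (MulAut.conj g).toMonoidHom) = Nat.card (P : Subgroup G) :=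
      Subgroup.card_map_of_injective (MulAut.conj g).injective
    rw [h1]
  · intro u hu z hz
    have h1 := hcoe (p - 1) u hu z hz
    rw [hcl] at h1
    exact (Subgroup.mem_bot).mp h1

end Concrete

end Cfsg.Agent.Lib.ClassSizes.HW
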