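import Mathlib

/-! Krull--Remak--Schmidt for finite groups. -/

set_option autoImplicit false

namespace Cfsg.Agent.Lib.ClassSizes.KRS

section basic

variable {G : Type*} [Group G]

/-- directly indecomposable and nontrivial -/
def Indec (G : Type*) [Group G] : Prop :=
  Nontrivial G ∧ ∀ H K : Subgroup G, H.Normal → K.Normal → H ⊓ K = ⊥ → H ⊔ K = ⊤ → H = ⊥ ∨ K = ⊥

/-- normal endomorphism -/
def NEnd (f : G →* G) : Prop := ∀ g x, f (g * x * g⁻¹) = g * f x * g⁻¹

/-- iterates as homomorphisms -/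
def iterHom (f : G →* G) : ℕ → (G →* G)
  | 0 => MonoidHom.id G
  | n + 1 => f.comp (iterHom f n)

theorem iterHom_apply (f : G →* G) (n : ℕ) (x : G) : iterHom f n x = f^[n] x := by
  induction n with
  | zero => rfl
  | succ n ih =>
    rw [Function.iterate_succ_apply']
    show f (iterHom f n x) = _
    rw [ih]

theorem nend_iter (f : G →* G) (hf : NEnd f) (n : ℕ) : NEnd (iterHom f n) := by
  induction n with
  | zero => intro g x; rfl
  | succ n ih =>
    intro g x
    show f (iterHom f n _) = g * f (iterHom f n x) * g⁻¹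
    rw [ih, hf]

theorem exists_idem [Finite G] (f : G →* G) :
    ∃ n : ℕ, 0 < n ∧ ∀ x, f^[n] (f^[n] x) = f^[n] x := by
  obtain ⟨i, j, hij, he⟩ := Finite.exists_ne_map_eq_of_infinite (fun n : ℕ => (f^[n] : G → G))
  wlog hlt : i < j generalizing i j
  · exact this j i hij.symm he.symm (by omega)
  obtain ⟨p, rfl⟩ : ∃ p, j = i + p := ⟨j - i, by omega⟩
  have hp : 0 < p := by omega
  have he' : ∀ x, f^[i + p] x = f^[i] x := fun x => (congrFun he x).symm
  have key : ∀ k m, i ≤ m → ∀ x, f^[m + k * p] x = f^[m] x := by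
    intro k
    induction k with
    | zero => intro m _ x; simp
    | succ k ih =>
      intro m hm x
      have h1 : m + (k + 1) * p = (m + k * p) + p := by ring
      rw [h1]
      obtain ⟨d, rfl⟩ : ∃ d, m = i + d := ⟨m - i, by omega⟩
      have h2 : i + d + k * p + p = (d + k * p) + (i + p) := by ring
      rw [h2, Function.iterate_add_apply, he', ← Function.iterate_add_apply]
      have h3 : d + k * p + i = i + d + k * p := by ring
      rw [h3, ih _ hm]
  refine ⟨(i + 1) * p, by positivity, fun x => ?_⟩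
  rw [← Function.iterate_add_apply]
  apply key
  nlinarith

theorem fitting [Finite G] (hG : Indec G) (f : G →* G) (hf : NEnd f) :
    Function.Injective f ∨ ∃ N : ℕ, ∀ x, f^[N] x = 1 := by
  obtain ⟨n, hn, hidem⟩ := exists_idem f
  set e := iterHom f n with he
  have hee : ∀ x, e (e x) = e x := by
    intro x
    rw [he, iterHom_apply, iterHom_apply, hidem]
  have hN : NEnd e := nend_iter f hf n
  have hr : e.range.Normal := by
    refine ⟨?_⟩
    rintro _ ⟨y, rfl⟩ g
    exact ⟨g * y * g⁻¹, hN g y⟩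
  have hinf : e.range ⊓ e.ker = ⊥ := by
    rw [eq_bot_iff]
    rintro x ⟨⟨y, rfl⟩, hx⟩
    have hx' : e (e y) = 1 := hx
    rw [hee] at hx'
    simpa using hx'
  have hsup : e.range ⊔ e.ker = ⊤ := by
    rw [eq_top_iff]
    intro x _
    have : x = e x * ((e x)⁻¹ * x) := by group
    rw [this]
    refine Subgroup.mul_mem_sup ⟨x, rfl⟩ ?_
    show e ((e x)⁻¹ * x) = 1
    rw [map_mul, map_inv, hee]
    simp
  rcases hG.2 _ _ hr (MonoidHom.normal_ker e) hinf hsup with h | h
  · right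
    refine ⟨n, fun x => ?_⟩
    rw [← iterHom_apply, ← he]
    have : e x ∈ e.range := ⟨x, rfl⟩
    rw [h] at this
    simpa using this
  · left
    have hi : Function.Injective e := (MonoidHom.ker_eq_bot_iff e).mp h
    intro a b hab
    apply hi
    obtain ⟨m, rfl⟩ : ∃ m, n = m + 1 := ⟨n - 1, by omega⟩
    rw [he, iterHom_apply, iterHom_apply, Function.iterate_succ_apply, Function.iterate_succ_apply,
      hab]

theorem inj_of_mul [Finite G] (hG : Indec G) (f g h : G →* G) (hf : NEnd f) (hh : NEnd h)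
    (hfgh : ∀ x, f x * g x = h x) (hhi : Function.Injective h) (hfi : ¬ Function.Injective f) :
    Function.Injective g := by
  have hhs : Function.Surjective h := Finite.injective_iff_surjective.mp hhi
  let E : G ≃* G := MulEquiv.ofBijective h ⟨hhi, hhs⟩
  have hEh : ∀ x, E x = h x := fun _ => rfl
  let k : G →* G := E.symm.toMonoidHom
  have hk1 : ∀ x, k (h x) = x := fun x => E.symm_apply_apply x
  have hk2 : ∀ x, h (k x) = x := fun x => E.apply_symm_apply x
  have hkn : NEnd k := by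
    intro a x
    apply hhi
    rw [hk2, hh, hk2]
  have hfk : NEnd (f.comp k) := by
    intro a x
    show f (k _) = a * f (k x) * a⁻¹
    rw [hkn, hf]
  have hni : ¬ Function.Injective (f.comp k) := by
    intro hc
    apply hfi
    intro a b hab
    have h1 : (f.comp k) (h a) = (f.comp k) (h b) := by
      show f (k (h a)) = f (k (h b))
      rw [hk1, hk1, hab]
    exact hhi (hc h1)
  rcases fitting hG _ hfk with h1 | ⟨N, hN⟩
  · exact absurd h1 hni
  · rw [injective_iff_map_eq_one]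
    intro x hx
    have hy : (f.comp k) (h x) = h x := by
      show f (k (h x)) = h x
      rw [hk1, ← hfgh, hx, mul_one]
    have hfix : Function.IsFixedPt (f.comp k) (h x) := hy
    have h2 := hN (h x)
    rw [(hfix.iterate N).eq] at h2
    exact hhi (by rw [h2, map_one])

end basic

section main

variable {ι κ : Type*} [DecidableEq ι] [DecidableEq κ] {A : ι → Type*} {B : κ → Type*}
  [∀ i, Group (A i)] [∀ j, Group (B j)]

/-- restriction to `J` -/
def rho (J : Finset κ) : (∀ j, B j) →* (∀ j, B j) where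
  toFun x j := if j ∈ J then x j else 1
  map_one' := by ext j; simp
  map_mul' x y := by
    ext j
    by_cases h : j ∈ J <;> simp [h]

omit [DecidableEq κ] in
theorem rho_apply (J : Finset κ) [DecidableEq κ] (x : ∀ j, B j) (j : κ) :
    rho J x j = if j ∈ J then x j else 1 := rfl

theorem rho_nend (J : Finset κ) : NEnd (rho (B := B) J) := by
  intro u x
  ext j
  by_cases h : j ∈ J <;> simp [rho_apply, h]

/-- the endomorphism `psi` -/
def psi (e : (∀ i, A i) ≃* (∀ j, B j)) (i₀ : ι) (J : Finset κ) : A i₀ →* A i₀ :=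
  (Pi.evalMonoidHom A i₀).comp (e.symm.toMonoidHom.comp ((rho J).comp
    (e.toMonoidHom.comp (MonoidHom.mulSingle A i₀))))

theorem psi_apply (e : (∀ i, A i) ≃* (∀ j, B j)) (i₀ : ι) (J : Finset κ) (x : A i₀) :
    psi e i₀ J x = e.symm (rho J (e (Pi.mulSingle i₀ x))) i₀ := rfl

theorem psi_nend (e : (∀ i, A i) ≃* (∀ j, B j)) (i₀ : ι) (J : Finset κ) : NEnd (psi e i₀ J) := by
  intro a x
  rw [psi_apply, psi_apply]
  have h1 : (Pi.mulSingle i₀ (a * x * a⁻¹) : ∀ i, A i)
      = Pi.mulSingle i₀ a * Pi.mulSingle i₀ x * (Pi.mulSingle i₀ a)⁻¹ := by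
    rw [Pi.mulSingle_mul, Pi.mulSingle_mul, Pi.mulSingle_inv]
  have h2 : e (Pi.mulSingle i₀ a * Pi.mulSingle i₀ x * (Pi.mulSingle i₀ a)⁻¹)
      = e (Pi.mulSingle i₀ a) * e (Pi.mulSingle i₀ x) * (e (Pi.mulSingle i₀ a))⁻¹ := by
    rw [map_mul, map_mul, map_inv]
  rw [h1, h2, rho_nend, map_mul, map_mul, map_inv, e.symm_apply_apply]
  simp

theorem psi_insert (e : (∀ i, A i) ≃* (∀ j, B j)) (i₀ : ι) (J : Finset κ) (j : κ) (hj : j ∉ J)
    (x : A i₀) : psi e i₀ J x * psi e i₀ {j} x = psi e i₀ (insert j J) x := by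
  rw [psi_apply, psi_apply, psi_apply, ← Pi.mul_apply, ← map_mul]
  have : rho J (e (Pi.mulSingle i₀ x)) * rho {j} (e (Pi.mulSingle i₀ x))
      = rho (insert j J) (e (Pi.mulSingle i₀ x)) := by
    ext c
    rw [Pi.mul_apply, rho_apply, rho_apply, rho_apply]
    by_cases h1 : c = j
    · subst h1
      simp [hj]
    · by_cases h2 : c ∈ J <;> simp [h1, h2]
  rw [this]

theorem psi_empty (e : (∀ i, A i) ≃* (∀ j, B j)) (i₀ : ι) (x : A i₀) :
    psi e i₀ ∅ x = 1 := by
  rw [psi_apply]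
  have : rho (B := B) ∅ (e (Pi.mulSingle i₀ x)) = 1 := by
    ext j; simp [rho_apply]
  rw [this, map_one]
  rfl

theorem psi_univ [Fintype κ] (e : (∀ i, A i) ≃* (∀ j, B j)) (i₀ : ι) (x : A i₀) :
    psi e i₀ Finset.univ x = x := by
  rw [psi_apply]
  have : rho (B := B) Finset.univ (e (Pi.mulSingle i₀ x)) = e (Pi.mulSingle i₀ x) := by
    ext j; simp [rho_apply]
  rw [this, e.symm_apply_apply]
  simp

theorem exists_inj [Fintype κ] {i₀ : ι} [Finite (A i₀)] (hA : Indec (A i₀))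
    (e : (∀ i, A i) ≃* (∀ j, B j)) : ∃ j₀, Function.Injective (psi e i₀ {j₀}) := by
  by_contra hc
  push Not at hc
  have key : ∀ J : Finset κ, ¬ Function.Injective (psi e i₀ J) := by
    intro J
    induction J using Finset.induction_on with
    | empty =>
      intro hi
      obtain ⟨a, b, hab⟩ := hA.1.exists_pair_ne
      exact hab (hi (by rw [psi_empty, psi_empty]))
    | insert j J hj ih =>
      intro hi
      exact hc j (inj_of_mul hA (psi e i₀ J) (psi e i₀ {j}) (psi e i₀ (insert j J))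
        (psi_nend _ _ _) (psi_nend _ _ _) (psi_insert e i₀ J j hj) hi ih)
  apply key Finset.univ
  intro a b hab
  rwa [psi_univ, psi_univ] at hab

/-- the map `s` -/
def sMap (e : (∀ i, A i) ≃* (∀ j, B j)) (i₀ : ι) (j₀ : κ) : A i₀ →* B j₀ :=
  (Pi.evalMonoidHom B j₀).comp (e.toMonoidHom.comp (MonoidHom.mulSingle A i₀))

/-- the map `r` -/
def rMap (e : (∀ i, A i) ≃* (∀ j, B j)) (i₀ : ι) (j₀ : κ) : B j₀ →* A i₀ :=
  (Pi.evalMonoidHom A i₀).comp (e.symm.toMonoidHom.comp (MonoidHom.mulSingle B j₀))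

theorem sMap_apply (e : (∀ i, A i) ≃* (∀ j, B j)) (i₀ : ι) (j₀ : κ) (a : A i₀) :
    sMap e i₀ j₀ a = e (Pi.mulSingle i₀ a) j₀ := rfl

theorem rMap_apply (e : (∀ i, A i) ≃* (∀ j, B j)) (i₀ : ι) (j₀ : κ) (b : B j₀) :
    rMap e i₀ j₀ b = e.symm (Pi.mulSingle j₀ b) i₀ := rfl

theorem rho_single (j₀ : κ) (x : ∀ j, B j) : rho {j₀} x = Pi.mulSingle j₀ (x j₀) := by
  ext c
  rw [rho_apply]
  by_cases h : c = j₀
  · subst h; simp
  · simp [h]

theorem r_s (e : (∀ i, A i) ≃* (∀ j, B j)) (i₀ : ι) (j₀ : κ) (a : A i₀) :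
    rMap e i₀ j₀ (sMap e i₀ j₀ a) = psi e i₀ {j₀} a := by
  rw [psi_apply, rho_single]
  rfl

theorem range_s_normal (e : (∀ i, A i) ≃* (∀ j, B j)) (i₀ : ι) (j₀ : κ) :
    (sMap e i₀ j₀).range.Normal := by
  refine ⟨?_⟩
  rintro _ ⟨y, rfl⟩ b
  set X := e.symm (Pi.mulSingle j₀ b) with hX
  have hb : b = e X j₀ := by
    rw [hX, e.apply_symm_apply]; simp
  refine ⟨X i₀ * y * (X i₀)⁻¹, ?_⟩
  rw [sMap_apply, sMap_apply, hb]
  have h1 : (Pi.mulSingle i₀ (X i₀ * y * (X i₀)⁻¹) : ∀ i, A i)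
      = X * Pi.mulSingle i₀ y * X⁻¹ := by
    ext c
    by_cases h : c = i₀
    · subst h; simp
    · simp [h]
  rw [h1, map_mul, map_mul, map_inv]
  simp

theorem exists_iso [Fintype κ] {i₀ : ι} [Finite (A i₀)] (hA : Indec (A i₀))
    (hB : ∀ j, Indec (B j)) (e : (∀ i, A i) ≃* (∀ j, B j)) :
    ∃ j₀, Function.Bijective (rMap e i₀ j₀) := by
  obtain ⟨j₀, hj⟩ := exists_inj hA e
  refine ⟨j₀, ?_⟩
  have hs : Function.Surjective (psi e i₀ {j₀}) := Finite.injective_iff_surjective.mp hj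
  have hsur : Function.Surjective (rMap e i₀ j₀) := by
    intro a
    obtain ⟨b, rfl⟩ := hs a
    exact ⟨_, r_s e i₀ j₀ b⟩
  refine ⟨?_, hsur⟩
  have hinf : (sMap e i₀ j₀).range ⊓ (rMap e i₀ j₀).ker = ⊥ := by
    rw [eq_bot_iff]
    rintro x ⟨⟨y, rfl⟩, hx⟩
    have hx' : rMap e i₀ j₀ (sMap e i₀ j₀ y) = 1 := hx
    rw [r_s] at hx'
    have : y = 1 := hj (by rw [hx', map_one])
    subst this
    simp
  have hsup : (sMap e i₀ j₀).range ⊔ (rMap e i₀ j₀).ker = ⊤ := by
    rw [eq_top_iff]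
    intro b _
    obtain ⟨a, ha⟩ := hs (rMap e i₀ j₀ b)
    have : b = sMap e i₀ j₀ a * ((sMap e i₀ j₀ a)⁻¹ * b) := by group
    rw [this]
    refine Subgroup.mul_mem_sup ⟨a, rfl⟩ ?_
    show rMap e i₀ j₀ _ = 1
    rw [map_mul, map_inv, r_s, ha]
    simp
  rcases (hB j₀).2 _ _ (range_s_normal e i₀ j₀) (MonoidHom.normal_ker _) hinf hsup with h | h
  · exfalso
    obtain ⟨a, b, hab⟩ := hA.1.exists_pair_ne
    apply hab
    apply hj
    have hone : ∀ y, sMap e i₀ j₀ y = 1 := by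
      intro y
      have : sMap e i₀ j₀ y ∈ (sMap e i₀ j₀).range := ⟨y, rfl⟩
      rw [h] at this
      simpa using this
    rw [← r_s, ← r_s, hone, hone]
  · exact (MonoidHom.ker_eq_bot_iff _).mp h

/-- extension by `1` at `i₀` -/
def extHom (i₀ : ι) : (∀ i : {i // i ≠ i₀}, A i) →* (∀ i, A i) where
  toFun x i := if h : i = i₀ then 1 else x ⟨i, h⟩
  map_one' := by
    ext i
    by_cases h : i = i₀ <;> simp [h]
  map_mul' x y := by
    ext i
    by_cases h : i = i₀ <;> simp [h]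

/-- restriction away from `j₀` -/
def resHom (j₀ : κ) : (∀ j, B j) →* (∀ j : {j // j ≠ j₀}, B j) where
  toFun x j := x j
  map_one' := rfl
  map_mul' _ _ := rfl

theorem extHom_self (i₀ : ι) (x : ∀ i : {i // i ≠ i₀}, A i) : extHom i₀ x i₀ = 1 := by
  exact dif_pos rfl

theorem extHom_ne (i₀ : ι) (x : ∀ i : {i // i ≠ i₀}, A i) (i : {i // i ≠ i₀}) :
    extHom i₀ x i = x i := by
  exact dif_neg i.2

theorem resHom_apply (j₀ : κ) (x : ∀ j, B j) (j : {j // j ≠ j₀}) : resHom j₀ x j = x j := rfl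

/-- the induced map `τ` -/
def tauHom (e : (∀ i, A i) ≃* (∀ j, B j)) (i₀ : ι) (j₀ : κ) :
    (∀ i : {i // i ≠ i₀}, A i) →* (∀ j : {j // j ≠ j₀}, B j) :=
  (resHom j₀).comp (e.toMonoidHom.comp (extHom i₀))

theorem tau_bij (e : (∀ i, A i) ≃* (∀ j, B j)) (i₀ : ι) (j₀ : κ)
    (hr : Function.Bijective (rMap e i₀ j₀)) : Function.Bijective (tauHom e i₀ j₀) := by
  constructor
  · rw [injective_iff_map_eq_one]
    intro x hx
    set y := e (extHom i₀ x) with hy
    have h1 : y = Pi.mulSingle j₀ (y j₀) := by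
      ext c
      by_cases h : c = j₀
      · subst h; simp
      · rw [Pi.mulSingle_eq_of_ne h]
        exact congrFun hx ⟨c, h⟩
    have h2 : rMap e i₀ j₀ (y j₀) = 1 := by
      rw [rMap_apply, ← h1, hy, e.symm_apply_apply, extHom_self]
    have h3 : y j₀ = 1 := hr.1 (by rw [h2, map_one])
    have h4 : y = 1 := by
      rw [h1, h3]; simp
    have h5 : extHom i₀ x = 1 := by
      have : e (extHom i₀ x) = e 1 := by rw [← hy, h4, map_one]
      exact e.injective this
    ext i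
    have h6 := extHom_ne i₀ x i
    rw [h5] at h6
    exact h6.symm
  · intro c
    set Y : ∀ j, B j := extHom j₀ c with hY
    set X := e.symm Y with hX
    obtain ⟨b, hb⟩ := hr.2 (X i₀)
    set Y' : ∀ j, B j := (Pi.mulSingle j₀ b)⁻¹ * Y with hY'
    have h1 : e.symm Y' i₀ = 1 := by
      rw [hY', map_mul, map_inv, Pi.mul_apply, Pi.inv_apply, ← hX, ← rMap_apply, hb]
      simp
    have h2 : extHom i₀ (resHom i₀ (e.symm Y')) = e.symm Y' := by
      ext i
      by_cases h : i = i₀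
      · subst h
        rw [extHom_self, h1]
      · exact extHom_ne i₀ _ ⟨i, h⟩
    refine ⟨resHom i₀ (e.symm Y'), ?_⟩
    ext j
    show e (extHom i₀ (resHom i₀ (e.symm Y'))) j = c j
    rw [h2, e.apply_symm_apply, hY', Pi.mul_apply, Pi.inv_apply,
      Pi.mulSingle_eq_of_ne j.2, inv_one, one_mul, hY, extHom_ne]

end main

section krs

universe w w' u v

theorem krs_aux (n : ℕ) : ∀ (ι : Type w) [Fintype ι] [DecidableEq ι]
    (κ : Type w') [Fintype κ] [DecidableEq κ] (A : ι → Type u) (B : κ → Type v)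
    [∀ i, Group (A i)] [∀ j, Group (B j)] [∀ i, Finite (A i)] [∀ j, Finite (B j)],
    (∀ i, Indec (A i)) → (∀ j, Indec (B j)) → ((∀ i, A i) ≃* (∀ j, B j)) →
    Fintype.card ι = n → ∃ σ : ι ≃ κ, ∀ i, Nonempty (A i ≃* B (σ i)) := by
  induction n with
  | zero =>
    intro ι _ _ κ _ _ A B _ _ _ _ hA hB e hn
    have hι : IsEmpty ι := Fintype.card_eq_zero_iff.mp hn
    have hκ : IsEmpty κ := by
      refine ⟨fun j => ?_⟩
      haveI := (hB j).1
      obtain ⟨a, ha⟩ := exists_ne (1 : B j)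
      apply ha
      have h1 : e.symm (Pi.mulSingle j a) = 1 := Subsingleton.elim _ _
      have h2 : (Pi.mulSingle j a : ∀ j, B j) = 1 := by
        have := congrArg e h1
        rwa [e.apply_symm_apply, map_one] at this
      have := congrFun h2 j
      simpa using this
    exact ⟨Equiv.equivOfIsEmpty _ _, fun i => (hι.false i).elim⟩
  | succ n ih =>
    intro ι _ _ κ _ _ A B _ _ _ _ hA hB e hn
    have hι : Nonempty ι := by
      apply Fintype.card_pos_iff.mp
      omega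
    obtain ⟨i₀⟩ := hι
    obtain ⟨j₀, hj₀⟩ := exists_iso (hA i₀) hB e
    have hc : Fintype.card {i // i ≠ i₀} = n := by
      rw [Fintype.card_subtype_compl]
      simp [hn]
    obtain ⟨σ', hσ'⟩ := ih {i // i ≠ i₀} {j // j ≠ j₀} (fun i => A i) (fun j => B j)
      (fun i => hA i) (fun j => hB j) (MulEquiv.ofBijective _ (tau_bij e i₀ j₀ hj₀)) hc
    obtain ⟨σ, hσ1, hσ2⟩ : ∃ σ : ι ≃ κ, σ i₀ = j₀ ∧ ∀ i : {i // i ≠ i₀}, σ i = σ' i := by
      refine ⟨(Equiv.optionSubtypeNe i₀).symm.trans (σ'.optionCongr.trans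
        (Equiv.optionSubtypeNe j₀)), ?_, fun i => ?_⟩
      · simp
      · simp only [Equiv.trans_apply, Equiv.optionSubtypeNe_symm_of_ne i.2]
        simp
    refine ⟨σ, fun i => ?_⟩
    by_cases h : i = i₀
    · subst h
      rw [hσ1]
      exact ⟨(MulEquiv.ofBijective _ hj₀).symm⟩
    · have h1 := hσ2 ⟨i, h⟩
      have h2 : σ i = σ' ⟨i, h⟩ := h1
      rw [h2]
      exact hσ' ⟨i, h⟩

theorem krs {ι : Type w} [Fintype ι] [DecidableEq ι]
    {κ : Type w'} [Fintype κ] [DecidableEq κ] {A : ι → Type u} {B : κ → Type v}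
    [∀ i, Group (A i)] [∀ j, Group (B j)] [∀ i, Finite (A i)] [∀ j, Finite (B j)]
    (hA : ∀ i, Indec (A i)) (hB : ∀ j, Indec (B j)) (e : (∀ i, A i) ≃* (∀ j, B j)) :
    ∃ σ : ι ≃ κ, ∀ i, Nonempty (A i ≃* B (σ i)) :=
  krs_aux _ ι κ A B hA hB e rfl

end krs

end Cfsg.Agent.Lib.ClassSizes.KRS
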