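import Mathlib
import Cfsg.Agent.Lib.ClassSizes.Basic
import Cfsg.Agent.Lib.Core.MinNormal
import Cfsg.Agent.Lib.Char.Burnside

/-!
# Groups all of whose maximal subgroups have index a prime or the square of a prime
-/

set_option autoImplicit false

namespace Cfsg.Agent.Lib.ClassSizes

open Subgroup

universe u

section

variable {N : Type*} [Group N] [Finite N]

/-- If `N_N(P) ≤ L`, `P` Sylow, then `[N : L] ≡ 1 mod p`. -/
theorem index_modEq_one_of_normalizer_le {p : ℕ} [hp : Fact p.Prime] (P : Sylow p N) (L : Subgroup N)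
    (hL : normalizer ((P : Subgroup N) : Set N) ≤ L) : L.index ≡ 1 [MOD p] := by
  have hPL : (P : Subgroup N) ≤ L := (Subgroup.le_normalizer).trans hL
  let PL : Sylow p L := P.subtype hPL
  have hmem : ∀ x : L, x ∈ (PL : Subgroup L) ↔ (x : N) ∈ (P : Subgroup N) := by
    intro x
    rw [Sylow.coe_subtype, Subgroup.mem_subgroupOf]
  have hnorm : normalizer ((PL : Subgroup L) : Set L) =
      (normalizer ((P : Subgroup N) : Set N)).subgroupOf L := by
    ext l
    rw [Subgroup.mem_subgroupOf, Subgroup.mem_normalizer_iff, Subgroup.mem_normalizer_iff]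
    constructor
    · intro h x
      by_cases hx : x ∈ L
      · have h1 := h ⟨x, hx⟩
        rw [hmem, hmem] at h1
        exact h1
      · constructor
        · exact fun hx' => absurd (hPL hx') hx
        · intro hx'
          exfalso
          apply hx
          have h2 := hPL hx'
          have h3 : x = (l : N)⁻¹ * ((l : N) * x * (l : N)⁻¹) * (l : N) := by group
          rw [h3]
          exact L.mul_mem (L.mul_mem (L.inv_mem l.2) h2) l.2
    · intro h x
      rw [hmem, hmem]
      exact h x
  have h1 : Nat.card (Sylow p N) = (normalizer ((P : Subgroup N) : Set N)).index :=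
    Sylow.card_eq_index_normalizer P
  have h2 : Nat.card (Sylow p L) = (normalizer ((P : Subgroup N) : Set N)).relIndex L := by
    rw [Sylow.card_eq_index_normalizer PL]
    exact congrArg Subgroup.index hnorm
  have h3 := Subgroup.relIndex_mul_index hL
  have h4 : Nat.card (Sylow p L) * L.index = Nat.card (Sylow p N) := by
    rw [h1, h2, h3]
  have h5 := card_sylow_modEq_one p N
  have h6 := card_sylow_modEq_one p L
  rw [← h4] at h5
  have h7 := (h6.mul_right L.index).symm.trans h5
  simpa using h7

end

theorem isCoatom_comap_of_surjective' {G H : Type*} [Group G] [Group H] {f : G →* H}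
    (hf : Function.Surjective f) {M : Subgroup H} (hM : IsCoatom M) : IsCoatom (M.comap f) := by
  constructor
  · intro h
    apply hM.1
    have h1 := Subgroup.map_comap_eq_self_of_surjective hf M
    rw [h, ← MonoidHom.range_eq_map, MonoidHom.range_eq_top.mpr hf] at h1
    exact h1.symm
  · intro K hK
    have hle : f.ker ≤ K := by
      intro x hx
      apply hK.le
      rw [Subgroup.mem_comap, MonoidHom.mem_ker.mp hx]
      exact M.one_mem
    have h1 : M < K.map f := by
      refine lt_of_le_of_ne ?_ ?_
      · intro y hy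
        obtain ⟨x, rfl⟩ := hf y
        exact ⟨x, hK.le hy, rfl⟩
      · intro h
        apply hK.ne
        apply le_antisymm hK.le
        intro x hx
        rw [Subgroup.mem_comap, h]
        exact ⟨x, hx, rfl⟩
    have h2 := hM.2 _ h1
    rw [eq_top_iff]
    intro x _
    have h3 : f x ∈ K.map f := by rw [h2]; trivial
    obtain ⟨y, hy, hyx⟩ := h3
    have h4 : y⁻¹ * x ∈ f.ker := by
      rw [MonoidHom.mem_ker, map_mul, map_inv, hyx, inv_mul_cancel]
    have h5 := K.mul_mem hy (hle h4)
    simpa using h5

/-- The main induction. -/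
theorem isSolvable_of_coatom_index :
    ∀ (n : ℕ) (G : Type u) [Group G] [Finite G], Nat.card G = n →
      (∀ M : Subgroup G, IsCoatom M → ∃ p : ℕ, p.Prime ∧ (M.index = p ∨ M.index = p ^ 2)) →
      Group.IsSolvable G := by
  intro n
  induction n using Nat.strong_induction_on with
  | _ n ih =>
  intro G _ _ hn hmax
  by_cases hG : Subsingleton G
  · infer_instance
  rw [not_subsingleton_iff_nontrivial] at hG
  -- a minimal normal subgroup
  obtain ⟨N, hNn, hNb, -, hNmin⟩ := Cfsg.Agent.Lib.Core.exists_minimal_normal_le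
    (inferInstance : (⊤ : Subgroup G).Normal) (top_ne_bot)
  haveI := hNn
  -- the quotient is solvable
  have hquot : Group.IsSolvable (G ⧸ N) := by
    refine ih _ ?_ (G ⧸ N) rfl ?_
    · rw [← hn]
      have h1 := Subgroup.card_eq_card_quotient_mul_card_subgroup N
      have h2 : 1 < Nat.card N := Subgroup.one_lt_card_iff_ne_bot N |>.mpr hNb
      have h3 : 0 < Nat.card (G ⧸ N) := Nat.card_pos
      rw [h1]
      nlinarith
    · intro M hM
      have hcomap : IsCoatom (M.comap (QuotientGroup.mk' N)) :=
        isCoatom_comap_of_surjective' (QuotientGroup.mk'_surjective N) hM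
      obtain ⟨p, hp, h⟩ := hmax _ hcomap
      rw [Subgroup.index_comap_of_surjective _ (QuotientGroup.mk'_surjective N)] at h
      exact ⟨p, hp, h⟩
  by_cases hNs : Group.IsSolvable N
  · exact Group.isSolvable_of_ker_le_range N.subtype (QuotientGroup.mk' N) (by simp)
  exfalso
  -- the largest prime of `N`
  have hcardN : 1 < Nat.card N := Subgroup.one_lt_card_iff_ne_bot N |>.mpr hNb
  have hne : (Nat.card N).primeFactors.Nonempty := Nat.nonempty_primeFactors.mpr hcardN
  set p := (Nat.card N).primeFactors.max' hne with hpdef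
  have hpmem : p ∈ (Nat.card N).primeFactors := Finset.max'_mem _ _
  have hpP : p.Prime := Nat.prime_of_mem_primeFactors hpmem
  have hpd : p ∣ Nat.card N := Nat.dvd_of_mem_primeFactors hpmem
  have hpmax : ∀ q : ℕ, q.Prime → q ∣ Nat.card N → q ≤ p := fun q hq hd =>
    Finset.le_max' _ _ (Nat.mem_primeFactors.mpr ⟨hq, hd, Nat.card_pos.ne'⟩)
  haveI : Fact p.Prime := ⟨hpP⟩
  obtain ⟨P⟩ : Nonempty (Sylow p N) := inferInstance
  set P' := (P : Subgroup N).map N.subtype with hP'
  have hfr := Sylow.normalizer_sup_eq_top P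
  have hne_top : normalizer (P' : Set G) ≠ ⊤ := by
    intro htop
    have hPn : P'.Normal := Subgroup.normalizer_eq_top_iff.mp htop
    have hle : P' ≤ N := Subgroup.map_subtype_le _
    rcases hNmin P' hPn hle with h | h
    · have h1 : (P : Subgroup N) = ⊥ := (Subgroup.map_eq_bot_iff_of_injective _ N.subtype_injective).mp h
      apply P.not_dvd_index
      rw [h1, Subgroup.index_bot]
      exact hpd
    · apply hNs
      have h1 : IsPGroup p P' := P.isPGroup'.map N.subtype
      rw [h] at h1
      have := h1.isNilpotent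
      infer_instance
  obtain ⟨M, hM, hNM⟩ : ∃ M : Subgroup G, IsCoatom M ∧ normalizer (P' : Set G) ≤ M :=
    (eq_top_or_exists_le_coatom _).resolve_left hne_top
  have hsup : M ⊔ N = ⊤ := by
    apply top_le_iff.mp
    calc (⊤ : Subgroup G) = normalizer (P' : Set G) ⊔ N := hfr.symm
      _ ≤ M ⊔ N := sup_le_sup_right hNM N
  let L : Subgroup N := M.subgroupOf N
  have hLidx : L.index = M.index := by
    have h1 := relIndex_eq_relIndex_sup M N
    rw [hsup, Subgroup.relIndex_top_right] at h1
    exact h1
  have hLnorm : normalizer ((P : Subgroup N) : Set N) ≤ L := by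
    intro x hx
    rw [Subgroup.mem_subgroupOf]
    apply hNM
    rw [Subgroup.mem_normalizer_iff] at hx ⊢
    intro h
    constructor
    · rintro ⟨u, hu, rfl⟩
      exact ⟨x * u * x⁻¹, (hx u).mp hu, rfl⟩
    · rintro ⟨u, hu, hu'⟩
      refine ⟨x⁻¹ * u * x, ?_, ?_⟩
      · have h1 := (hx (x⁻¹ * u * x)).mpr
        apply h1
        have h2 : x * (x⁻¹ * u * x) * x⁻¹ = u := by group
        rw [h2]
        exact hu
      · have h3 : ((u : N) : G) = (x : G) * h * (x : G)⁻¹ := hu'
        change ((x⁻¹ * u * x : N) : G) = h
        rw [Subgroup.coe_mul, Subgroup.coe_mul, Subgroup.coe_inv, h3]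
        group
  have hmod := index_modEq_one_of_normalizer_le P L hLnorm
  rw [hLidx] at hmod
  obtain ⟨q, hq, hidx⟩ := hmax M hM
  have hM1 : M.index ≠ 1 := fun h => hM.1 (Subgroup.index_eq_one.mp h)
  have hdvd : M.index ∣ Nat.card N := by
    rw [← hLidx]
    exact Subgroup.index_dvd_card L
  have hqd : q ∣ M.index := by
    rcases hidx with h | h
    · rw [h]
    · rw [h]
      exact dvd_pow_self q two_ne_zero
  have hqp : q ≤ p := hpmax q hq (hqd.trans hdvd)
  have hqnep : q ≠ p := by
    intro h
    rw [h] at hqd
    have h1 := (Nat.modEq_zero_iff_dvd.mpr hqd).symm.trans hmod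
    have h2 : p ∣ 1 := (Nat.modEq_zero_iff_dvd).mp h1.symm
    exact hpP.one_lt.ne' (Nat.dvd_one.mp h2)
  have hqlt : q < p := lt_of_le_of_ne hqp hqnep
  -- faithfulness
  have hfaith : Nat.card N ∣ (M.index).factorial := by
    classical
    let φ : N →* Equiv.Perm (G ⧸ M) := (MulAction.toPermHom G (G ⧸ M)).comp N.subtype
    have hinj : Function.Injective φ := by
      rw [injective_iff_map_eq_one]
      intro x hx
      have h1 : (x : G) ∈ M.normalCore := by
        rw [Subgroup.normalCore_eq_ker]
        exact hx
      have h2 : M.normalCore ⊓ N = ⊥ := by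
        rcases hNmin (M.normalCore ⊓ N) inferInstance inf_le_right with h | h
        · exact h
        · exfalso
          have h3 : N ≤ M := by
            rw [← h]
            exact inf_le_left.trans (Subgroup.normalCore_le M)
          rw [sup_eq_left.mpr h3] at hsup
          exact hM.1 hsup
      have h3 : (x : G) ∈ M.normalCore ⊓ N := ⟨h1, x.2⟩
      rw [h2, Subgroup.mem_bot] at h3
      exact Subtype.ext h3
    have h1 := Subgroup.card_dvd_of_injective φ hinj
    have : Fintype (G ⧸ M) := Fintype.ofFinite _
    rw [Nat.card_eq_fintype_card (α := Equiv.Perm (G ⧸ M)), Fintype.card_perm] at h1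
    have h2 : M.index = Fintype.card (G ⧸ M) := Nat.card_eq_fintype_card
    rw [h2]
    exact h1
  rcases hidx with h | h
  · -- index `q`
    have h1 := hpd.trans hfaith
    rw [h, hpP.dvd_factorial] at h1
    omega
  · -- index `q²`
    rw [h] at hmod hfaith
    have h1 : p ∣ q ^ 2 - 1 := (Nat.modEq_iff_dvd' (Nat.one_le_pow _ _ hq.pos)).mp hmod.symm
    have h2 : q ^ 2 - 1 = (q - 1) * (q + 1) := by
      obtain ⟨r, rfl⟩ : ∃ r, q = r + 1 := ⟨q - 1, by have := hq.pos; omega⟩
      simp only [Nat.add_sub_cancel]
      have : (r + 1) ^ 2 = r * (r + 1 + 1) + 1 := by ring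
      rw [this]
      simp
    rw [h2] at h1
    rcases (Nat.Prime.dvd_mul hpP).mp h1 with h3 | h3
    · have h4 := Nat.le_of_dvd (by have := hq.two_le; omega) h3
      omega
    · have h4 := Nat.le_of_dvd (by omega) h3
      have h5 : p = q + 1 := by omega
      have h6 : q = 2 := by
        rcases hq.eq_two_or_odd with h7 | h7
        · exact h7
        · exfalso
          have h8 : p % 2 = 0 := by omega
          have h9 := hpP.eq_two_or_odd
          have := hq.two_le
          omega
      subst h6
      apply hNs
      have h10 : Nat.card N ∣ 24 := by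
        have : (2 ^ 2).factorial = 24 := by decide
        rw [← this]
        exact hfaith
      have h12 : (24 : ℕ) = 2 ^ 3 * 3 ^ 1 := by norm_num
      rw [h12, Nat.dvd_mul] at h10
      obtain ⟨y, z, hy, hz, hyz⟩ := h10
      obtain ⟨a, -, rfl⟩ := (Nat.dvd_prime_pow Nat.prime_two).mp hy
      obtain ⟨b, -, rfl⟩ := (Nat.dvd_prime_pow Nat.prime_three).mp hz
      exact Cfsg.Agent.Lib.Char.isSolvable_of_card 2 3 a b Nat.prime_two Nat.prime_three hyz.symm

end Cfsg.Agent.Lib.ClassSizes
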