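import Mathlib
import Cfsg.Agent.Lib.Amalgam.Zsig

/-! The primitive part of `q ^ e - 1`. -/

set_option autoImplicit false

namespace Cfsg.Agent.Lib.ClassSizes.PrimPart

open Polynomial Cfsg.Agent.Lib.Amalgam.Zsig

/-- The weight in the totient bound. -/
def wt (n : ℕ) : ℕ := if 2 ∣ n ∧ ¬ 4 ∣ n then 2 else 1

theorem wt_le (n : ℕ) : wt n ≤ 2 := by
  unfold wt
  split_ifs <;> omega

theorem wt_mul {a b : ℕ} (h : Nat.Coprime a b) : wt (a * b) = wt a * wt b := by
  unfold wt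
  by_cases ha : 2 ∣ a
  · have hb : ¬ 2 ∣ b := fun hb => by
      have := Nat.dvd_gcd ha hb
      rw [h] at this
      omega
    have h4b : Nat.Coprime 4 b := by
      have : Nat.Coprime 2 b := (Nat.Prime.coprime_iff_not_dvd Nat.prime_two).mpr hb
      exact Nat.Coprime.pow_left 2 this
    have h2 : 4 ∣ a * b ↔ 4 ∣ a := h4b.dvd_mul_right
    have h3 : 2 ∣ a * b := Dvd.dvd.mul_right ha b
    have h5 : ¬ (2 ∣ b ∧ ¬ 4 ∣ b) := fun h => hb h.1
    simp only [h3, ha, h2, h5, true_and, if_false, mul_one]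
  · have h6 : ¬ (2 ∣ a ∧ ¬ 4 ∣ a) := fun h => ha h.1
    have h4a : Nat.Coprime 4 a := by
      have : Nat.Coprime 2 a := (Nat.Prime.coprime_iff_not_dvd Nat.prime_two).mpr ha
      exact Nat.Coprime.pow_left 2 this
    have h2 : 4 ∣ a * b ↔ 4 ∣ b := h4a.dvd_mul_left
    have h3 : 2 ∣ a * b ↔ 2 ∣ b := by
      have : Nat.Coprime 2 a := (Nat.Prime.coprime_iff_not_dvd Nat.prime_two).mpr ha
      exact this.dvd_mul_left
    simp only [h3, h2, h6, if_false, one_mul]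

/-- `n ≤ φ(n)² w(n)`. -/
theorem le_totient_sq (n : ℕ) : n ≤ n.totient ^ 2 * wt n := by
  induction n using Nat.recOnPosPrimePosCoprime with
  | prime_pow p k hp hk =>
    rw [Nat.totient_prime_pow hp hk]
    obtain ⟨j, rfl⟩ : ∃ j, k = j + 1 := ⟨k - 1, by omega⟩
    simp only [Nat.add_sub_cancel]
    have hw : 1 ≤ wt (p ^ (j + 1)) := by
      unfold wt
      split_ifs <;> omega
    have hp2 := hp.two_le
    rcases Nat.eq_zero_or_pos j with rfl | hj
    · rcases Nat.lt_or_ge p 3 with h | h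
      · have : p = 2 := by omega
        subst this
        simp [wt]
      · simp only [pow_zero, one_mul, zero_add]
        rw [pow_one]
        have h1 : p ≤ (p - 1) ^ 2 := by
          obtain ⟨t, rfl⟩ : ∃ t, p = t + 3 := ⟨p - 3, by omega⟩
          have : t + 3 - 1 = t + 2 := by omega
          rw [this]
          nlinarith
        have hw' : 0 < wt p := by
          have h3 := hw
          simp only [zero_add, pow_one] at h3
          omega
        calc p ≤ (p - 1) ^ 2 := h1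
          _ ≤ (p - 1) ^ 2 * wt p := Nat.le_mul_of_pos_right _ hw'
    · have h1 : p ^ (j + 1) ≤ (p ^ j * (p - 1)) ^ 2 := by
        have h3 : 1 ≤ (p - 1) ^ 2 := Nat.one_le_pow _ _ (by omega)
        have h4 : p ^ (j + 1) ≤ p ^ (2 * j) := Nat.pow_le_pow_right (by omega) (by omega)
        calc p ^ (j + 1) ≤ p ^ (2 * j) := h4
          _ = p ^ (2 * j) * 1 := (mul_one _).symm
          _ ≤ p ^ (2 * j) * (p - 1) ^ 2 := Nat.mul_le_mul_left _ h3
          _ = (p ^ j * (p - 1)) ^ 2 := by ring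
      calc p ^ (j + 1) ≤ (p ^ j * (p - 1)) ^ 2 := h1
        _ ≤ (p ^ j * (p - 1)) ^ 2 * wt (p ^ (j + 1)) := Nat.le_mul_of_pos_right _ hw
  | zero => simp
  | one => simp [wt]
  | coprime a b _ _ hab iha ihb =>
    rw [Nat.totient_mul hab, wt_mul hab]
    calc a * b ≤ (a.totient ^ 2 * wt a) * (b.totient ^ 2 * wt b) := Nat.mul_le_mul iha ihb
      _ = (a.totient * b.totient) ^ 2 * (wt a * wt b) := by ring

/-- A growth bound. -/
theorem sq_lt_two_pow (k : ℕ) (hk : 13 ≤ k) : (4 * k + 7) ^ 2 < 2 ^ (k - 1) := by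
  induction k, hk using Nat.le_induction with
  | base => norm_num
  | succ n hn ih =>
    obtain ⟨t, rfl⟩ : ∃ t, n = t + 1 := ⟨n - 1, by omega⟩
    simp only [Nat.add_sub_cancel] at ih ⊢
    have ht : 12 ≤ t := by omega
    have e1 : 4 * (t + 1 + 1) + 7 = (4 * (t + 1) + 7) + 4 := by ring
    rw [e1]
    have hx : 59 ≤ 4 * (t + 1) + 7 := by omega
    generalize 4 * (t + 1) + 7 = x at ih hx
    have h1 : (x + 4) ^ 2 ≤ x ^ 2 * 2 := by nlinarith
    have h2 : 2 ^ (t + 1) = 2 ^ t * 2 := pow_succ 2 t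
    rw [h2]
    linarith

/-- The totient is large for large arguments. -/
theorem large_bound (e : ℕ) (he : 8192 ≤ e) : 9 * e ^ 4 < 2 ^ e.totient := by
  set k := Nat.log 2 e with hk
  have hk1 : 2 ^ k ≤ e := Nat.pow_log_le_self 2 (by omega)
  have hk2 : e < 2 ^ (k + 1) := Nat.lt_pow_succ_log_self (by norm_num) e
  have hk13 : 13 ≤ k := by
    rw [hk]
    exact (Nat.le_log_iff_pow_le (by norm_num) (by omega)).mpr (by norm_num; omega)
  have h1 := le_totient_sq e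
  have h2 := wt_le e
  have h3 : e ≤ e.totient ^ 2 * 2 := h1.trans (Nat.mul_le_mul_left _ h2)
  have h4 := sq_lt_two_pow k hk13
  have h5 : 2 ^ k = 2 ^ (k - 1) * 2 := by
    rw [← pow_succ]
    congr 1
    omega
  have h6 : 4 * k + 8 ≤ e.totient := by
    by_contra hcon
    have h7 : e.totient ≤ 4 * k + 7 := by omega
    have h8 : e.totient ^ 2 ≤ (4 * k + 7) ^ 2 := Nat.pow_le_pow_left h7 2
    omega
  have h7 : e ^ 4 < (2 ^ (k + 1)) ^ 4 := Nat.pow_lt_pow_left hk2 (by norm_num)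
  have h8 : 9 * e ^ 4 < 16 * (2 ^ (k + 1)) ^ 4 := by omega
  have h9 : 16 * (2 ^ (k + 1)) ^ 4 = 2 ^ (4 * k + 8) := by
    rw [← pow_mul, show (16 : ℕ) = 2 ^ 4 by norm_num, ← pow_add]
    congr 1
    ring
  rw [h9] at h8
  exact h8.trans_le (Nat.pow_le_pow_right (by norm_num) h6)

/-- Counting integers coprime to `e`. -/
noncomputable def cnt (e : ℕ) (k : ℕ) : ℕ :=
  Nat.rec 0 (fun k ih => Nat.add ih (Nat.sub 1 (Nat.sub (Nat.gcd e k) 1))) k

theorem cnt_succ (e k : ℕ) : cnt e (k + 1) = cnt e k + (1 - (Nat.gcd e k - 1)) := rfl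

theorem cnt_zero (e : ℕ) : cnt e 0 = 0 := rfl

theorem cnt_eq {e : ℕ} (he : 0 < e) (w : ℕ) : cnt e w = ((Finset.range w).filter e.Coprime).card := by
  induction w with
  | zero => simp [cnt_zero]
  | succ k ih =>
    rw [Finset.range_add_one, Finset.filter_insert, cnt_succ, ih]
    have hg : 0 < Nat.gcd e k := Nat.gcd_pos_of_pos_left _ he
    by_cases h : Nat.Coprime e k
    · have h' : Nat.gcd e k = 1 := h
      rw [h', if_pos h, Finset.card_insert_of_notMem (by simp)]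
    · have h' : ¬ Nat.gcd e k = 1 := h
      have h2 : 1 - (Nat.gcd e k - 1) = 0 := by omega
      rw [h2, if_neg h, add_zero]

theorem cnt_self {e : ℕ} (he : 0 < e) : cnt e e = e.totient := by
  rw [cnt_eq he, Nat.totient_eq_card_coprime]

theorem cnt_le {e : ℕ} (he : 0 < e) (w : ℕ) (h : w ≤ e) : cnt e w ≤ e.totient := by
  rw [cnt_eq he, Nat.totient_eq_card_coprime]
  apply Finset.card_le_card
  intro x hx
  simp only [Finset.mem_filter, Finset.mem_range] at hx ⊢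
  exact ⟨by omega, hx.2⟩

/-- The test over the medium range. -/
noncomputable def testE (e : ℕ) : Bool :=
  Nat.ble (9 * e ^ 4 + 1) (2 ^ cnt e (min e 300))

noncomputable def chkFrom (n : ℕ) : Bool :=
  Nat.rec true (fun e ih => cond (testE (e + 91)) ih false) n

theorem chkFrom_succ (n : ℕ) : chkFrom (n + 1) = cond (testE (n + 91)) (chkFrom n) false := rfl

theorem chkFrom_spec : ∀ n, chkFrom n = true → ∀ e < n, testE (e + 91) = true := by
  intro n
  induction n with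
  | zero => intro _ e he; omega
  | succ n ih =>
    intro h e he
    rw [chkFrom_succ] at h
    cases h1 : testE (n + 91) with
    | false =>
      rw [h1] at h
      simp at h
    | true =>
      rw [h1] at h
      rcases Nat.lt_succ_iff_lt_or_eq.mp he with h2 | rfl
      · exact ih h e h2
      · exact h1

theorem chk_all : chkFrom 8101 = true := by decide +kernel

theorem medium_bound (e : ℕ) (he91 : 91 ≤ e) (he : e < 8192) : 9 * e ^ 4 < 2 ^ e.totient := by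
  obtain ⟨t, rfl⟩ : ∃ t, e = t + 91 := ⟨e - 91, by omega⟩
  have h1 := chkFrom_spec 8101 chk_all t (by omega)
  have h2 : 9 * (t + 91) ^ 4 + 1 ≤ 2 ^ cnt (t + 91) (min (t + 91) 300) := Nat.le_of_ble_eq_true h1
  have h3 := cnt_le (e := t + 91) (by omega) (min (t + 91) 300) (min_le_left _ _)
  exact lt_of_lt_of_le (by omega) (h2.trans (Nat.pow_le_pow_right (by norm_num) h3))

/-- The exceptional small degrees. -/
def E0 : List ℕ := [3, 4, 5, 6, 7, 8, 9, 10, 11, 12, 13, 14, 15, 16, 17, 18, 19, 20, 21, 22, 24, 25, 26, 27, 28, 30, 32, 33, 34, 36, 38, 39, 40, 42, 44, 45, 46, 48, 50, 52, 54, 56, 60, 66, 70, 72, 78, 84, 90]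

/-- The small degrees outside of `E0`. -/
theorem small_bound (e : ℕ) (he3 : 3 ≤ e) (he : e < 91) (hE : e ∉ E0) : 9 * e ^ 4 < 2 ^ e.totient := by
  rw [← cnt_self (by omega)]
  have key : ∀ e < 91, 3 ≤ e → e ∉ E0 → 9 * e ^ 4 < 2 ^ cnt e e := by decide +kernel
  exact key e he he3 hE

theorem bound_of_not_mem (e : ℕ) (he3 : 3 ≤ e) (hE : e ∉ E0) : 9 * e ^ 4 < 2 ^ e.totient := by
  rcases Nat.lt_or_ge e 91 with h | h
  · exact small_bound e he3 h hE
  · rcases Nat.lt_or_ge e 8192 with h' | h'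
    · exact medium_bound e h h'
    · exact large_bound e h'

/-- The exceptions. -/
def exc : List (ℕ × ℕ) :=
  [(2, 6), (2, 4), (2, 10), (2, 12), (2, 18), (3, 4), (3, 6), (5, 6), (2, 3), (2, 8), (2, 20), (4, 3), (4, 6)]

/-- The witnesses for small pairs. -/
def T : List (ℕ × ℕ × ℕ) := [(3, 3, 13), (5, 3, 31), (6, 3, 43), (4, 4, 17), (5, 4, 13), (6, 4, 37), (7, 4, 25), (2, 5, 31), (3, 5, 121), (6, 6, 31), (7, 6, 43), (8, 6, 19), (9, 6, 73), (10, 6, 91), (11, 6, 37), (2, 7, 127), (3, 7, 1093), (3, 8, 41), (4, 8, 257), (2, 9, 73), (3, 9, 757), (3, 10, 61), (4, 10, 41), (5, 10, 521), (2, 11, 2047), (3, 12, 73), (4, 12, 241), (5, 12, 601), (2, 13, 8191), (2, 14, 43), (3, 14, 547), (2, 15, 151), (3, 15, 4561), (2, 16, 257), (3, 16, 3281), (2, 17, 131071), (3, 18, 703), (4, 18, 4033), (2, 19, 524287), (3, 20, 1181), (2, 21, 337), (2, 22, 683), (3, 22, 44287), (2, 24, 241), (3, 24, 6481), (2, 25, 1082401), (2, 26, 2731), (2,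 27, 262657), (2, 28, 3277), (2, 30, 331), (3, 30, 8401), (2, 32, 65537), (2, 33, 599479), (2, 34, 43691), (2, 36, 4033), (2, 38, 174763), (2, 39, 9588151), (2, 40, 61681), (2, 42, 5419), (3, 42, 97567), (2, 44, 838861), (2, 45, 14709241), (2, 46, 2796203), (2, 48, 65281), (2, 50, 1016801), (2, 52, 13421773), (2, 54, 87211), (2, 56, 15790321), (2, 60, 80581), (2, 66, 1397419), (2, 70, 24214051), (2, 72, 16773121), (2, 78, 22366891), (2, 84, 20647621), (2, 90, 18837001)]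

/-- A witness is good. -/
noncomputable def goodB (a e m : ℕ) : Bool :=
  Nat.beq ((a ^ e - 1) % m) 0 && Nat.ble (3 * e + 1) m &&
    (List.range e).all fun i => Nat.beq i 0 || Nat.beq (Nat.gcd m (a ^ i - 1)) 1

theorem goodB_spec {a e m : ℕ} (h : goodB a e m = true) :
    m ∣ a ^ e - 1 ∧ (∀ i : ℕ, 1 ≤ i → i < e → Nat.Coprime m (a ^ i - 1)) ∧ 3 * e + 1 ≤ m := by
  simp only [goodB, Bool.and_eq_true, List.all_eq_true, List.mem_range, Bool.or_eq_true] at h
  obtain ⟨⟨h1, h2⟩, h3⟩ := h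
  refine ⟨Nat.dvd_of_mod_eq_zero (Nat.eq_of_beq_eq_true h1), ?_, Nat.le_of_ble_eq_true h2⟩
  intro i hi hie
  rcases h3 i hie with h4 | h4
  · have := Nat.eq_of_beq_eq_true h4
    omega
  · exact Nat.eq_of_beq_eq_true h4

/-- The table covers the small pairs. -/
theorem table_covers : ∀ e ∈ E0, ∀ a < 12, 2 ≤ a → (a - 1) ^ cnt e e < 3 * e ^ 2 → (a, e) ∉ exc →
    ∃ t ∈ T, t.1 = a ∧ t.2.1 = e ∧ goodB a e t.2.2 = true := by
  decide +kernel

theorem eleven_pow : ∀ e ∈ E0, 3 * e ^ 2 ≤ 11 ^ cnt e e := by decide +kernel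

theorem e0_pos : ∀ e ∈ E0, 3 ≤ e := by decide +kernel

/-- The cyclotomic value at `2`. -/
theorem cyc_two_of_dvd {n r : ℕ} (hr : r.Prime) (hn : 2 ≤ n) (hd : r ∣ n) :
    (2 : ℤ) ^ (n * r).totient ≤ cyc (n * r) 2 ^ 2 := by
  rw [cyc_expand_of_dvd hr hd]
  have hr2 := hr.two_le
  have h2r : (4 : ℤ) ≤ 2 ^ r := by
    calc (4 : ℤ) = 2 ^ 2 := by norm_num
      _ ≤ 2 ^ r := pow_le_pow_right₀ (by norm_num) hr2
  have h1 := lt_cyc (n := n) hn (a := (2 : ℤ) ^ r) (by omega)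
  have htot : (n * r).totient = r * n.totient := by
    rw [mul_comm n r]
    exact Nat.totient_mul_of_prime_of_dvd hr hd
  rw [htot, pow_mul]
  have h3 : (2 : ℤ) ^ r ≤ ((2 : ℤ) ^ r - 1) ^ 2 := by nlinarith
  have h4 : ((2 : ℤ) ^ r) ^ n.totient ≤ (((2 : ℤ) ^ r - 1) ^ 2) ^ n.totient :=
    pow_le_pow_left₀ (by positivity) h3 _
  refine h4.trans ?_
  rw [← pow_mul, mul_comm 2, pow_mul]
  have h5 : (0 : ℤ) ≤ ((2 : ℤ) ^ r - 1) ^ n.totient := by
    apply pow_nonneg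
    omega
  exact pow_le_pow_left₀ h5 h1.le 2

theorem cyc_two_of_not_dvd {n r : ℕ} (hr : r.Prime) (hr3 : 3 ≤ r) (hn : 2 ≤ n) (hd : ¬ r ∣ n) :
    (2 : ℤ) ^ (n * r).totient ≤ cyc (n * r) 2 ^ 2 := by
  have e1 := cyc_expand_of_not_dvd hr hd 2
  have hco : Nat.Coprime n r := ((Nat.Prime.coprime_iff_not_dvd hr).mpr hd).symm
  have htot : (n * r).totient = n.totient * (r - 1) := by
    rw [Nat.totient_mul hco, Nat.totient_prime hr]
  set t := n.totient with ht
  have h2r : (8 : ℤ) ≤ 2 ^ r := by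
    calc (8 : ℤ) = 2 ^ 3 := by norm_num
      _ ≤ 2 ^ r := pow_le_pow_right₀ (by norm_num) hr3
  have h1 : ((2 : ℤ) ^ r - 1) ^ t < cyc n (2 ^ r) := lt_cyc (n := n) hn (a := (2 : ℤ) ^ r) (by omega)
  have hn2 : cyc n 2 ≤ 3 ^ t := by
    rcases Nat.lt_or_ge n 3 with h | h
    · have : n = 2 := by omega
      subst this
      simp [cyc, cyclotomic_two, ht]
    · exact (cyc_lt h (a := 2) (by norm_num)).le
  have hpos1 : 0 < cyc n 2 := cyc_pos (by norm_num)
  have hposA := cyc_pos (n := n * r) (a := 2) (by norm_num)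
  have h3 : ((2 : ℤ) ^ r - 1) ^ t < cyc (n * r) 2 * 3 ^ t := by
    refine h1.trans_le ?_
    rw [← e1]
    exact mul_le_mul_of_nonneg_left hn2 hposA.le
  have hkey : (9 : ℤ) * 2 ^ (r - 1) ≤ ((2 : ℤ) ^ r - 1) ^ 2 := by
    obtain ⟨s, rfl⟩ : ∃ s, r = s + 1 := ⟨r - 1, by have := hr.pos; omega⟩
    simp only [Nat.add_sub_cancel]
    have h4 : (4 : ℤ) ≤ 2 ^ s := by
      calc (4 : ℤ) = 2 ^ 2 := by norm_num
        _ ≤ 2 ^ s := pow_le_pow_right₀ (by norm_num) (by omega)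
    have e5 : (2 : ℤ) ^ (s + 1) = 2 ^ s * 2 := pow_succ 2 s
    rw [e5]
    generalize (2 : ℤ) ^ s = y at h4
    have h5 : 0 ≤ (y - 4) * (4 * y + 3) := mul_nonneg (by omega) (by omega)
    nlinarith
  rw [htot, pow_mul]
  have h4 : ((2 : ℤ) ^ t) ^ (r - 1) = ((2 : ℤ) ^ (r - 1)) ^ t := by
    rw [← pow_mul, ← pow_mul, mul_comm]
  rw [h4]
  have h5 : (9 : ℤ) ^ t * ((2 : ℤ) ^ (r - 1)) ^ t ≤ (((2 : ℤ) ^ r - 1) ^ 2) ^ t := by
    rw [← mul_pow]
    exact pow_le_pow_left₀ (by positivity) hkey _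
  have h6 : (((2 : ℤ) ^ r - 1) ^ 2) ^ t ≤ (cyc (n * r) 2 * 3 ^ t) ^ 2 := by
    rw [← pow_mul, mul_comm 2, pow_mul]
    have h7 : (0 : ℤ) ≤ ((2 : ℤ) ^ r - 1) ^ t := by
      apply pow_nonneg
      omega
    exact pow_le_pow_left₀ h7 h3.le 2
  have h8 : (cyc (n * r) 2 * 3 ^ t) ^ 2 = cyc (n * r) 2 ^ 2 * (9 : ℤ) ^ t := by
    rw [mul_pow, ← pow_mul, mul_comm t 2, pow_mul]
    norm_num
  rw [h8] at h6
  have h9 : (0 : ℤ) < 9 ^ t := by positivity
  have h10 : (9 : ℤ) ^ t * ((2 : ℤ) ^ (r - 1)) ^ t ≤ (9 : ℤ) ^ t * cyc (n * r) 2 ^ 2 := by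
    rw [mul_comm ((9 : ℤ) ^ t) (cyc (n * r) 2 ^ 2)]
    exact h5.trans h6
  exact le_of_mul_le_mul_left h10 h9

/-- The value `Φ_r(2)`. -/
theorem cyc_prime_two {r : ℕ} (hr : r.Prime) : (2 : ℤ) ^ r.totient ≤ cyc r 2 ^ 2 := by
  haveI := Fact.mk hr
  have e1 : cyc r 2 = ∑ i ∈ Finset.range r, (2 : ℤ) ^ i := by
    simp [cyc, cyclotomic_prime, eval_finset_sum]
  have h1 : (2 : ℤ) ^ (r - 1) ≤ cyc r 2 := by
    rw [e1]
    exact Finset.single_le_sum (f := fun i => (2 : ℤ) ^ i) (fun i _ => by positivity)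
      (Finset.mem_range.mpr (by have := hr.pos; omega))
  rw [Nat.totient_prime hr]
  have h2 : (1 : ℤ) ≤ 2 ^ (r - 1) := one_le_pow₀ (by norm_num)
  nlinarith

theorem cyc_two_bound : ∀ e : ℕ, 2 ≤ e → (2 : ℤ) ^ e.totient ≤ cyc e 2 ^ 2 := by
  intro e he
  by_cases hodd : ∃ r : ℕ, r.Prime ∧ 3 ≤ r ∧ r ∣ e
  · obtain ⟨r, hr, hr3, n, rfl⟩ := hodd
    rw [mul_comm r n]
    have hn0 : 0 < n := by
      rcases Nat.eq_zero_or_pos n with h | h
      · rw [h] at he
        omega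
      · exact h
    rcases Nat.lt_or_ge n 2 with h | hn
    · have : n = 1 := by omega
      subst this
      rw [one_mul]
      exact cyc_prime_two hr
    · by_cases hd : r ∣ n
      · exact cyc_two_of_dvd hr hn hd
      · exact cyc_two_of_not_dvd hr hr3 hn hd
  · push Not at hodd
    -- `e` is a power of two
    obtain ⟨k, rfl⟩ : ∃ k, e = 2 ^ k := by
      refine ⟨_, Nat.eq_prime_pow_of_unique_prime_dvd (by omega) fun {s} hs hse => ?_⟩
      by_contra hne
      have := hs.two_le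
      exact hodd s hs (by omega) hse
    have hk0 : k ≠ 0 := by
      rintro rfl
      simp at he
    obtain ⟨j, rfl⟩ : ∃ j, k = j + 1 := ⟨k - 1, by omega⟩
    rcases Nat.eq_zero_or_pos j with rfl | hj
    · norm_num [cyc, cyclotomic_two]
    · have e2 : 2 ^ (j + 1) = 2 ^ j * 2 := pow_succ 2 j
      rw [e2]
      refine cyc_two_of_dvd Nat.prime_two ?_ (dvd_pow_self 2 (by omega))
      calc 2 = 2 ^ 1 := by norm_num
        _ ≤ 2 ^ j := Nat.pow_le_pow_right (by norm_num) hj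

/-- The primitive part is large when the cyclotomic value is large. -/
theorem prim_part (a e : ℕ) (ha : 2 ≤ a) (he : 3 ≤ e) :
    ∃ m : ℕ, m ∣ a ^ e - 1 ∧ (∀ i : ℕ, 1 ≤ i → i < e → Nat.Coprime m (a ^ i - 1)) ∧
      cyc e a ≤ (m : ℤ) * e := by
  have ha' : (2 : ℤ) ≤ a := by exact_mod_cast ha
  have hpos := cyc_pos (n := e) ha'
  obtain ⟨M, hM⟩ : ∃ M : ℕ, cyc e a = M := ⟨(cyc e a).toNat, (Int.toNat_of_nonneg hpos.le).symm⟩
  have hMpos : 0 < M := by
    rw [hM] at hpos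
    exact_mod_cast hpos
  have hcast : ((a ^ e - 1 : ℕ) : ℤ) = (a : ℤ) ^ e - 1 := by
    have h1 : 1 ≤ a ^ e := Nat.one_le_pow _ _ (by omega)
    rw [Nat.cast_sub h1]
    simp
  have hMd : M ∣ a ^ e - 1 := by
    have h1 := cyc_dvd e (a : ℤ)
    rw [hM, ← hcast] at h1
    exact_mod_cast h1
  have hbad : ∀ r : ℕ, r.Prime → r ∣ M → ∀ k : ℕ, 0 < k → k < e → r ∣ a ^ k - 1 →
      ∃ d j : ℕ, d ∣ r - 1 ∧ 1 ≤ j ∧ e = d * r ^ j ∧ ¬ r ^ 2 ∣ M := by
    intro r hr hrM k hk0 hke hrk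
    have hq : (r : ℤ) ∣ cyc e a := by
      rw [hM]
      exact_mod_cast hrM
    obtain ⟨d, j, h1, h2, h3, h4⟩ := key a e r ha he hr hq k hk0 hke hrk
    refine ⟨d, j, h1, h2, h3, fun h5 => h4 ?_⟩
    rw [hM]
    exact_mod_cast h5
  by_cases hb : ∃ r : ℕ, r.Prime ∧ r ∣ M ∧ ∃ k : ℕ, 0 < k ∧ k < e ∧ r ∣ a ^ k - 1
  · obtain ⟨r, hr, hrM, k, hk0, hke, hrk⟩ := hb
    obtain ⟨d, j, hd, hj, hn, hns⟩ := hbad r hr hrM k hk0 hke hrk
    obtain ⟨m, rfl⟩ := hrM
    have hrm : ¬ r ∣ m := fun h => hns (by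
      rw [pow_two]
      exact Nat.mul_dvd_mul_left r h)
    have hre : r ∣ e := by
      rw [hn]
      exact Dvd.dvd.mul_left (dvd_pow_self r (by omega)) d
    refine ⟨m, (Dvd.intro_left r rfl).trans hMd, ?_, ?_⟩
    · intro i hi hie
      rw [Nat.coprime_iff_gcd_eq_one] 
      by_contra hcon
      obtain ⟨s, hs, hsg⟩ := Nat.exists_prime_and_dvd hcon
      have hsm : s ∣ m := hsg.trans (Nat.gcd_dvd_left _ _)
      have hsi : s ∣ a ^ i - 1 := hsg.trans (Nat.gcd_dvd_right _ _)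
      obtain ⟨d', j', hd', hj', hn', -⟩ := hbad s hs (Dvd.dvd.mul_left hsm r) i (by omega) hie hsi
      have hsr : s ≠ r := by
        rintro rfl
        exact hrm hsm
      have hse : s ∣ e := by
        rw [hn']
        exact Dvd.dvd.mul_left (dvd_pow_self s (by omega)) d'
      have hlt : ∀ {q q' d₀ j₀ : ℕ}, q.Prime → q'.Prime → d₀ ∣ q - 1 → e = d₀ * q ^ j₀ → q' ∣ e → q' ≠ q → q' < q := by
        intro q q' d₀ j₀ hq hq' hd₀ hnn hq'e hne
        rw [hnn] at hq'e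
        rcases (Nat.Prime.dvd_mul hq').mp hq'e with h | h
        · have h1 : 0 < q - 1 := by
            have := hq.two_le
            omega
          have h2 := Nat.le_of_dvd h1 hd₀
          have h3 : 0 < d₀ := by
            rcases Nat.eq_zero_or_pos d₀ with h0 | h0
            · rw [h0, zero_mul] at hnn
              omega
            · exact h0
          have h4 := Nat.le_of_dvd h3 h
          omega
        · exact absurd ((Nat.prime_dvd_prime_iff_eq hq' hq).mp (hq'.dvd_of_dvd_pow h)) hne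
      have h1 := hlt hr hs hd hn hse hsr
      have h2 := hlt hs hr hd' hn' hre hsr.symm
      omega
    · rw [hM]
      have h1 : r ≤ e := Nat.le_of_dvd (by omega) hre
      push_cast
      have h2 : (r : ℤ) ≤ e := by exact_mod_cast h1
      have h3 : (0 : ℤ) ≤ m := by positivity
      nlinarith
  · refine ⟨M, hMd, ?_, ?_⟩
    · intro i hi hie
      rw [Nat.coprime_iff_gcd_eq_one]
      by_contra hcon
      obtain ⟨s, hs, hsg⟩ := Nat.exists_prime_and_dvd hcon
      exact hb ⟨s, hs, hsg.trans (Nat.gcd_dvd_left _ _), i, by omega, hie, hsg.trans (Nat.gcd_dvd_right _ _)⟩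
    · rw [hM]
      have h1 : (1 : ℤ) ≤ e := by exact_mod_cast (by omega : 1 ≤ e)
      have h3 : (0 : ℤ) ≤ M := by positivity
      nlinarith

/-- Large value of the cyclotomic polynomial gives a large primitive divisor. -/
theorem exists_of_large (a e : ℕ) (ha : 2 ≤ a) (he : 3 ≤ e) (h : 3 * (e : ℤ) ^ 2 < cyc e a) :
    ∃ m : ℕ, m ∣ a ^ e - 1 ∧ (∀ i : ℕ, 1 ≤ i → i < e → Nat.Coprime m (a ^ i - 1)) ∧ 3 * e + 1 ≤ m := by
  obtain ⟨m, h1, h2, h3⟩ := prim_part a e ha he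
  refine ⟨m, h1, h2, ?_⟩
  have he' : (0 : ℤ) < e := by exact_mod_cast (by omega : 0 < e)
  have h4 : 3 * (e : ℤ) * e < (m : ℤ) * e := by nlinarith
  have h5 : 3 * (e : ℤ) < m := lt_of_mul_lt_mul_right h4 he'.le
  have h6 : 3 * e < m := by exact_mod_cast h5
  omega

/-- The non-exceptional part. -/
theorem part_one (a e : ℕ) (ha : 2 ≤ a) (he : 3 ≤ e) (hexc : (a, e) ∉ exc) :
    ∃ m : ℕ, m ∣ a ^ e - 1 ∧ (∀ i : ℕ, 1 ≤ i → i < e → Nat.Coprime m (a ^ i - 1)) ∧ 3 * e + 1 ≤ m := by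
  have ha' : (2 : ℤ) ≤ a := by exact_mod_cast ha
  by_cases hE : e ∈ E0
  · by_cases hbig : 3 * e ^ 2 ≤ (a - 1) ^ e.totient
    · apply exists_of_large a e ha he
      have h1 := lt_cyc (n := e) (by omega) ha'
      refine lt_of_le_of_lt ?_ h1
      have h2 : ((a - 1 : ℕ) : ℤ) = (a : ℤ) - 1 := by
        rw [Nat.cast_sub (by omega)]
        simp
      rw [← h2]
      exact_mod_cast hbig
    · rw [not_le, ← cnt_self (by omega)] at hbig
      have ha12 : a < 12 := by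
        by_contra hcon
        have h1 := eleven_pow e hE
        have h2 : 11 ^ cnt e e ≤ (a - 1) ^ cnt e e := Nat.pow_le_pow_left (by omega) _
        omega
      obtain ⟨t, -, -, -, ht⟩ := table_covers e hE a ha12 ha hbig hexc
      exact ⟨_, goodB_spec ht⟩
  · apply exists_of_large a e ha he
    have h1 := bound_of_not_mem e he hE
    have h2 : (2 : ℤ) ^ e.totient ≤ cyc e a ^ 2 := by
      rcases Nat.lt_or_ge a 3 with h | h
      · have : a = 2 := by omega
        subst this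
        exact_mod_cast cyc_two_bound e (by omega)
      · have h3 := lt_cyc (n := e) (by omega) ha'
        have h4 : (2 : ℤ) ^ e.totient ≤ ((a : ℤ) - 1) ^ e.totient :=
          pow_le_pow_left₀ (by norm_num) (by have : (3 : ℤ) ≤ a := by exact_mod_cast h
                                             omega) _
        have h5 : (2 : ℤ) ≤ cyc e a := by
          have h6 : (1 : ℤ) ≤ 2 ^ e.totient := one_le_pow₀ (by norm_num)
          omega
        nlinarith [cyc_pos (n := e) ha']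
    have h3 : (9 : ℤ) * (e : ℤ) ^ 4 < 2 ^ e.totient := by exact_mod_cast h1
    have h4 : (3 * (e : ℤ) ^ 2) ^ 2 < cyc e a ^ 2 := by
      have : (3 * (e : ℤ) ^ 2) ^ 2 = 9 * (e : ℤ) ^ 4 := by ring
      rw [this]
      exact lt_of_lt_of_le h3 h2
    exact lt_of_pow_lt_pow_left₀ 2 (cyc_pos ha').le h4

/-- The product over all smaller exponents. -/
def prodA (a : ℕ) : ℕ → ℕ
  | 0 => 1
  | i + 1 => prodA a i * (if i = 0 then 1 else a ^ i - 1)

theorem coprime_prodA {a e m : ℕ} (h : ∀ i : ℕ, 1 ≤ i → i < e → Nat.Coprime m (a ^ i - 1)) :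
    ∀ j, j ≤ e → Nat.Coprime m (prodA a j) := by
  intro j
  induction j with
  | zero => intro _; simp [prodA]
  | succ i ih =>
    intro hi
    rw [prodA]
    refine Nat.Coprime.mul_right (ih (by omega)) ?_
    split_ifs with h0
    · simp
    · exact h i (by omega) (by omega)

/-- The exceptional bound. -/
theorem exc_bound {a e P m : ℕ} (hP : 0 < P) (hd : a ^ e - 1 ∣ P * prodA a e ^ 3)
    (hm : m ∣ a ^ e - 1) (hco : ∀ i : ℕ, 1 ≤ i → i < e → Nat.Coprime m (a ^ i - 1)) : m ≤ P := by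
  have h1 : Nat.Coprime m (prodA a e ^ 3) := Nat.Coprime.pow_right 3 (coprime_prodA hco e le_rfl)
  exact Nat.le_of_dvd hP (h1.dvd_of_dvd_mul_right (hm.trans hd))

theorem part_two (a e : ℕ) (hexc : (a, e) ∈ exc) (m : ℕ) (hm : m ∣ a ^ e - 1)
    (hco : ∀ i : ℕ, 1 ≤ i → i < e → Nat.Coprime m (a ^ i - 1)) : m ≤ 2 * e + 1 := by
  simp only [exc, List.mem_cons, Prod.mk.injEq, List.not_mem_nil, or_false] at hexc
  rcases hexc with ⟨rfl, rfl⟩ | ⟨rfl, rfl⟩ | ⟨rfl, rfl⟩ | ⟨rfl, rfl⟩ | ⟨rfl, rfl⟩ | ⟨rfl, rfl⟩ | ⟨rfl, rfl⟩ |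
    ⟨rfl, rfl⟩ | ⟨rfl, rfl⟩ | ⟨rfl, rfl⟩ | ⟨rfl, rfl⟩ | ⟨rfl, rfl⟩ | ⟨rfl, rfl⟩
  · exact (exc_bound (P := 1) (by norm_num) (by decide +kernel) hm hco).trans (by norm_num)
  · exact (exc_bound (P := 5) (by norm_num) (by decide +kernel) hm hco).trans (by norm_num)
  · exact (exc_bound (P := 11) (by norm_num) (by decide +kernel) hm hco).trans (by norm_num)
  · exact (exc_bound (P := 13) (by norm_num) (by decide +kernel) hm hco).trans (by norm_num)
  · exact (exc_bound (P := 19) (by norm_num) (by decide +kernel) hm hco).trans (by norm_num)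
  · exact (exc_bound (P := 5) (by norm_num) (by decide +kernel) hm hco).trans (by norm_num)
  · exact (exc_bound (P := 7) (by norm_num) (by decide +kernel) hm hco).trans (by norm_num)
  · exact (exc_bound (P := 7) (by norm_num) (by decide +kernel) hm hco).trans (by norm_num)
  · exact (exc_bound (P := 7) (by norm_num) (by decide +kernel) hm hco).trans (by norm_num)
  · exact (exc_bound (P := 17) (by norm_num) (by decide +kernel) hm hco).trans (by norm_num)
  · exact (exc_bound (P := 41) (by norm_num) (by decide +kernel) hm hco).trans (by norm_num)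
  · exact (exc_bound (P := 7) (by norm_num) (by decide +kernel) hm hco).trans (by norm_num)
  · exact (exc_bound (P := 13) (by norm_num) (by decide +kernel) hm hco).trans (by norm_num)

/-- Size of the primitive part. -/
theorem main (q e : ℕ) (hq : IsPrimePow q) (he : 3 ≤ e) :
    ((q, e) ∉ [(2, 6), (2, 4), (2, 10), (2, 12), (2, 18), (3, 4), (3, 6), (5, 6), (2, 3), (2, 8), (2, 20), (4, 3), (4, 6)] →
      ∃ m : ℕ, m ∣ q ^ e - 1 ∧ (∀ i : ℕ, 1 ≤ i → i < e → Nat.Coprime m (q ^ i - 1)) ∧ 3 * e + 1 ≤ m) ∧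
    ((q, e) ∈ [(2, 6), (2, 4), (2, 10), (2, 12), (2, 18), (3, 4), (3, 6), (5, 6), (2, 3), (2, 8), (2, 20), (4, 3), (4, 6)] →
      ∀ m : ℕ, m ∣ q ^ e - 1 → (∀ i : ℕ, 1 ≤ i → i < e → Nat.Coprime m (q ^ i - 1)) → m ≤ 2 * e + 1) :=
  ⟨part_one q e hq.two_le he, fun h m hm hco => part_two q e h m hm hco⟩


end Cfsg.Agent.Lib.ClassSizes.PrimPart
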