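import Mathlib
import Cfsg.Agent.Lib.PGroup.Basic

/-!
# Groups all of whose class sizes are `1` or a prime
-/

namespace Cfsg.Agent.Lib.ClassSizes.PrimeClass

variable {G : Type*} [Group G]

/-- If `G = H K` as a product of sets, `H` acts transitively on `G ⧸ K`. -/
theorem index_subgroupOf_eq_of_cover [Finite G] (H K : Subgroup G)
    (hc : ∀ g : G, ∃ a ∈ H, ∃ b ∈ K, g = a * b) : (K.subgroupOf H).index = K.index := by
  have h1 := MulAction.index_stabilizer H ((1 : G) : G ⧸ K)
  have h2 : MulAction.stabilizer H ((1 : G) : G ⧸ K) = K.subgroupOf H := by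
    ext ⟨a, ha⟩
    rw [MulAction.mem_stabilizer_iff, Subgroup.mem_subgroupOf]
    change ((a * 1 : G) : G ⧸ K) = ((1 : G) : G ⧸ K) ↔ _
    rw [QuotientGroup.eq]
    simp
  have h3 : MulAction.orbit H ((1 : G) : G ⧸ K) = Set.univ := by
    ext q
    simp only [Set.mem_univ, iff_true]
    induction q using QuotientGroup.induction_on with
    | H g =>
      obtain ⟨a, ha, b, hb, rfl⟩ := hc g
      refine ⟨⟨a, ha⟩, ?_⟩
      change ((a * 1 : G) : G ⧸ K) = _
      rw [QuotientGroup.eq]
      simpa using hb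
  rw [h2, h3, Set.ncard_univ] at h1
  exact h1

section main

variable [Finite G]

local notation "Cn" x => Subgroup.centralizer ({x} : Set G)

theorem mem_cn {x y : G} : y ∈ (Cn x) ↔ y * x = x * y := by
  rw [Subgroup.mem_centralizer_singleton_iff]

/-- The case of normal centralizers. -/
theorem case_normal (h : ∀ x : G, (Cn x).index = 1 ∨ ((Cn x).index).Prime)
    (hn : ∀ x : G, (Cn x).Normal) : Subgroup.upperCentralSeries G 2 = ⊤ := by
  have hconj : ∀ x z g : G, z ∈ (Cn x) → (g * x * g⁻¹) * z = z * (g * x * g⁻¹) := by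
    intro x z g hz
    have h1 : g⁻¹ * z * g ∈ (Cn x) := by
      have := (hn x).conj_mem z hz g⁻¹
      simpa using this
    have h2 := (mem_cn).mp h1
    have h3 : g * (g⁻¹ * z * g * x) * g⁻¹ = g * (x * (g⁻¹ * z * g)) * g⁻¹ := by rw [h2]
    simp only [mul_assoc, mul_inv_cancel_left, mul_inv_cancel, mul_one] at h3
    simp only [mul_assoc]
    exact h3.symm
  rw [eq_top_iff]
  intro x _
  rw [show (2 : ℕ) = 1 + 1 from rfl, Subgroup.mem_upperCentralSeries_succ_iff, ]
  intro y
  rw [Subgroup.upperCentralSeries_one]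
  rw [commutatorElement_def]
  set c := x * y * x⁻¹ * y⁻¹ with hc
  by_cases hc1 : c = 1
  · rw [hc1]; exact one_mem _
  have hxny : x ∉ (Cn y) := by
    intro hx
    apply hc1
    have := (mem_cn).mp hx
    rw [hc, this]
    group
  have hyprime : ((Cn y).index).Prime := by
    rcases h y with h1 | h1
    · exfalso
      rw [Subgroup.index_eq_one] at h1
      apply hxny
      rw [h1]; trivial
    · exact h1
  have hco := Cfsg.Agent.Lib.PGroup.isCoatom_of_index_prime hyprime
  have hxx : x ∈ (Cn x) := (mem_cn).mpr rfl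
  have hyy : y ∈ (Cn y) := (mem_cn).mpr rfl
  have hle : (Cn x) ⊔ (Cn y) ≤ (Cn c) := by
    rw [sup_le_iff]
    constructor
    · intro z hz
      apply (mem_cn).mpr
      have e1 : c = x * (y * x * y⁻¹)⁻¹ := by rw [hc]; group
      have h1 := hconj x z y hz
      have h2 := (mem_cn).mp hz
      have h3 : (y * x * y⁻¹)⁻¹ * z = z * (y * x * y⁻¹)⁻¹ := by
        rw [inv_mul_eq_iff_eq_mul, ← mul_assoc, h1, mul_assoc, mul_inv_cancel, mul_one]
      rw [e1]
      calc z * (x * (y * x * y⁻¹)⁻¹) = (z * x) * (y * x * y⁻¹)⁻¹ := by simp only [mul_assoc]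
        _ = (x * z) * (y * x * y⁻¹)⁻¹ := by rw [h2]
        _ = x * (z * (y * x * y⁻¹)⁻¹) := by simp only [mul_assoc]
        _ = x * ((y * x * y⁻¹)⁻¹ * z) := by rw [h3]
        _ = _ := by simp only [mul_assoc]
    · intro z hz
      apply (mem_cn).mpr
      have e1 : c = (x * y * x⁻¹) * y⁻¹ := by rw [hc]
      have h1 := hconj y z x hz
      have h2 := (mem_cn).mp hz
      have h3 : y⁻¹ * z = z * y⁻¹ := by
        rw [inv_mul_eq_iff_eq_mul, ← mul_assoc, ← h2, mul_assoc, mul_inv_cancel, mul_one]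
      rw [e1]
      calc z * ((x * y * x⁻¹) * y⁻¹) = (z * (x * y * x⁻¹)) * y⁻¹ := by simp only [mul_assoc]
        _ = ((x * y * x⁻¹) * z) * y⁻¹ := by rw [h1]
        _ = (x * y * x⁻¹) * (z * y⁻¹) := by simp only [mul_assoc]
        _ = (x * y * x⁻¹) * (y⁻¹ * z) := by rw [h3]
        _ = _ := by simp only [mul_assoc]
  have htop : (Cn y) ⊔ (Cn x) = ⊤ := by
    apply hco.2
    refine lt_of_le_of_ne le_sup_left ?_
    intro he
    apply hxny
    rw [he]
    exact (le_sup_right : (Cn x) ≤ (Cn y) ⊔ (Cn x)) hxx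
  rw [sup_comm] at hle
  rw [htop] at hle
  rw [Subgroup.mem_center_iff]
  intro g
  exact (mem_cn).mp (hle (Subgroup.mem_top g))

/-- The case of a non-normal centralizer. -/
theorem case_non_normal (h : ∀ x : G, (Cn x).index = 1 ∨ ((Cn x).index).Prime)
    (x : G) (hx : ¬ (Cn x).Normal) :
    ∃ p q : ℕ, p.Prime ∧ q.Prime ∧ p ≠ q ∧ Nat.card (G ⧸ Subgroup.center G) = p * q ∧
      ¬ IsMulCommutative (G ⧸ Subgroup.center G) := by
  set M := Cn x with hM
  have hMprime : M.index.Prime := by
    rcases h x with h1 | h1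
    · exfalso
      rw [Subgroup.index_eq_one] at h1
      apply hx
      rw [hM, h1]
      infer_instance
    · exact h1
  set p := M.index with hp
  haveI : Fact p.Prime := ⟨hMprime⟩
  have hMco : IsCoatom M := Cfsg.Agent.Lib.PGroup.isCoatom_of_index_prime hMprime
  set N := M.normalCore with hN
  have hNM : N ≤ M := M.normalCore_le
  have hNmem : ∀ a, a ∈ N ↔ ∀ b : G, b * a * b⁻¹ ∈ M := fun a => Iff.rfl
  have hMN : N ≠ M := fun he => hx (by rw [← he]; infer_instance)
  -- a `p`-element outside `N`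
  obtain ⟨t, P, htP, htN⟩ : ∃ (t : G) (P : Sylow p G), t ∈ (P : Subgroup G) ∧ t ∉ N := by
    obtain ⟨P⟩ : Nonempty (Sylow p G) := inferInstance
    by_contra hcon
    push_neg at hcon
    have hPN : (P : Subgroup G) ≤ N := fun t ht => hcon t P ht
    have h1 : N.index ∣ (P : Subgroup G).index := Subgroup.index_dvd_of_le hPN
    have h2 : M.index ∣ N.index := Subgroup.index_dvd_of_le hNM
    exact P.not_dvd_index (h2.trans h1)
  -- `⟨t⟩` acts transitively on `G ⧸ M`
  have hfact : ∀ g : G, ∃ k : ℤ, ∃ m ∈ M, g = t ^ k * m := by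
    obtain ⟨b, hb⟩ : ∃ b : G, b * t * b⁻¹ ∉ M := by
      by_contra hcon
      push_neg at hcon
      exact htN ((hNmem t).mpr hcon)
    set H := Subgroup.zpowers t with hH
    have hHp : IsPGroup p H := by
      apply IsPGroup.to_le P.isPGroup'
      rw [Subgroup.zpowers_le]
      exact htP
    have hcardq : Nat.card (G ⧸ M) = p := rfl
    have ht' : t ∈ H := Subgroup.mem_zpowers t
    set a' : G ⧸ M := ((b⁻¹ : G) : G ⧸ M) with ha'
    have hne : (⟨t, ht'⟩ : H) • a' ≠ a' := by
      intro he
      have h1 : ((t * b⁻¹ : G) : G ⧸ M) = ((b⁻¹ : G) : G ⧸ M) := he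
      rw [QuotientGroup.eq] at h1
      apply hb
      have h2 := M.inv_mem h1
      simpa [mul_assoc] using h2
    obtain ⟨n, hn⟩ := hHp.card_orbit a'
    have hn0 : n ≠ 0 := by
      rintro rfl
      rw [pow_zero, Nat.card_eq_one_iff_unique] at hn
      have := hn.1.elim (⟨_, MulAction.mem_orbit a' (⟨t, ht'⟩ : H)⟩ : MulAction.orbit H a') ⟨_, MulAction.mem_orbit_self a'⟩
      exact hne (congrArg Subtype.val this)
    have huniv : MulAction.orbit H a' = Set.univ := by
      apply Set.eq_of_subset_of_ncard_le (Set.subset_univ _)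
      rw [Set.ncard_univ, hcardq, ← Nat.card_coe_set_eq, hn]
      exact Nat.le_self_pow hn0 p
    have h1mem : ((1 : G) : G ⧸ M) ∈ MulAction.orbit H a' := by rw [huniv]; trivial
    have horb : MulAction.orbit H ((1 : G) : G ⧸ M) = Set.univ := by
      rw [← huniv]
      exact MulAction.orbit_eq_iff.mpr h1mem
    intro g
    have hg : (g : G ⧸ M) ∈ MulAction.orbit H ((1 : G) : G ⧸ M) := by rw [horb]; trivial
    obtain ⟨⟨h, k, rfl⟩, hk⟩ := hg
    have hk' : ((t ^ k * 1 : G) : G ⧸ M) = (g : G ⧸ M) := hk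
    rw [QuotientGroup.eq] at hk'
    refine ⟨k, _, hk', ?_⟩
    simp
  -- the subgroup `D = C(t) N`
  set D : Subgroup G := (Cn t) ⊔ N with hD
  have hDM : ∀ d ∈ D, d ∈ M → d ∈ N := by
    intro d hd hdM
    obtain ⟨c, hc, n, hn, rfl⟩ := Subgroup.mem_sup_of_normal_right.mp hd
    have hcM : c ∈ M := by
      have := M.mul_mem hdM (M.inv_mem (hNM hn))
      simpa using this
    refine N.mul_mem ?_ hn
    rw [hNmem]
    intro b
    obtain ⟨k, m, hm, he⟩ := hfact b⁻¹
    have hb : b = m⁻¹ * t ^ (-k) := by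
      have : b = (b⁻¹)⁻¹ := by simp
      rw [this, he]
      simp
    have hct : Commute c t := (mem_cn).mp hc
    have hct2 : Commute c (t ^ (-k)) := hct.zpow_right _
    have e : b * c * b⁻¹ = m⁻¹ * c * m := by
      rw [he, hb]
      have : t ^ (-k) * c = c * t ^ (-k) := hct2.symm.eq
      calc m⁻¹ * t ^ (-k) * c * (t ^ k * m) = m⁻¹ * (t ^ (-k) * c) * (t ^ k * m) := by group
        _ = m⁻¹ * (c * t ^ (-k)) * (t ^ k * m) := by rw [this]
        _ = m⁻¹ * c * m := by group
    rw [e]
    exact M.mul_mem (M.mul_mem (M.inv_mem hm) hcM) hm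
  have hcover : ∀ g : G, ∃ a ∈ M, ∃ b ∈ D, g = a * b := by
    intro g
    obtain ⟨k, m, hm, he⟩ := hfact g⁻¹
    refine ⟨m⁻¹, M.inv_mem hm, t ^ (-k), ?_, ?_⟩
    · apply (le_sup_left : (Cn t) ≤ D)
      exact Subgroup.zpow_mem _ ((mem_cn).mpr rfl) _
    · have : g = (g⁻¹)⁻¹ := by simp
      rw [this, he]
      simp
  have hrelD : N.relIndex M = D.index := by
    have h1 := index_subgroupOf_eq_of_cover M D hcover
    have h2 : D.subgroupOf M = N.subgroupOf M := by
      ext ⟨d, hd⟩
      simp only [Subgroup.mem_subgroupOf]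
      exact ⟨fun hh => hDM d hh hd, fun hh => (le_sup_right : N ≤ D) hh⟩
    rw [h2] at h1
    exact h1
  have hDprime : D.index.Prime := by
    have h1 : D.index ∣ (Cn t).index := Subgroup.index_dvd_of_le le_sup_left
    have hDne : D.index ≠ 1 := by
      intro h1'
      rw [h1', Subgroup.relIndex_eq_one] at hrelD
      exact hMN (le_antisymm hNM hrelD)
    rcases h t with h2 | h2
    · rw [h2] at h1
      exact absurd (Nat.dvd_one.mp h1) hDne
    · rcases (Nat.dvd_prime h2).mp h1 with h3 | h3
      · exact absurd h3 hDne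
      · rw [h3]; exact h2
  set r := D.index with hr
  -- elements of `M` outside `N` centralize `N`
  have hcentral : ∀ y ∈ M, y ∉ N → N ≤ (Cn y) := by
    intro y hyM hyN
    by_contra hcon
    rcases h y with h1 | h1
    · rw [Subgroup.index_eq_one] at h1
      apply hcon
      rw [h1]
      exact le_top
    have hco := Cfsg.Agent.Lib.PGroup.isCoatom_of_index_prime h1
    have htop : (Cn y) ⊔ N = ⊤ := by
      apply hco.2
      refine lt_of_le_of_ne le_sup_left ?_
      intro he
      apply hcon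
      rw [he]
      exact le_sup_right
    apply hyN
    rw [hNmem]
    intro b
    have hmem : b⁻¹ ∈ (Cn y) ⊔ N := by rw [htop]; trivial
    obtain ⟨c, hc, n, hn, he⟩ := Subgroup.mem_sup_of_normal_right.mp hmem
    have hb : b = n⁻¹ * c⁻¹ := by
      have : b = (b⁻¹)⁻¹ := by simp
      rw [this, ← he]
      simp
    have hcy : c * y = y * c := (mem_cn).mp hc
    have e : b * y * b⁻¹ = n⁻¹ * y * n := by
      rw [← he, hb]
      calc n⁻¹ * c⁻¹ * y * (c * n) = n⁻¹ * (c⁻¹ * (y * c)) * n := by group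
        _ = n⁻¹ * y * n := by rw [← hcy]; group
    rw [e]
    exact M.mul_mem (M.mul_mem (M.inv_mem (hNM hn)) hyM) (hNM hn)
  obtain ⟨y0, hy0M, hy0N⟩ : ∃ y ∈ M, y ∉ N := by
    by_contra hcon
    push_neg at hcon
    exact hMN (le_antisymm hNM hcon)
  have hNZ : ∀ n ∈ N, ∀ a ∈ M, n * a = a * n := by
    intro n hn a ha
    by_cases haN : a ∈ N
    · have h1 : a * y0 ∉ N := fun hh => hy0N (by simpa using N.mul_mem (N.inv_mem haN) hh)
      have h2 := (mem_cn).mp (hcentral _ (M.mul_mem ha hy0M) h1 hn)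
      have h3 := (mem_cn).mp (hcentral _ hy0M hy0N hn)
      have h4 : n * a * y0 = a * n * y0 := by
        calc n * a * y0 = a * y0 * n := by rw [mul_assoc]; exact h2
          _ = a * (y0 * n) := by group
          _ = a * (n * y0) := by rw [h3]
          _ = a * n * y0 := by group
      exact mul_right_cancel h4
    · exact (mem_cn).mp (hcentral a ha haN hn)
  -- `M` is abelian
  have hNco : IsCoatom (N.subgroupOf M) := by
    apply Cfsg.Agent.Lib.PGroup.isCoatom_of_index_prime
    change (N.relIndex M).Prime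
    rw [hrelD]
    exact hDprime
  have hMab : ∀ a ∈ M, ∀ b ∈ M, a * b = b * a := by
    intro a ha b hb
    by_cases haN : a ∈ N
    · exact hNZ a haN b hb
    have h1 : (Cn a).subgroupOf M = ⊤ := by
      apply hNco.2
      refine lt_of_le_of_ne ?_ ?_
      · intro z hz
        rw [Subgroup.mem_subgroupOf] at hz ⊢
        exact hcentral a ha haN hz
      · intro he
        have : (⟨a, ha⟩ : M) ∈ (Cn a).subgroupOf M := by
          rw [Subgroup.mem_subgroupOf]
          exact (mem_cn).mpr rfl
        rw [← he, Subgroup.mem_subgroupOf] at this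
        exact haN this
    have h2 : (⟨b, hb⟩ : M) ∈ (Cn a).subgroupOf M := by rw [h1]; trivial
    rw [Subgroup.mem_subgroupOf] at h2
    exact ((mem_cn).mp h2).symm
  have hNcenter : N = Subgroup.center G := by
    apply le_antisymm
    · intro n hn
      have hle : M ≤ (Cn n) := fun a ha => (mem_cn).mpr (hNZ n hn a ha).symm
      rcases eq_or_lt_of_le hle with he | hlt
      · exfalso
        apply hx
        refine ⟨fun m hm g => ?_⟩
        have hm' : m ∈ M := hm
        change g * m * g⁻¹ ∈ M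
        rw [he]
        apply (mem_cn).mpr
        have hn' : g⁻¹ * n * g ∈ M := by
          have := (inferInstance : N.Normal).conj_mem n hn g⁻¹
          exact hNM (by simpa using this)
        have h1 := hMab m hm' _ hn'
        calc g * m * g⁻¹ * n = g * (m * (g⁻¹ * n * g)) * g⁻¹ := by group
          _ = g * (g⁻¹ * n * g * m) * g⁻¹ := by rw [h1]
          _ = n * (g * m * g⁻¹) := by group
      · have h1 := hMco.2 _ hlt
        rw [Subgroup.mem_center_iff]
        intro g
        have : g ∈ (Cn n) := by rw [h1]; trivial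
        exact (mem_cn).mp this
    · intro z hz
      rw [hNmem]
      intro b
      have : b * z * b⁻¹ = z := by
        rw [Subgroup.mem_center_iff.mp hz b]
        group
      rw [this]
      apply (mem_cn).mpr
      exact (Subgroup.mem_center_iff.mp hz x).symm
  have hcard : Nat.card (G ⧸ Subgroup.center G) = p * r := by
    have h1 := Subgroup.relIndex_mul_index hNM
    rw [hrelD, ← hNcenter] at *
    change _ = N.index at h1
    change N.index = _
    rw [← h1, mul_comm]
  have hnc : ¬ IsMulCommutative (G ⧸ Subgroup.center G) := by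
    intro hc
    apply hx
    refine ⟨fun m hm g => ?_⟩
    have h1 : (((g * m * g⁻¹ * m⁻¹ : G)) : G ⧸ Subgroup.center G) = 1 := by
      have h2 := hc.is_comm.comm (g : G ⧸ Subgroup.center G) (m : G ⧸ Subgroup.center G)
      simp only [QuotientGroup.mk_mul, QuotientGroup.mk_inv]
      rw [h2]
      group
    rw [QuotientGroup.eq_one_iff, ← hNcenter] at h1
    have h3 := M.mul_mem (hNM h1) hm
    simpa using h3
  refine ⟨p, r, hMprime, hDprime, ?_, hcard, hnc⟩
  intro he
  apply hnc
  have h1 : Nat.card (G ⧸ Subgroup.center G) = p ^ 2 := by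
    rw [hcard, ← he, sq]
  exact IsPGroup.isMulCommutative_of_card_eq_prime_sq h1

/-- The main theorem: class sizes `1` or a prime. -/
theorem prime_class (h : ∀ x : G, (Cn x).index = 1 ∨ ((Cn x).index).Prime) :
    Subgroup.upperCentralSeries G 2 = ⊤ ∨
      ∃ p q : ℕ, p.Prime ∧ q.Prime ∧ p ≠ q ∧ Nat.card (G ⧸ Subgroup.center G) = p * q ∧
        ¬ IsMulCommutative (G ⧸ Subgroup.center G) := by
  by_cases hn : ∀ x : G, (Cn x).Normal
  · exact Or.inl (case_normal h hn)
  · push_neg at hn
    obtain ⟨x, hx⟩ := hn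
    exact Or.inr (case_non_normal h x hx)

end main

end Cfsg.Agent.Lib.ClassSizes.PrimeClass
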