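import Mathlib

/-! Odd-order automorphisms of doubly transitive groups: an elementary matrix argument. -/

set_option autoImplicit false

namespace Cfsg.Agent.Lib.ClassSizes.TwoTrans

section arith

theorem isSquare_of_sq_eq_pow {a c : ℤ} {m : ℕ} (hc : 0 < c) (hm : Odd m) (h : a ^ 2 = c ^ m) :
    IsSquare c := by
  obtain ⟨l, rfl⟩ := hm
  have hc0 : (c : ℚ) ≠ 0 := by exact_mod_cast hc.ne'
  have h1 : ((a : ℚ) / (c : ℚ) ^ l) ^ 2 = (c : ℚ) := by
    have h2 : (a : ℚ) ^ 2 = (c : ℚ) ^ (2 * l + 1) := by exact_mod_cast h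
    rw [div_pow, h2]
    field_simp
    ring
  have h3 : IsSquare ((c : ℤ) : ℚ) := ⟨(a : ℚ) / (c : ℚ) ^ l, by rw [← sq, h1]⟩
  exact Rat.isSquare_intCast_iff.mp h3

theorem arith_main {n k lam a b : ℤ} {m : ℕ} (hn : 2 ≤ n) (hk1 : 1 ≤ k) (hkn : k < n)
    (hco : IsCoprime k n) (hlam : 0 ≤ lam) (hsum : k + (n - 1) * lam = k ^ 2) (hm : Odd m)
    (ha : a ^ 2 = (k - lam) ^ m) (hab : a + n * b = k ^ m) : k = 1 ∨ k = n - 1 := by
  have hlamk : lam ≤ k - 1 := by
    by_contra hc
    push Not at hc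
    have h1 : (n - 1) * k ≤ (n - 1) * lam := by
      apply mul_le_mul_of_nonneg_left (by omega) (by omega)
    nlinarith
  have hc1 : 0 < k - lam := by omega
  obtain ⟨u₀, hu₀⟩ := isSquare_of_sq_eq_pow hc1 hm ha
  obtain ⟨u, hu, hu0⟩ : ∃ u : ℤ, k - lam = u ^ 2 ∧ 0 ≤ u := ⟨|u₀|, by rw [sq_abs, hu₀]; ring, abs_nonneg _⟩
  have hupos : 1 ≤ u := by
    rcases hu0.lt_or_eq with h | h
    · omega
    · rw [← h] at hu
      nlinarith
  have hdiff : k ^ 2 - u ^ 2 = n * lam := by
    rw [← hu]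
    linarith
  have huk : u ≤ k := by nlinarith
  obtain ⟨l, rfl⟩ := hm
  have hau : a ^ 2 = (u ^ (2 * l + 1)) ^ 2 := by
    rw [ha, hu]; ring
  have hcop : IsCoprime n (u ^ 2) := by
    have h1 : IsCoprime (k ^ 2) n := hco.pow_left
    have h2 : u ^ 2 = k ^ 2 + n * (-lam) := by linarith
    rw [h2]
    exact (IsCoprime.add_mul_left_left_iff.mpr h1).symm
  have hcopl : IsCoprime n ((u ^ 2) ^ l) := hcop.pow_right
  have hmod : n ∣ k ^ (2 * l + 1) - k * (u ^ 2) ^ l := by
    have h1 : n ∣ k ^ 2 - u ^ 2 := ⟨lam, hdiff⟩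
    have h2 : n ∣ (k ^ 2) ^ l - (u ^ 2) ^ l := h1.trans (sub_dvd_pow_sub_pow _ _ l)
    have h3 : k ^ (2 * l + 1) - k * (u ^ 2) ^ l = k * ((k ^ 2) ^ l - (u ^ 2) ^ l) := by ring
    rw [h3]
    exact h2.mul_left k
  have hkm : n ∣ k ^ (2 * l + 1) - a := ⟨b, by rw [← hab]; ring⟩
  rcases sq_eq_sq_iff_eq_or_eq_neg.mp hau with h | h
  · -- `n ∣ k - u`
    left
    have h1 : n ∣ (k - u) * (u ^ 2) ^ l := by
      have h2 : (k - u) * (u ^ 2) ^ l = (k ^ (2 * l + 1) - a) - (k ^ (2 * l + 1) - k * (u ^ 2) ^ l) := by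
        rw [h]; ring
      rw [h2]
      exact dvd_sub hkm hmod
    have h3 : n ∣ k - u := hcopl.dvd_of_dvd_mul_right h1
    have h4 : k - u = 0 := by
      apply Int.eq_zero_of_abs_lt_dvd h3
      rw [abs_lt]
      constructor <;> omega
    have h5 : k = u := by omega
    subst h5
    nlinarith
  · -- `n ∣ k + u`
    right
    have h1 : n ∣ (k + u) * (u ^ 2) ^ l := by
      have h2 : (k + u) * (u ^ 2) ^ l = (k ^ (2 * l + 1) - a) - (k ^ (2 * l + 1) - k * (u ^ 2) ^ l) := by
        rw [h]; ring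
      rw [h2]
      exact dvd_sub hkm hmod
    have h3 : n ∣ k + u := hcopl.dvd_of_dvd_mul_right h1
    have h4 : k + u = n := by
      obtain ⟨t, ht⟩ := h3
      have ht1 : 0 < t := by
        by_contra hc
        push Not at hc
        nlinarith
      have ht2 : t < 2 := by
        by_contra hc
        push Not at hc
        nlinarith
      have : t = 1 := by omega
      rw [ht, this, mul_one]
    have h5 : (k - u) * n = n * lam := by
      rw [← hdiff, ← h4]; ring
    have h6 : k - u = lam := by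
      have : n * (k - u) = n * lam := by rw [← h5]; ring
      exact mul_left_cancel₀ (by omega) this
    have h7 : u ^ 2 = u := by
      rw [← hu]; omega
    have h8 : u = 1 := by nlinarith
    omega

end arith

section mat

open Matrix

variable {Ω : Type*} [Fintype Ω] [DecidableEq Ω]

/-- the all-one matrix -/
def JJ : Matrix Ω Ω ℤ := fun _ _ => 1

theorem JJ_apply (x y : Ω) : (JJ : Matrix Ω Ω ℤ) x y = 1 := rfl

theorem JJ_mul_JJ : (JJ : Matrix Ω Ω ℤ) * JJ = (Fintype.card Ω : ℤ) • JJ := by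
  ext x y
  simp [Matrix.mul_apply, JJ_apply]

theorem JJ_transpose : (JJ : Matrix Ω Ω ℤ)ᵀ = JJ := rfl

/-- coefficients of `x • 1 + y • J` are unique -/
theorem coeff_unique (hn : 2 ≤ Fintype.card Ω) {a b c d : ℤ}
    (h : a • (1 : Matrix Ω Ω ℤ) + b • JJ = c • 1 + d • JJ) : a = c ∧ b = d := by
  obtain ⟨x, y, hxy⟩ := Fintype.exists_pair_of_one_lt_card (by omega : 1 < Fintype.card Ω)
  have h1 := congrFun (congrFun h x) y
  have h2 := congrFun (congrFun h x) x
  simp only [Matrix.add_apply, Matrix.smul_apply, Matrix.one_apply_eq, Matrix.one_apply_ne hxy,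
    JJ_apply, smul_eq_mul, mul_zero, mul_one, zero_add] at h1 h2
  omega

theorem mul_form (a b c d : ℤ) : (a • (1 : Matrix Ω Ω ℤ) + b • JJ) * (c • 1 + d • JJ)
    = (a * c) • 1 + (a * d + b * c + b * d * Fintype.card Ω) • JJ := by
  rw [add_mul, mul_add, mul_add]
  simp only [smul_mul_smul_comm, one_mul, mul_one, JJ_mul_JJ, smul_smul]
  ext i j
  simp only [Matrix.add_apply, Matrix.smul_apply, JJ_apply, smul_eq_mul]
  ring

theorem pow_form (c l : ℤ) (j : ℕ) :
    ∃ μ : ℤ, (c • (1 : Matrix Ω Ω ℤ) + l • JJ) ^ j = c ^ j • 1 + μ • JJ := by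
  induction j with
  | zero => exact ⟨0, by simp⟩
  | succ j ih =>
    obtain ⟨μ, hμ⟩ := ih
    refine ⟨c ^ j * l + μ * c + μ * l * Fintype.card Ω, ?_⟩
    rw [pow_succ, hμ, mul_form, pow_succ]

/-- a function invariant under a doubly transitive group is a combination of `1` and `J`. -/
theorem two_trans_form {G : Type*} [Group G] [MulAction G Ω] (hn : 2 ≤ Fintype.card Ω)
    (h2 : ∀ x y x' y' : Ω, x ≠ y → x' ≠ y' → ∃ g : G, g • x = x' ∧ g • y = y')
    (F : Matrix Ω Ω ℤ) (hF : ∀ (g : G) (x y : Ω), F (g • x) (g • y) = F x y) :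
    ∃ a b : ℤ, F = a • 1 + b • JJ := by
  obtain ⟨x₀, y₀, hxy⟩ := Fintype.exists_pair_of_one_lt_card (by omega : 1 < Fintype.card Ω)
  refine ⟨F x₀ x₀ - F x₀ y₀, F x₀ y₀, ?_⟩
  ext x y
  simp only [Matrix.add_apply, Matrix.smul_apply, JJ_apply, smul_eq_mul, mul_one]
  by_cases hne : x = y
  · subst hne
    rw [Matrix.one_apply_eq]
    have hpt : ∃ g : G, g • x₀ = x := by
      by_cases hx : x = y₀
      · obtain ⟨g, hg, -⟩ := h2 x₀ y₀ y₀ x₀ hxy hxy.symm
        exact ⟨g, by rw [hg, hx]⟩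
      · obtain ⟨g, hg, -⟩ := h2 x₀ y₀ x y₀ hxy hx
        exact ⟨g, hg⟩
    obtain ⟨g, rfl⟩ := hpt
    rw [hF]
    ring
  · rw [Matrix.one_apply_ne hne]
    obtain ⟨g, rfl, rfl⟩ := h2 x₀ y₀ x y hxy hne
    rw [hF]
    ring

end mat

section action

open Matrix MulAction

set_option linter.unusedSectionVars false

variable {Ω : Type*} [Fintype Ω] [DecidableEq Ω] {G : Type*} [Group G] [MulAction G Ω]

/-- the relation -/
def Rel (α : MulAut G) (o ω x y : Ω) : Prop := ∃ h : G, α h • ω = x ∧ h • o = y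

open Classical in
/-- its matrix -/
noncomputable def MM (α : MulAut G) (o ω : Ω) : Matrix Ω Ω ℤ :=
  fun x y => if Rel α o ω x y then 1 else 0

theorem Rel_inv (α : MulAut G) (o ω : Ω) (g : G) (x y : Ω) :
    Rel α o ω (α g • x) (g • y) ↔ Rel α o ω x y := by
  constructor
  · rintro ⟨h, h1, h2⟩
    refine ⟨g⁻¹ * h, ?_, ?_⟩
    · rw [map_mul, mul_smul, h1, map_inv, inv_smul_smul]
    · rw [mul_smul, h2, inv_smul_smul]
  · rintro ⟨h, rfl, rfl⟩
    refine ⟨g * h, ?_, ?_⟩
    · rw [map_mul, mul_smul]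
    · rw [mul_smul]

theorem MM_inv (α : MulAut G) (o ω : Ω) (g : G) (x y : Ω) :
    MM α o ω (α g • x) (g • y) = MM α o ω x y := by
  have h : ∀ a b, MM α o ω a b = by classical exact if Rel α o ω a b then 1 else 0 := by
    intro a b
    rfl
  by_cases hr : Rel α o ω x y
  · have h1 := (Rel_inv α o ω g x y).mpr hr
    simp only [MM, if_pos hr, if_pos h1]
  · have h1 : ¬ Rel α o ω (α g • x) (g • y) := fun h1 => hr ((Rel_inv α o ω g x y).mp h1)
    simp only [MM, if_neg hr, if_neg h1]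

theorem MM_sq (α : MulAut G) (o ω x y : Ω) : MM α o ω x y * MM α o ω x y = MM α o ω x y := by
  unfold MM
  split_ifs <;> simp

theorem MM_nonneg (α : MulAut G) (o ω x y : Ω) : 0 ≤ MM α o ω x y := by
  unfold MM
  split_ifs <;> simp

theorem col_sum_o (α : MulAut G) (o ω : Ω) :
    ∑ x, MM α o ω x o = (Nat.card (orbit ((stabilizer G o).map α.toMonoidHom) ω) : ℤ) := by
  classical
  have h1 : orbit ((stabilizer G o).map α.toMonoidHom) ω
      = ↑(Finset.univ.filter fun x => Rel α o ω x o) := by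
    ext x
    simp only [Finset.coe_filter, Finset.mem_univ, true_and, Set.mem_ofPred_eq]
    constructor
    · rintro ⟨⟨_, s, hs, rfl⟩, rfl⟩
      exact ⟨s, rfl, hs⟩
    · rintro ⟨h, rfl, hh⟩
      exact ⟨⟨α h, h, hh, rfl⟩, rfl⟩
  rw [h1, Nat.card_coe_set_eq, Set.ncard_coe_finset]
  unfold MM
  rw [Finset.sum_boole]

variable (h2 : ∀ x y x' y' : Ω, x ≠ y → x' ≠ y' → ∃ g : G, g • x = x' ∧ g • y = y')
  (hn : 2 ≤ Fintype.card Ω)

include h2 hn in
theorem pretrans (x y : Ω) : ∃ g : G, g • x = y := by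
  by_cases hxy : x = y
  · exact ⟨1, by rw [hxy, one_smul]⟩
  · exact (h2 x y y x hxy (Ne.symm hxy)).imp fun g hg => hg.1

include h2 hn in
theorem col_sum (α : MulAut G) (o ω y : Ω) :
    ∑ x, MM α o ω x y = (Nat.card (orbit ((stabilizer G o).map α.toMonoidHom) ω) : ℤ) := by
  rw [← col_sum_o]
  obtain ⟨g, rfl⟩ := pretrans h2 hn o y
  rw [← Equiv.sum_comp (MulAction.toPerm (α g))]
  refine Finset.sum_congr rfl fun x _ => ?_
  exact MM_inv α o ω g x o

include h2 hn in
theorem row_sum_eq (α : MulAut G) (o ω x x' : Ω) :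
    ∑ y, MM α o ω x y = ∑ y, MM α o ω x' y := by
  obtain ⟨g', rfl⟩ := pretrans h2 hn x x'
  obtain ⟨g, rfl⟩ := α.surjective g'
  rw [← Equiv.sum_comp (MulAction.toPerm g) (fun y => MM α o ω (α g • x) y)]
  refine Finset.sum_congr rfl fun y _ => ?_
  exact (MM_inv α o ω g x y).symm

include h2 hn in
theorem row_sum (α : MulAut G) (o ω x : Ω) :
    ∑ y, MM α o ω x y = (Nat.card (orbit ((stabilizer G o).map α.toMonoidHom) ω) : ℤ) := by
  have h1 : ∑ x, ∑ y, MM α o ω x y = ∑ y, ∑ x, MM α o ω x y := Finset.sum_comm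
  simp_rw [col_sum h2 hn α o ω] at h1
  rw [Finset.sum_congr rfl (fun x' _ => row_sum_eq h2 hn α o ω x' x)] at h1
  simp only [Finset.sum_const, Finset.card_univ, smul_eq_mul, nsmul_eq_mul] at h1
  have hpos : (Fintype.card Ω : ℤ) ≠ 0 := by
    have : 0 < Fintype.card Ω := by omega
    omega
  exact mul_left_cancel₀ hpos h1

include h2 hn in
theorem form_M (α : MulAut G) (o ω : Ω) :
    ∃ l : ℤ, 0 ≤ l ∧ MM α o ω * (MM α o ω)ᵀ =
        ((Nat.card (orbit ((stabilizer G o).map α.toMonoidHom) ω) : ℤ) - l) • 1 + l • JJ ∧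
      (MM α o ω)ᵀ * MM α o ω =
        ((Nat.card (orbit ((stabilizer G o).map α.toMonoidHom) ω) : ℤ) - l) • 1 + l • JJ ∧
      (Nat.card (orbit ((stabilizer G o).map α.toMonoidHom) ω) : ℤ) + ((Fintype.card Ω : ℤ) - 1) * l
        = (Nat.card (orbit ((stabilizer G o).map α.toMonoidHom) ω) : ℤ) ^ 2 := by
  set k : ℤ := (Nat.card (orbit ((stabilizer G o).map α.toMonoidHom) ω) : ℤ) with hk
  set M := MM α o ω with hM
  have hcol : ∀ y, ∑ x, M x y = k := col_sum h2 hn α o ω
  have hrow : ∀ x, ∑ y, M x y = k := row_sum h2 hn α o ω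
  have hinv : ∀ g x y, M (α g • x) (g • y) = M x y := MM_inv α o ω
  -- `M Mᵀ`
  have h1 : ∀ (g' : G) (x x' : Ω), (M * Mᵀ) (g' • x) (g' • x') = (M * Mᵀ) x x' := by
    intro g' x x'
    obtain ⟨g, rfl⟩ := α.surjective g'
    simp only [Matrix.mul_apply, Matrix.transpose_apply]
    rw [← Equiv.sum_comp (MulAction.toPerm g)]
    refine Finset.sum_congr rfl fun y _ => ?_
    exact congrArg₂ (· * ·) (hinv g x y) (hinv g x' y)
  obtain ⟨c, l, hcl⟩ := two_trans_form hn h2 _ h1
  have h3 : ∀ (g : G) (y y' : Ω), (Mᵀ * M) (g • y) (g • y') = (Mᵀ * M) y y' := by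
    intro g y y'
    simp only [Matrix.mul_apply, Matrix.transpose_apply]
    rw [← Equiv.sum_comp (MulAction.toPerm (α g))]
    refine Finset.sum_congr rfl fun x _ => ?_
    exact congrArg₂ (· * ·) (hinv g x y) (hinv g x y')
  obtain ⟨c', l', hcl'⟩ := two_trans_form hn h2 _ h3
  obtain ⟨x₀, y₀, hxy⟩ := Fintype.exists_pair_of_one_lt_card (by omega : 1 < Fintype.card Ω)
  -- diagonal entries
  have hd : c + l = k := by
    have h4 := congrFun (congrFun hcl x₀) x₀
    simp only [Matrix.mul_apply, Matrix.transpose_apply, Matrix.add_apply, Matrix.smul_apply,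
      Matrix.one_apply_eq, JJ_apply, smul_eq_mul, mul_one] at h4
    rw [← h4, ← hrow x₀]
    exact Finset.sum_congr rfl fun y _ => MM_sq α o ω x₀ y
  have hd' : c' + l' = k := by
    have h4 := congrFun (congrFun hcl' x₀) x₀
    simp only [Matrix.mul_apply, Matrix.transpose_apply, Matrix.add_apply, Matrix.smul_apply,
      Matrix.one_apply_eq, JJ_apply, smul_eq_mul, mul_one] at h4
    rw [← h4, ← hcol x₀]
    exact Finset.sum_congr rfl fun y _ => MM_sq α o ω y x₀
  -- row sums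
  have hs : c + (Fintype.card Ω : ℤ) * l = k * k := by
    have h4 : ∑ x', (M * Mᵀ) x₀ x' = k * k := by
      simp only [Matrix.mul_apply, Matrix.transpose_apply]
      rw [Finset.sum_comm]
      simp_rw [← Finset.mul_sum, hcol, ← Finset.sum_mul, hrow]
    rw [hcl] at h4
    simp only [Matrix.add_apply, Matrix.smul_apply, JJ_apply, smul_eq_mul, mul_one,
      Finset.sum_add_distrib, ← Finset.mul_sum, Matrix.one_apply, Finset.sum_ite_eq,
      Finset.mem_univ, if_true, Finset.sum_const, Finset.card_univ, nsmul_eq_mul] at h4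
    linarith
  have hs' : c' + (Fintype.card Ω : ℤ) * l' = k * k := by
    have h4 : ∑ y', (Mᵀ * M) x₀ y' = k * k := by
      simp only [Matrix.mul_apply, Matrix.transpose_apply]
      rw [Finset.sum_comm]
      simp_rw [← Finset.mul_sum, hrow, ← Finset.sum_mul, hcol]
    rw [hcl'] at h4
    simp only [Matrix.add_apply, Matrix.smul_apply, JJ_apply, smul_eq_mul, mul_one,
      Finset.sum_add_distrib, ← Finset.mul_sum, Matrix.one_apply, Finset.sum_ite_eq,
      Finset.mem_univ, if_true, Finset.sum_const, Finset.card_univ, nsmul_eq_mul] at h4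
    linarith
  have hnZ : (2 : ℤ) ≤ Fintype.card Ω := by exact_mod_cast hn
  have hll : l' = l := by
    have : ((Fintype.card Ω : ℤ) - 1) * l' = ((Fintype.card Ω : ℤ) - 1) * l := by linarith
    exact mul_left_cancel₀ (by omega) this
  subst hll
  have hc : c = k - l' := by linarith
  have hc' : c' = k - l' := by linarith
  refine ⟨l', ?_, ?_, ?_, ?_⟩
  · -- nonnegativity
    have h4 := congrFun (congrFun hcl x₀) y₀
    simp only [Matrix.mul_apply, Matrix.transpose_apply, Matrix.add_apply, Matrix.smul_apply,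
      Matrix.one_apply_ne hxy, JJ_apply, smul_eq_mul, mul_one, mul_zero, zero_add] at h4
    rw [← h4]
    exact Finset.sum_nonneg fun y _ => mul_nonneg (MM_nonneg _ _ _ _ _) (MM_nonneg _ _ _ _ _)
  · rw [hcl, hc]
  · rw [hcl', hc']
  · nlinarith

include h2 hn in
theorem M_mul_J (α : MulAut G) (o ω : Ω) :
    MM α o ω * JJ = (Nat.card (orbit ((stabilizer G o).map α.toMonoidHom) ω) : ℤ) • JJ := by
  ext x y
  simp only [Matrix.mul_apply, JJ_apply, mul_one, Matrix.smul_apply, smul_eq_mul]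
  exact row_sum h2 hn α o ω x

theorem pow_inv (α : MulAut G) (o ω : Ω) (j : ℕ) :
    ∀ (g : G) (x y : Ω), (MM α o ω ^ j) ((α ^ j) g • x) (g • y) = (MM α o ω ^ j) x y := by
  induction j with
  | zero =>
    intro g x y
    simp only [pow_zero, MulAut.one_apply]
    by_cases h : x = y
    · subst h
      simp
    · have : g • x ≠ g • y := fun h' => h (smul_left_cancel g h')
      rw [Matrix.one_apply_ne h, Matrix.one_apply_ne this]
  | succ j ih =>
    intro g x y
    rw [pow_succ, Matrix.mul_apply, Matrix.mul_apply]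
    rw [← Equiv.sum_comp (MulAction.toPerm (α g))]
    refine Finset.sum_congr rfl fun z _ => ?_
    have h1 : (α ^ (j + 1)) g = (α ^ j) (α g) := by
      rw [pow_succ]; rfl
    rw [h1]
    exact congrArg₂ (· * ·) (ih (α g) x z) (MM_inv α o ω g z y)

include h2 hn in
/-- The main theorem. -/
theorem orbit_card (α : MulAut G) (m : ℕ) (hm : Odd m) (hαm : α ^ m = 1) (o ω : Ω)
    (hco : (Nat.card (orbit ((stabilizer G o).map α.toMonoidHom) ω)).Coprime (Fintype.card Ω)) :
    Nat.card (orbit ((stabilizer G o).map α.toMonoidHom) ω) = 1 ∨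
      Nat.card (orbit ((stabilizer G o).map α.toMonoidHom) ω) = Fintype.card Ω - 1 := by
  obtain ⟨l, hl0, hMMT, hMTM, hsum⟩ := form_M h2 hn α o ω
  set k₀ := Nat.card (orbit ((stabilizer G o).map α.toMonoidHom) ω) with hk₀
  set M := MM α o ω with hM
  have hMJ : M * JJ = (k₀ : ℤ) • JJ := M_mul_J h2 hn α o ω
  -- `M ^ m`
  have hNinv : ∀ (g : G) (x y : Ω), (M ^ m) (g • x) (g • y) = (M ^ m) x y := by
    intro g x y
    have := pow_inv α o ω m g x y
    rwa [hαm, MulAut.one_apply] at this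
  obtain ⟨a, b, hN⟩ := two_trans_form hn h2 _ hNinv
  have hcomm : Commute M Mᵀ := by
    show M * Mᵀ = Mᵀ * M
    rw [hMMT, hMTM]
  have h1 : (M * Mᵀ) ^ m = M ^ m * (M ^ m)ᵀ := by
    rw [hcomm.mul_pow, Matrix.transpose_pow]
  obtain ⟨μ, hμ⟩ := pow_form (Ω := Ω) ((k₀ : ℤ) - l) l m
  rw [hMMT, hμ, hN] at h1
  have htr : (a • (1 : Matrix Ω Ω ℤ) + b • JJ)ᵀ = a • 1 + b • JJ := by
    rw [Matrix.transpose_add, Matrix.transpose_smul, Matrix.transpose_smul, Matrix.transpose_one,
      JJ_transpose]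
  rw [htr, mul_form] at h1
  have h2' := (coeff_unique hn h1).1
  -- `M ^ m * J`
  have hpowJ : ∀ j : ℕ, M ^ j * JJ = ((k₀ : ℤ) ^ j) • JJ := by
    intro j
    induction j with
    | zero => simp
    | succ j ih =>
      rw [pow_succ, mul_assoc, hMJ, Matrix.mul_smul, ih, smul_smul, pow_succ, mul_comm]
  have h3 := hpowJ m
  rw [hN, add_mul, smul_mul_assoc, smul_mul_assoc, one_mul, JJ_mul_JJ, smul_smul, ← add_smul] at h3
  obtain ⟨x₀⟩ : Nonempty Ω := by
    apply Fintype.card_pos_iff.mp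
    omega
  have h4 := congrFun (congrFun h3 x₀) x₀
  simp only [Matrix.smul_apply, JJ_apply, smul_eq_mul, mul_one] at h4
  have hnZ : (2 : ℤ) ≤ Fintype.card Ω := by exact_mod_cast hn
  have hkpos : 1 ≤ k₀ := by
    have : 0 < k₀ := by
      rw [hk₀, Nat.card_pos_iff]
      exact ⟨⟨⟨ω, mem_orbit_self ω⟩⟩, inferInstance⟩
    omega
  have hkle : k₀ ≤ Fintype.card Ω := by
    rw [hk₀, ← Nat.card_eq_fintype_card]
    exact Nat.card_le_card_of_injective _ Subtype.val_injective
  have hklt : k₀ < Fintype.card Ω := by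
    rcases hkle.lt_or_eq with h | h
    · exact h
    · exfalso
      rw [h, Nat.coprime_self] at hco
      omega
  have hcop : IsCoprime (k₀ : ℤ) (Fintype.card Ω : ℤ) := Nat.isCoprime_iff_coprime.mpr hco
  have hfin := arith_main (n := Fintype.card Ω) (k := k₀) (lam := l) (a := a) (b := b) (m := m)
    hnZ (by exact_mod_cast hkpos) (by exact_mod_cast hklt) hcop hl0 hsum hm (by rw [sq, h2'])
    (by linarith)
  rcases hfin with h | h
  · left
    exact_mod_cast h
  · right
    omega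

end action

section final

open MulAction

set_option linter.unusedSectionVars false

variable {Ω : Type*} [Fintype Ω] {G : Type*} [Group G] [MulAction G Ω]

/-- From a point fixed by the image of the stabilizer to a permutation. -/
theorem exists_perm (hpre : ∀ x y : Ω, ∃ g : G, g • x = y) (α : MulAut G) (o ω₀ : Ω)
    (hfix : ∀ s : G, s • o = o → α s • ω₀ = ω₀) :
    ∃ σ : Equiv.Perm Ω, ∀ (g : G) (x : Ω), σ (g • x) = α g • σ x := by
  classical
  choose γ hγ using hpre o
  let f : Ω → Ω := fun x => α (γ x) • ω₀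
  have hf : ∀ (g : G) (x : Ω), f (g • x) = α g • f x := by
    intro g x
    have h1 : ((γ (g • x))⁻¹ * (g * γ x)) • o = o := by
      rw [mul_smul, mul_smul, hγ, inv_smul_eq_iff, hγ]
    have h2 := hfix _ h1
    rw [map_mul, map_mul, map_inv, mul_smul, inv_smul_eq_iff, mul_smul] at h2
    exact h2.symm
  have hfo : f o = ω₀ := hfix _ (hγ o)
  have hsurj : Function.Surjective f := by
    intro y
    obtain ⟨g', hg'⟩ := hpre ω₀ y
    obtain ⟨g, rfl⟩ := α.surjective g'
    refine ⟨g • o, ?_⟩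
    rw [hf, hfo, hg']
  have hbij : Function.Bijective f := ⟨Finite.injective_iff_surjective.mpr hsurj, hsurj⟩
  exact ⟨Equiv.ofBijective f hbij, hf⟩

/-- A fixed point, given the size of an orbit. -/
theorem exists_fixed (K : Subgroup G) (ω : Ω) (h : Nat.card (orbit K ω) = 1 ∨
    Nat.card (orbit K ω) = Fintype.card Ω - 1) (hpos : 0 < Fintype.card Ω) :
    ∃ ω₀ : Ω, ∀ s ∈ K, s • ω₀ = ω₀ := by
  classical
  rcases h with h | h
  · refine ⟨ω, fun s hs => ?_⟩
    obtain ⟨hu, -⟩ := Nat.card_eq_one_iff_unique.mp h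
    have h1 : (⟨s • ω, ⟨⟨s, hs⟩, rfl⟩⟩ : orbit K ω) = ⟨ω, mem_orbit_self ω⟩ := Subsingleton.elim _ _
    exact congrArg Subtype.val h1
  · have h1 : ((orbit K ω)ᶜ).ncard = 1 := by
      have h2 := Set.ncard_add_ncard_compl (orbit K ω)
      rw [← Nat.card_coe_set_eq, h, Nat.card_eq_fintype_card] at h2
      omega
    obtain ⟨ω₀, hω₀⟩ := Set.ncard_eq_one.mp h1
    refine ⟨ω₀, fun s hs => ?_⟩
    have h2 : ω₀ ∈ (orbit K ω)ᶜ := by rw [hω₀]; rfl
    have h3 : s • ω₀ ∈ (orbit K ω)ᶜ := by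
      intro h4
      apply h2
      obtain ⟨t, ht⟩ := h4
      have ht' : t • ω = s • ω₀ := ht
      refine ⟨(⟨s, hs⟩ : K)⁻¹ * t, ?_⟩
      show ((⟨s, hs⟩ : K)⁻¹ * t) • ω = ω₀
      rw [mul_smul, ht']
      exact inv_smul_smul s ω₀
    rw [hω₀] at h3
    exact h3

/-- The theorem in the form of the statement. -/
theorem main_perm {Ω : Type*} [Fintype Ω] (G : Subgroup (Equiv.Perm Ω))
    (h2 : MulAction.IsMultiplyPretransitive G Ω 2) (o : Ω) (α : MulAut G) (hα : Odd (orderOf α))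
    (ω : Ω)
    (hk : (Nat.card (MulAction.orbit ((MulAction.stabilizer G o).map α.toMonoidHom) ω)).Coprime
      (Fintype.card Ω)) :
    (∃ σ : Equiv.Perm Ω, σ ∈ Subgroup.normalizer (G : Set (Equiv.Perm Ω)) ∧
      ∀ g : G, ((α g : G) : Equiv.Perm Ω) = σ * (g : Equiv.Perm Ω) * σ⁻¹) ∧
    (Nat.card (MulAction.orbit ((MulAction.stabilizer G o).map α.toMonoidHom) ω) = 1 ∨
      Nat.card (MulAction.orbit ((MulAction.stabilizer G o).map α.toMonoidHom) ω)
        = Fintype.card Ω - 1) := by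
  classical
  by_cases hn : 2 ≤ Fintype.card Ω
  · have h2' : ∀ x y x' y' : Ω, x ≠ y → x' ≠ y' → ∃ g : G, g • x = x' ∧ g • y = y' :=
      fun x y x' y' h h' => (MulAction.is_two_pretransitive_iff.mp h2) h h'
    have hαm : α ^ orderOf α = 1 := pow_orderOf_eq_one α
    have hcard := orbit_card h2' hn α (orderOf α) hα hαm o ω hk
    refine ⟨?_, hcard⟩
    obtain ⟨ω₀, hω₀⟩ := exists_fixed _ ω hcard (by omega)
    have hpre : ∀ x y : Ω, ∃ g : G, g • x = y := pretrans h2' hn
    obtain ⟨σ, hσ⟩ := exists_perm hpre α o ω₀ (fun s hs => hω₀ _ ⟨s, hs, rfl⟩)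
    have hform : ∀ g : G, ((α g : G) : Equiv.Perm Ω) = σ * (g : Equiv.Perm Ω) * σ⁻¹ := by
      intro g
      refine Equiv.ext fun x => ?_
      obtain ⟨y, rfl⟩ := σ.surjective x
      show ((α g : G) : Equiv.Perm Ω) (σ y) = σ ((g : Equiv.Perm Ω) (σ⁻¹ (σ y)))
      rw [show σ⁻¹ (σ y) = y from σ.symm_apply_apply y]
      exact (hσ g y).symm
    refine ⟨σ, ?_, hform⟩
    rw [Subgroup.mem_normalizer_iff]
    intro h
    constructor
    · intro hh
      have h5 : ((α ⟨h, hh⟩ : G) : Equiv.Perm Ω) = σ * h * σ⁻¹ := hform ⟨h, hh⟩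
      rw [← h5]
      exact (α ⟨h, hh⟩).2
    · intro hh
      obtain ⟨g, hg⟩ := α.surjective ⟨σ * h * σ⁻¹, hh⟩
      have h1 := hform g
      rw [hg] at h1
      have h3 : σ * h * σ⁻¹ = σ * (g : Equiv.Perm Ω) * σ⁻¹ := h1
      have h4 : h = (g : Equiv.Perm Ω) := by
        have := mul_right_cancel h3
        exact mul_left_cancel this
      rw [h4]
      exact g.2
  · -- one point
    have h1 : Fintype.card Ω = 1 := by
      have : 0 < Fintype.card Ω := Fintype.card_pos_iff.mpr ⟨o⟩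
      omega
    haveI hsub : Subsingleton Ω := Fintype.card_le_one_iff_subsingleton.mp h1.le
    refine ⟨⟨1, Subgroup.mem_normalizer_iff.mpr fun h => by simp, fun g => ?_⟩, Or.inl ?_⟩
    · exact Subsingleton.elim _ _
    · rw [Nat.card_eq_one_iff_unique]
      refine ⟨?_, ⟨⟨ω, MulAction.mem_orbit_self ω⟩⟩⟩
      exact ⟨fun a b => Subtype.ext (Subsingleton.elim _ _)⟩

/-- The Hall case. -/
theorem main_hall {Ω : Type*} [Fintype Ω] (G : Subgroup (Equiv.Perm Ω))
    (h2 : MulAction.IsMultiplyPretransitive G Ω 2) (o : Ω)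
    (hHall : (Nat.card (MulAction.stabilizer G o)).Coprime (MulAction.stabilizer G o).index)
    (α : MulAut G) (hα : Odd (orderOf α)) :
    ∃ σ : Equiv.Perm Ω, σ ∈ Subgroup.normalizer (G : Set (Equiv.Perm Ω)) ∧
      ∀ g : G, ((α g : G) : Equiv.Perm Ω) = σ * (g : Equiv.Perm Ω) * σ⁻¹ := by
  classical
  by_cases hn : 2 ≤ Fintype.card Ω
  · have h2' : ∀ x y x' y' : Ω, x ≠ y → x' ≠ y' → ∃ g : G, g • x = x' ∧ g • y = y' :=
      fun x y x' y' h h' => (MulAction.is_two_pretransitive_iff.mp h2) h h'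
    have hpre : ∀ x y : Ω, ∃ g : G, g • x = y := pretrans h2' hn
    haveI : MulAction.IsPretransitive G Ω := ⟨hpre⟩
    refine (main_perm G h2 o α hα o ?_).1
    -- the orbit length divides the order of the stabilizer
    have h3 : (MulAction.stabilizer G o).index = Fintype.card Ω := by
      rw [MulAction.index_stabilizer, MulAction.orbit_eq_univ, Set.ncard_univ, Nat.card_eq_fintype_card]
    rw [h3] at hHall
    set K := (MulAction.stabilizer G o).map α.toMonoidHom with hK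
    have h4 : Nat.card (MulAction.orbit K o) ∣ Nat.card (MulAction.stabilizer G o) := by
      have h5 : Nat.card K = Nat.card (MulAction.stabilizer G o) := by
        rw [hK]
        exact Subgroup.card_map_of_injective α.injective
      rw [← h5]
      rw [Nat.card_coe_set_eq, ← MulAction.index_stabilizer K o]
      exact Subgroup.index_dvd_card _
    exact Nat.Coprime.coprime_dvd_left h4 hHall
  · have h1 : Fintype.card Ω = 1 := by
      have : 0 < Fintype.card Ω := Fintype.card_pos_iff.mpr ⟨o⟩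
      omega
    haveI hsub : Subsingleton Ω := Fintype.card_le_one_iff_subsingleton.mp h1.le
    exact ⟨1, Subgroup.mem_normalizer_iff.mpr fun h => by simp, fun g => Subsingleton.elim _ _⟩

end final

end Cfsg.Agent.Lib.ClassSizes.TwoTrans
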