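import Mathlib
import Cfsg.Prelude.Def_KGroupFacts
import Cfsg.Agent.S0675
import Cfsg.Agent.Lib.Perm.PrimeDegree
import Cfsg.Agent.Lib.ClassSizes.TwoTrans

/-! The outer automorphism group of a simple group with a subgroup of prime index is solvable. -/

set_option autoImplicit false

namespace Cfsg.Agent.Lib.ClassSizes.PrimeIndexOut

open MulAction
open Cfsg.Agent.Lib.ClassSizes.TwoTrans

section twist

open Matrix

set_option linter.unusedSectionVars false

variable {Ω : Type*} [Fintype Ω] [DecidableEq Ω] {G : Type*} [Group G] [MulAction G Ω]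

/-- twisted invariance -/
def TwistInv (γ : MulAut G) (F : Matrix Ω Ω ℤ) : Prop :=
  ∀ (g : G) (x y : Ω), F (γ g • x) (g • y) = F x y

theorem twist_mul {α β : MulAut G} {F F' : Matrix Ω Ω ℤ} (hF : TwistInv α F) (hF' : TwistInv β F') :
    TwistInv (α * β) (F * F') := by
  intro g x y
  rw [Matrix.mul_apply, Matrix.mul_apply]
  rw [← Equiv.sum_comp (MulAction.toPerm (β g))]
  refine Finset.sum_congr rfl fun z _ => ?_
  exact congrArg₂ (· * ·) (hF (β g) x z) (hF' g z y)

variable (h2 : ∀ x y x' y' : Ω, x ≠ y → x' ≠ y' → ∃ g : G, g • x = x' ∧ g • y = y')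
  (hn : 2 ≤ Fintype.card Ω)

include h2 hn in
/-- A twist-invariant matrix is a combination of the incidence matrix and `J`. -/
theorem twist_span (γ : MulAut G) (o : Ω) (F : Matrix Ω Ω ℤ) (hF : TwistInv γ F) (κ l : ℤ)
    (hFJ : F * JJ = κ • JJ) (hMTM : (MM γ o o)ᵀ * MM γ o o =
      ((Nat.card (orbit ((stabilizer G o).map γ.toMonoidHom) o) : ℤ) - l) • 1 + l • JJ) :
    ∃ a e : ℤ, ((Nat.card (orbit ((stabilizer G o).map γ.toMonoidHom) o) : ℤ) - l) • F
      = a • MM γ o o + e • JJ := by
  set N := MM γ o o with hN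
  have hNinv : TwistInv γ N := MM_inv γ o o
  set k : ℤ := (Nat.card (orbit ((stabilizer G o).map γ.toMonoidHom) o) : ℤ) with hk
  have h1 : ∀ (g' : G) (x x' : Ω), (F * Nᵀ) (g' • x) (g' • x') = (F * Nᵀ) x x' := by
    intro g' x x'
    obtain ⟨g, rfl⟩ := γ.surjective g'
    simp only [Matrix.mul_apply, Matrix.transpose_apply]
    rw [← Equiv.sum_comp (MulAction.toPerm g)]
    refine Finset.sum_congr rfl fun y _ => ?_
    exact congrArg₂ (· * ·) (hF g x y) (hNinv g x' y)
  obtain ⟨a, b, hab⟩ := two_trans_form hn h2 _ h1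
  have hJN : JJ * N = k • JJ := by
    ext x y
    simp only [Matrix.mul_apply, JJ_apply, one_mul, Matrix.smul_apply, smul_eq_mul, mul_one]
    exact col_sum h2 hn γ o o y
  have h3 : F * (Nᵀ * N) = a • N + (b * k) • JJ := by
    rw [← mul_assoc, hab, add_mul, smul_mul_assoc, smul_mul_assoc, one_mul, hJN, smul_smul]
  rw [hMTM, mul_add, mul_smul_comm, mul_smul_comm, mul_one, hFJ, smul_smul] at h3
  refine ⟨a, b * k - l * κ, ?_⟩
  rw [eq_sub_of_add_eq h3, sub_smul]
  abel

omit [DecidableEq Ω] in
theorem c_ne_zero {n k l : ℤ} (hk1 : 1 ≤ k) (hkn : k < n) (hsum : k + (n - 1) * l = k ^ 2) :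
    k - l ≠ 0 := by
  intro h
  have hl : l = k := by omega
  subst hl
  have : l * (n - l) = 0 := by nlinarith
  rcases mul_eq_zero.mp this with h1 | h1 <;> omega

include h2 hn in
/-- Main commutation lemma. -/
theorem comm_of_comm (hfaith : ∀ g : G, (∀ x : Ω, g • x = x) → g = 1) (o : Ω)
    (hlt : ∀ γ : MulAut G, Nat.card (orbit ((stabilizer G o).map γ.toMonoidHom) o) < Fintype.card Ω)
    (α β : MulAut G) (hcomm : MM α o o * MM β o o = MM β o o * MM α o o) : α * β = β * α := by
  classical
  have hcne : ∀ γ : MulAut G, ∃ l : ℤ, MM γ o o * (MM γ o o)ᵀ =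
        ((Nat.card (orbit ((stabilizer G o).map γ.toMonoidHom) o) : ℤ) - l) • 1 + l • JJ ∧
      (MM γ o o)ᵀ * MM γ o o =
        ((Nat.card (orbit ((stabilizer G o).map γ.toMonoidHom) o) : ℤ) - l) • 1 + l • JJ ∧
      (Nat.card (orbit ((stabilizer G o).map γ.toMonoidHom) o) : ℤ) - l ≠ 0 := by
    intro γ
    obtain ⟨l, -, h1, h3, h4⟩ := form_M h2 hn γ o o
    refine ⟨l, h1, h3, c_ne_zero ?_ ?_ h4⟩
    · have : 0 < Nat.card (orbit ((stabilizer G o).map γ.toMonoidHom) o) := by
        rw [Nat.card_pos_iff]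
        exact ⟨⟨⟨o, mem_orbit_self o⟩⟩, inferInstance⟩
      omega
    · exact_mod_cast hlt γ
  obtain ⟨lα, hα1, hα2, hα3⟩ := hcne α
  obtain ⟨lβ, hβ1, hβ2, hβ3⟩ := hcne β
  obtain ⟨lγ, hγ1, hγ2, hγ3⟩ := hcne (α * β)
  obtain ⟨lδ, hδ1, hδ2, hδ3⟩ := hcne (β * α)
  set kα : ℤ := (Nat.card (orbit ((stabilizer G o).map α.toMonoidHom) o) : ℤ) with hkα
  set kβ : ℤ := (Nat.card (orbit ((stabilizer G o).map β.toMonoidHom) o) : ℤ) with hkβ
  set kγ : ℤ := (Nat.card (orbit ((stabilizer G o).map (α * β).toMonoidHom) o) : ℤ) with hkγ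
  set kδ : ℤ := (Nat.card (orbit ((stabilizer G o).map (β * α).toMonoidHom) o) : ℤ) with hkδ
  set Mα := MM α o o with hMα
  set Mβ := MM β o o with hMβ
  have hMαJ : Mα * JJ = kα • JJ := M_mul_J h2 hn α o o
  have hMβJ : Mβ * JJ = kβ • JJ := M_mul_J h2 hn β o o
  set F := Mα * Mβ with hF
  have hFJ : F * JJ = (kα * kβ) • JJ := by
    rw [hF, mul_assoc, hMβJ, mul_smul_comm, hMαJ, smul_smul, mul_comm]
  have hFJ' : F * JJ = (kα * kβ) • JJ := hFJ
  have hγinv : TwistInv (α * β) F := twist_mul (MM_inv α o o) (MM_inv β o o)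
  have hδinv : TwistInv (β * α) F := by
    rw [hcomm]
    exact twist_mul (MM_inv β o o) (MM_inv α o o)
  obtain ⟨a, e, hae⟩ := twist_span h2 hn (α * β) o F hγinv _ lγ hFJ hγ2
  obtain ⟨a', e', hae'⟩ := twist_span h2 hn (β * α) o F hδinv _ lδ hFJ hδ2
  rw [← hkγ] at hae
  rw [← hkδ] at hae'
  -- `a ≠ 0`
  have hJt : (JJ : Matrix Ω Ω ℤ) * Mαᵀ = kα • JJ := by
    have := congrArg Matrix.transpose hMαJ
    rwa [Matrix.transpose_mul, JJ_transpose, Matrix.transpose_smul, JJ_transpose] at this
  have hFF : F * Fᵀ = ((kβ - lβ) * (kα - lα)) • 1 +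
      ((kβ - lβ) * lα + lβ * (kα * kα)) • JJ := by
    rw [hF, Matrix.transpose_mul]
    have : Mα * Mβ * (Mβᵀ * Mαᵀ) = Mα * (Mβ * Mβᵀ) * Mαᵀ := by
      simp only [mul_assoc]
    rw [this, hβ1, mul_add, add_mul, mul_smul_comm, mul_smul_comm, smul_mul_assoc, smul_mul_assoc,
      mul_one, hα1, hMαJ, smul_mul_assoc, hJt]
    simp only [smul_add, smul_smul, add_smul, mul_assoc]
    abel
  have ha0 : a ≠ 0 := by
    rintro rfl
    rw [zero_smul, zero_add] at hae
    have h1 : (kγ - lγ) • ((kγ - lγ) • (F * Fᵀ)) = (e * e * Fintype.card Ω) • JJ := by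
      have h3 : ((kγ - lγ) • F) * ((kγ - lγ) • F)ᵀ = (e • JJ) * (e • JJ)ᵀ := by rw [hae]
      rw [Matrix.transpose_smul, Matrix.transpose_smul, JJ_transpose, smul_mul_smul_comm,
        smul_mul_smul_comm, JJ_mul_JJ, smul_smul] at h3
      rw [smul_smul, h3]
    rw [hFF, smul_add, smul_add, smul_smul, smul_smul, smul_smul, smul_smul] at h1
    have h4 := h1
    have h5 : ((kγ - lγ) * (kγ - lγ) * ((kβ - lβ) * (kα - lα))) • (1 : Matrix Ω Ω ℤ)
        + ((kγ - lγ) * (kγ - lγ) * ((kβ - lβ) * lα + lβ * (kα * kα))) • JJ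
        = (0 : ℤ) • 1 + (e * e * Fintype.card Ω) • JJ := by
      rw [zero_smul, zero_add]
      exact h4
    have h6 := (coeff_unique hn h5).1
    have : (kγ - lγ) * (kγ - lγ) * ((kβ - lβ) * (kα - lα)) ≠ 0 :=
      mul_ne_zero (mul_ne_zero hγ3 hγ3) (mul_ne_zero hβ3 hα3)
    exact this h6
  -- `N` is twist-invariant for `β * α`
  set N := MM (α * β) o o with hN
  set N' := MM (β * α) o o with hN'
  have hrel : ((kδ - lδ) * a) • N = ((kγ - lγ) * a') • N' + ((kγ - lγ) * e' - (kδ - lδ) * e) • JJ := by
    have h1 : (kδ - lδ) • ((kγ - lγ) • F) = (kγ - lγ) • ((kδ - lδ) • F) := smul_comm _ _ _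
    rw [hae, hae', smul_add, smul_add, smul_smul, smul_smul, smul_smul, smul_smul] at h1
    rw [eq_sub_of_add_eq h1, sub_smul]
    abel
  have hA : (kδ - lδ) * a ≠ 0 := mul_ne_zero hδ3 ha0
  have hNγ : TwistInv (α * β) N := MM_inv (α * β) o o
  have hN'δ : TwistInv (β * α) N' := MM_inv (β * α) o o
  have hNδ : TwistInv (β * α) N := by
    intro g x y
    have h1 := congrFun (congrFun hrel ((β * α) g • x)) (g • y)
    have h3 := congrFun (congrFun hrel x) y
    simp only [Matrix.add_apply, Matrix.smul_apply, JJ_apply, smul_eq_mul, mul_one] at h1 h3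
    rw [hN'δ g x y, ← h3] at h1
    exact mul_left_cancel₀ hA h1
  have hpt : ∀ (g : G) (x : Ω), (α * β) g • x = (β * α) g • x := by
    intro g x
    by_contra hne
    have hrows : ∀ y, N ((α * β) g • x) y = N ((β * α) g • x) y := by
      intro y
      have h1 := hNγ g x (g⁻¹ • y)
      have h3 := hNδ g x (g⁻¹ • y)
      rw [smul_inv_smul] at h1 h3
      rw [h1, h3]
    have h4 := congrFun (congrFun hγ1 ((α * β) g • x)) ((β * α) g • x)
    have h5 := congrFun (congrFun hγ1 ((α * β) g • x)) ((α * β) g • x)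
    simp only [Matrix.mul_apply, Matrix.transpose_apply, Matrix.add_apply, Matrix.smul_apply,
      Matrix.one_apply_ne hne, Matrix.one_apply_eq, JJ_apply, smul_eq_mul, mul_one, mul_zero,
      zero_add] at h4 h5
    have h6 : ∑ y, N ((α * β) g • x) y * N ((β * α) g • x) y
        = ∑ y, N ((α * β) g • x) y * N ((α * β) g • x) y :=
      Finset.sum_congr rfl fun y _ => by rw [hrows y]
    rw [h4, h5] at h6
    apply hγ3
    linarith
  ext g
  have h7 : ((α * β) g)⁻¹ * ((β * α) g) = 1 := by
    apply hfaith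
    intro x
    rw [mul_smul, ← hpt, inv_smul_smul]
  exact congrArg (fun u : G => u) ((inv_mul_eq_one.mp h7))

end twist

section circ

open Matrix

set_option linter.unusedSectionVars false

variable {Ω : Type*} [Fintype Ω] [DecidableEq Ω] {G : Type*} [Group G] [MulAction G Ω]

theorem circ_comm {p : ℕ} [NeZero p] (e : ZMod p ≃ Ω) (c : G)
    (he : ∀ i, c • e i = e (i + 1)) (α β : MulAut G) (hα : α c = c) (hβ : β c = c) (o : Ω) :
    MM α o o * MM β o o = MM β o o * MM α o o := by
  have hshift : ∀ (γ : MulAut G), γ c = c → ∀ i j, MM γ o o (e i) (e j)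
      = Matrix.circulant (fun t => MM γ o o (e t) (e 0)) i j := by
    intro γ hγ i j
    have h1 : ∀ x y, MM γ o o (e (x + 1)) (e (y + 1)) = MM γ o o (e x) (e y) := by
      intro x y
      rw [← he, ← he]
      have := MM_inv γ o o c (e x) (e y)
      rwa [hγ] at this
    have h2 : ∀ (n : ℕ) x y, MM γ o o (e (x + n)) (e (y + n)) = MM γ o o (e x) (e y) := by
      intro n
      induction n with
      | zero => intro x y; simp
      | succ n ih =>
        intro x y
        push_cast
        rw [← add_assoc, ← add_assoc, h1, ih]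
    rw [Matrix.circulant_apply]
    have := h2 j.val (i - j) 0
    simpa using this
  have hsub : ∀ γ : MulAut G, γ c = c → (MM γ o o).submatrix e e
      = Matrix.circulant (fun t => MM γ o o (e t) (e 0)) := by
    intro γ hγ
    ext i j
    simpa using hshift γ hγ i j
  have h1 := Matrix.circulant_mul_comm (fun t => MM α o o (e t) (e 0))
    (fun t => MM β o o (e t) (e 0))
  rw [← hsub α hα, ← hsub β hβ, Matrix.submatrix_mul_equiv, Matrix.submatrix_mul_equiv] at h1
  ext x y
  have := congrFun (congrFun h1 (e.symm x)) (e.symm y)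
  simpa using this

end circ

section final

open scoped commutatorElement

theorem exists_conj_pow {G : Type*} [Group G] [Finite G] {p : ℕ} [hp : Fact p.Prime]
    (hsq : ¬ p ^ 2 ∣ Nat.card G) (c : G) (hc : orderOf c = p) (α : MulAut G) :
    ∃ (g : G) (r : ℤ), α c = g * c ^ r * g⁻¹ := by
  have hcard : ∀ d : G, orderOf d = p →
      Nat.card (Subgroup.zpowers d) = p ^ (Nat.card G).factorization p := by
    intro d hd
    rw [Nat.card_zpowers, hd]
    have h1 : p ∣ Nat.card G := by
      rw [← hd]
      exact orderOf_dvd_natCard d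
    have h0 : Nat.card G ≠ 0 := Nat.card_pos.ne'
    have h2 : (Nat.card G).factorization p = 1 := by
      apply le_antisymm
      · by_contra hcon
        push Not at hcon
        exact hsq ((hp.out.pow_dvd_iff_le_factorization h0).mpr hcon)
      · apply (hp.out.pow_dvd_iff_le_factorization h0).mp
        simpa using h1
    rw [h2, pow_one]
  have hαc : orderOf (α c) = p := by
    rw [← hc]
    exact MulEquiv.orderOf_eq α c
  let P := Sylow.ofCard (Subgroup.zpowers c) (hcard c hc)
  let Q := Sylow.ofCard (Subgroup.zpowers (α c)) (hcard (α c) hαc)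
  obtain ⟨g, hg⟩ := MulAction.exists_smul_eq G P Q
  have h1 : α c ∈ (Q : Subgroup G) := by
    change α c ∈ Subgroup.zpowers (α c)
    exact Subgroup.mem_zpowers _
  rw [← hg, Sylow.coe_subgroup_smul] at h1
  obtain ⟨y, hy, hy2⟩ := Subgroup.mem_map.mp h1
  obtain ⟨r, rfl⟩ := Subgroup.mem_zpowers_iff.mp (show y ∈ Subgroup.zpowers c from hy)
  refine ⟨g, r, ?_⟩
  rw [← hy2]
  rfl

/-- The group-theoretic reduction. -/
theorem out_solvable_of_comm {G : Type*} [Group G] (c : G)
    (hfr : ∀ α : MulAut G, ∃ (g : G) (r : ℤ), α c = g * c ^ r * g⁻¹)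
    (hcomm : ∀ α β : MulAut G, α c = c → β c = c → α * β = β * α) :
    Group.IsSolvable (Cfsg.Out G) := by
  let q : MulAut G →* Cfsg.Out G := QuotientGroup.mk' (Cfsg.Inn G)
  have hq : Function.Surjective q := QuotientGroup.mk'_surjective _
  -- normalised representatives
  have hrep : ∀ x : Cfsg.Out G, ∃ (a : MulAut G) (r : ℤ), q a = x ∧ a c = c ^ r := by
    intro x
    obtain ⟨α, rfl⟩ := hq x
    obtain ⟨g, r, hg⟩ := hfr α
    refine ⟨(MulAut.conj g)⁻¹ * α, r, ?_, ?_⟩
    · rw [map_mul]
      have : q (MulAut.conj g)⁻¹ = 1 := by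
        rw [map_inv]
        have h2 : q (MulAut.conj g) = 1 := by
          change ((MulAut.conj g : MulAut G) : Cfsg.Out G) = 1
          rw [QuotientGroup.eq_one_iff]
          exact ⟨g, rfl⟩
        rw [h2, inv_one]
      rw [this, one_mul]
    · change (MulAut.conj g)⁻¹ (α c) = c ^ r
      rw [hg, MulAut.conj_inv_apply]
      group
  let CA : Subgroup (MulAut G) :=
    { carrier := {γ | γ c = c}
      mul_mem' := by
        intro a b ha hb
        change a (b c) = c
        rw [show b c = c from hb]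
        exact ha
      one_mem' := rfl
      inv_mem' := by
        intro a ha
        change a⁻¹ c = c
        have h := MulAut.inv_apply_self G a c
        rwa [show a c = c from ha] at h }
  have hcomm1 : ∀ x y : Cfsg.Out G, ⁅x, y⁆ ∈ CA.map q := by
    intro x y
    obtain ⟨a, r, ha, har⟩ := hrep x⁻¹
    obtain ⟨b, s, hb, hbs⟩ := hrep y⁻¹
    have hx : q a⁻¹ = x := by rw [map_inv, ha, inv_inv]
    have hy : q b⁻¹ = y := by rw [map_inv, hb, inv_inv]
    refine ⟨(b * a)⁻¹ * (a * b), ?_, ?_⟩
    · change ((b * a)⁻¹ * (a * b)) c = c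
      have h1 : (a * b) c = c ^ (s * r) := by
        change a (b c) = _
        rw [hbs, map_zpow, har, ← _root_.zpow_mul, mul_comm]
      have h2 : (b * a) c = c ^ (s * r) := by
        change b (a c) = _
        rw [har, map_zpow, hbs, ← _root_.zpow_mul]
      change (b * a)⁻¹ ((a * b) c) = c
      rw [h1, ← h2]
      exact MulAut.inv_apply_self G (b * a) c
    · rw [← hx, ← hy, commutatorElement_def]
      simp only [map_mul, map_inv, inv_inv, mul_inv_rev]
      group
  have hD : ∀ x ∈ CA.map q, ∀ y ∈ CA.map q, ⁅x, y⁆ = 1 := by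
    rintro _ ⟨a, ha, rfl⟩ _ ⟨b, hb, rfl⟩
    rw [commutatorElement_eq_one_iff_mul_comm, ← map_mul, ← map_mul, hcomm a b ha hb]
  refine ⟨⟨2, ?_⟩⟩
  have h1 : derivedSeries (Cfsg.Out G) 1 ≤ CA.map q := by
    rw [derivedSeries_succ, derivedSeries_zero, Subgroup.commutator_le]
    intro g₁ _ g₂ _
    exact hcomm1 g₁ g₂
  rw [derivedSeries_succ, le_bot_iff.symm, Subgroup.commutator_le]
  intro g₁ h₁ g₂ h₂
  rw [hD g₁ (h1 h₁) g₂ (h1 h₂)]
  exact Subgroup.one_mem _

theorem main_nonabelian {G : Type*} [Group G] [Finite G] {Ω : Type*} [Fintype Ω] [DecidableEq Ω]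
    [MulAction G Ω] {p : ℕ} [hp : Fact p.Prime] (hcard : Fintype.card Ω = p)
    (h2 : ∀ x y x' y' : Ω, x ≠ y → x' ≠ y' → ∃ g : G, g • x = x' ∧ g • y = y')
    (hfaith : ∀ g : G, (∀ x : Ω, g • x = x) → g = 1)
    (hsq : ¬ p ^ 2 ∣ Nat.card G) (c : G) (hc : orderOf c = p) (α β : MulAut G)
    (hα : α c = c) (hβ : β c = c) : α * β = β * α := by
  have hn : 2 ≤ Fintype.card Ω := by
    rw [hcard]
    exact hp.out.two_le
  have hpre : ∀ x y : Ω, ∃ g : G, g • x = y := pretrans h2 hn
  have hc1 : c ≠ 1 := by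
    rintro rfl
    rw [orderOf_one] at hc
    exact hp.out.one_lt.ne hc
  obtain ⟨o, ho⟩ : ∃ o : Ω, c • o ≠ o := by
    by_contra hcon
    push Not at hcon
    exact hc1 (hfaith c hcon)
  have hzp : ∀ m : ℤ, c ^ m • o = o → (p : ℤ) ∣ m := by
    intro m hm
    by_contra hnd
    have hco : IsCoprime m (p : ℤ) := by
      have := (Nat.prime_iff_prime_int.mp hp.out).coprime_iff_not_dvd.mpr hnd
      exact this.symm
    obtain ⟨u, v, huv⟩ := hco
    have hcp : c ^ (p : ℤ) = 1 := by
      rw [zpow_natCast, ← hc]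
      exact pow_orderOf_eq_one c
    have hE : ∀ k : ℤ, (c ^ m) ^ k • o = o := by
      intro k
      have : c ^ m ∈ MulAction.stabilizer G o := hm
      have h3 : (c ^ m) ^ k ∈ MulAction.stabilizer G o := Subgroup.zpow_mem _ this k
      exact h3
    apply ho
    have h4 : c = (c ^ m) ^ u := by
      calc c = c ^ (u * m + v * (p : ℤ)) := by rw [huv, zpow_one]
        _ = (c ^ m) ^ u := by
          rw [_root_.zpow_add, _root_.zpow_mul, mul_comm v, _root_.zpow_mul, hcp, one_zpow, mul_one,
            ← _root_.zpow_mul, ← _root_.zpow_mul, mul_comm]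
    rw [h4]
    exact hE u
  let f : ZMod p → Ω := fun i => c ^ i.val • o
  have hfinj : Function.Injective f := by
    intro i j hij
    have h3 : c ^ ((i.val : ℤ) - (j.val : ℤ)) • o = o := by
      change c ^ i.val • o = c ^ j.val • o at hij
      rw [sub_eq_neg_add, _root_.zpow_add, zpow_natCast, zpow_neg, zpow_natCast, mul_smul, hij,
        inv_smul_smul]
    have h5 := hzp _ h3
    have hi : i.val < p := ZMod.val_lt i
    have hj : j.val < p := ZMod.val_lt j
    have h6 : (i.val : ℤ) = j.val := by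
      obtain ⟨k, hk⟩ := h5
      have hk0 : k = 0 := by
        by_contra hne
        have hpos : (0 : ℤ) < p := by exact_mod_cast hp.out.pos
        rcases lt_or_gt_of_ne hne with hlt | hgt
        · nlinarith
        · nlinarith
      rw [hk0, mul_zero] at hk
      omega
    exact ZMod.val_injective p (by exact_mod_cast h6)
  have hfbij : Function.Bijective f :=
    (Fintype.bijective_iff_injective_and_card f).mpr ⟨hfinj, by rw [ZMod.card, hcard]⟩
  let e : ZMod p ≃ Ω := Equiv.ofBijective f hfbij
  have he : ∀ i, c • e i = e (i + 1) := by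
    intro i
    change c • c ^ i.val • o = c ^ (i + 1).val • o
    rw [← mul_smul, ← pow_succ']
    congr 1
    rw [← pow_mod_orderOf c (i.val + 1), hc]
    congr 1
    have : Fact (1 < p) := ⟨hp.out.one_lt⟩
    rw [ZMod.val_add, ZMod.val_one]
  have hcm : MM α o o * MM β o o = MM β o o * MM α o o := circ_comm e c he α β hα hβ o
  refine comm_of_comm h2 hn hfaith o ?_ α β hcm
  -- the orbit bound
  intro γ
  set K := (MulAction.stabilizer G o).map γ.toMonoidHom with hK
  have hKcard : Nat.card K = Nat.card (MulAction.stabilizer G o) :=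
    Subgroup.card_map_of_injective γ.injective
  have hidx : (MulAction.stabilizer G o).index = p := by
    rw [MulAction.index_stabilizer]
    have : MulAction.orbit G o = Set.univ := by
      ext y
      simp only [Set.mem_univ, iff_true]
      exact hpre o y
    rw [this, Set.ncard_univ, Nat.card_eq_fintype_card, hcard]
  have hmul : p * Nat.card (MulAction.stabilizer G o) = Nat.card G := by
    rw [← hidx]
    exact Subgroup.index_mul_card _
  have hnd : ¬ p ∣ Nat.card K := by
    intro hd
    rw [hKcard] at hd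
    apply hsq
    rw [← hmul, sq]
    exact Nat.mul_dvd_mul_left p hd
  have hle : Nat.card (MulAction.orbit K o) ≤ Fintype.card Ω := by
    rw [← Nat.card_eq_fintype_card]
    exact Nat.card_le_card_of_injective _ Subtype.val_injective
  have hne : Nat.card (MulAction.orbit K o) ≠ Fintype.card Ω := by
    intro heq
    apply hnd
    rw [hcard] at heq
    rw [← heq, Nat.card_coe_set_eq, ← MulAction.index_stabilizer]
    exact Subgroup.index_dvd_card _
  omega

/-- The theorem. -/
theorem main {G : Type*} [Group G] [Finite G] [IsSimpleGroup G] (H : Subgroup G)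
    (hH : H.index.Prime) : Group.IsSolvable (Cfsg.Out G) := by
  classical
  by_cases hab : ∀ a b : G, a * b = b * a
  · letI : CommGroup G := { ‹Group G› with mul_comm := hab }
    haveI : IsCyclic G := IsSimpleGroup.isCyclic
    obtain ⟨c, hc⟩ := IsCyclic.exists_generator (α := G)
    refine out_solvable_of_comm c ?_ ?_
    · intro α
      obtain ⟨r, hr⟩ := Subgroup.mem_zpowers_iff.mp (hc (α c))
      exact ⟨1, r, by rw [← hr]; simp⟩
    · intro α β hα hβ
      have hone : ∀ γ : MulAut G, γ c = c → γ = 1 := by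
        intro γ hγ
        ext x
        obtain ⟨r, rfl⟩ := Subgroup.mem_zpowers_iff.mp (hc x)
        rw [map_zpow, hγ]
        rfl
      rw [hone α hα, hone β hβ]
  · -- nonabelian case
    letI : Fintype (G ⧸ H) := Fintype.ofFinite _
    set p := H.index with hp_def
    haveI hp : Fact p.Prime := ⟨hH⟩
    have hcard : Fintype.card (G ⧸ H) = p := by
      rw [← Nat.card_eq_fintype_card]
      exact (Subgroup.index_eq_card H).symm
    -- faithful
    have hfaith : ∀ g : G, (∀ x : G ⧸ H, g • x = x) → g = 1 := by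
      have hker := (MulAction.toPermHom G (G ⧸ H)).normal_ker
      rcases hker.eq_bot_or_eq_top with h | h
      · intro g hg
        have : g ∈ (MulAction.toPermHom G (G ⧸ H)).ker := by
          rw [MonoidHom.mem_ker]
          ext x
          exact hg x
        rw [h] at this
        exact (Subgroup.mem_bot).mp this
      · exfalso
        have htop : H = ⊤ := by
          rw [eq_top_iff]
          intro g _
          have h1 : g ∈ (MulAction.toPermHom G (G ⧸ H)).ker := by
            rw [h]
            trivial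
          rw [MonoidHom.mem_ker] at h1
          have h2 : g • ((1 : G) : G ⧸ H) = ((1 : G) : G ⧸ H) := by
            have := congrArg (fun σ => σ ((1 : G) : G ⧸ H)) h1
            exact this
          rw [MulAction.Quotient.smul_coe, QuotientGroup.eq] at h2
          simpa using (H.inv_mem h2)
        rw [htop, Subgroup.index_top] at hp_def
        rw [hp_def] at hH
        exact Nat.not_prime_one hH
    have hinj : Function.Injective (MulAction.toPermHom G (G ⧸ H)) := by
      rw [injective_iff_map_eq_one]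
      intro g hg
      apply hfaith
      intro x
      have := congrArg (fun σ => σ x) hg
      exact this
    let G' := (MulAction.toPermHom G (G ⧸ H)).range
    have hG'card : Nat.card G' = Nat.card G := by
      exact Nat.card_congr (MonoidHom.ofInjective hinj).symm.toEquiv
    have hsq : ¬ p ^ 2 ∣ Nat.card G := by
      rw [← hG'card]
      exact Cfsg.Agent.Lib.Perm.not_sq_dvd_card hcard G'
    haveI hpre : MulAction.IsPretransitive G' (G ⧸ H) := by
      refine ⟨fun x y => ?_⟩
      obtain ⟨g, hg⟩ := MulAction.exists_smul_eq G x y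
      exact ⟨⟨MulAction.toPermHom G (G ⧸ H) g, ⟨g, rfl⟩⟩, hg⟩
    have hcp : (Fintype.card (G ⧸ H)).Prime := by
      rw [hcard]
      exact hH
    have h2 : ∀ x y x' y' : G ⧸ H, x ≠ y → x' ≠ y' → ∃ g : G, g • x = x' ∧ g • y = y' := by
      rcases Cfsg.Agent.S0675.result hcp G' with hs | hm
      · exfalso
        haveI := hs
        have : Group.IsSolvable G :=
          Group.isSolvable_of_isSolvable_injective (f := MonoidHom.rangeRestrict _) (by
            intro a b hab'
            apply hinj
            exact congrArg Subtype.val hab')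
        exact hab (IsSimpleGroup.comm_iff_isSolvable.mpr this)
      · rw [MulAction.is_two_pretransitive_iff] at hm
        intro x y x' y' hxy hxy'
        obtain ⟨⟨_, g, rfl⟩, hg1, hg2⟩ := hm hxy hxy'
        exact ⟨g, hg1, hg2⟩
    have hpd : p ∣ Nat.card G := by
      rw [hp_def]
      exact Subgroup.index_dvd_card H
    obtain ⟨c, hc⟩ := exists_prime_orderOf_dvd_card' p hpd
    refine out_solvable_of_comm c (exists_conj_pow hsq c hc) ?_
    intro α β hα hβ
    exact main_nonabelian hcard h2 hfaith hsq c hc α β hα hβ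

end final

end Cfsg.Agent.Lib.ClassSizes.PrimeIndexOut
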