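import Mathlib

/-!
# Fixed-point-free actions of the symmetric group of degree three (group part)
-/

namespace Cfsg.Agent.Lib.ClassSizes.S3F

/-- An action of the symmetric group of degree three by automorphisms, with trivial fixed points,
given by its generators. -/
structure S3A (G : Type*) [Group G] where
  a : G ≃* G
  b : G ≃* G
  a3 : ∀ x, a (a (a x)) = x
  b2 : ∀ x, b (b x) = x
  ba : ∀ x, b (a x) = a (a (b x))
  fpf : ∀ x, a x = x → b x = x → x = 1

/-- Exponent root: in a group of order coprime to `k`, `k`-th powers can be undone uniformly. -/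
lemma exists_root_exp {G : Type*} [Group G] [Finite G] (k : ℕ) (h : (Nat.card G).Coprime k) :
    ∃ s : ℕ, ∀ x : G, (x ^ k) ^ s = x := by
  by_cases h1 : Nat.card G = 1
  · refine ⟨1, fun x => ?_⟩
    have : Subsingleton G := (Nat.card_eq_one_iff_unique.1 h1).1
    exact Subsingleton.elim _ _
  · have hpos : 0 < Nat.card G := Nat.card_pos
    have h2 : 1 < Nat.card G := by omega
    obtain ⟨m, -, hm⟩ := Nat.exists_mul_mod_eq_one_of_coprime h.symm h2
    refine ⟨m, fun x => ?_⟩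
    rw [← pow_mul]
    conv_rhs => rw [← pow_one x]
    rw [← hm, pow_mod_natCard]

lemma hom_eq_one_of_pow {G R : Type*} [Group G] [Finite G] [Monoid R] (π : G →* R) (k : ℕ)
    (h : (Nat.card G).Coprime k) (x : G) (hx : π x ^ k = 1) : π x = 1 := by
  obtain ⟨s, hs⟩ := exists_root_exp k h
  rw [← hs x, map_pow, map_pow, hx, one_pow]

/-- A prime-order automorphism has a fixed point on any invariant coset of a subgroup of order
prime to `p`. -/
lemma lift_fix {G : Type*} [Group G] [Finite G] (φ : G ≃* G) (p : ℕ) [hp : Fact p.Prime]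
    (hφ : ∀ x, φ^[p] x = x) (D : Subgroup G) (hD : ∀ d ∈ D, φ d ∈ D)
    (hcop : ¬ p ∣ Nat.card D) (x : G) (hx : x⁻¹ * φ x ∈ D) :
    ∃ y, φ y = y ∧ x⁻¹ * y ∈ D := by
  classical
  let C := {y : G // x⁻¹ * y ∈ D}
  have hstep : ∀ y : C, x⁻¹ * φ y.1 ∈ D := fun y => by
    have : x⁻¹ * φ y.1 = (x⁻¹ * φ x) * φ (x⁻¹ * y.1) := by
      rw [map_mul, map_inv]; group
    rw [this]
    exact D.mul_mem hx (hD _ y.2)
  let f : Function.End C := fun y => ⟨φ y.1, hstep y⟩
  have hf : f ^ p ^ 1 = 1 := by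
    rw [pow_one]
    funext y
    apply Subtype.ext
    have key : ∀ n : ℕ, ((f ^ n) y).1 = φ^[n] y.1 := by
      intro n
      induction n with
      | zero => rfl
      | succ n ih =>
        rw [pow_succ', Function.iterate_succ_apply']
        change φ ((f ^ n) y).1 = _
        rw [ih]
    rw [key, hφ]
    rfl
  have : Fintype C := Fintype.ofFinite _
  have hcard : Nat.card C = Nat.card D := by
    refine Nat.card_congr ⟨fun y => ⟨x⁻¹ * y.1, y.2⟩, fun d => ⟨x * d.1, by simp⟩, ?_, ?_⟩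
    · intro y; apply Subtype.ext; simp
    · intro d; apply Subtype.ext; simp
  have hmod := Equiv.Perm.card_fixedPoints_modEq (f := f) (p := p) (n := 1) hf
  have hne : (Function.fixedPoints f).Nonempty := by
    by_contra hempty
    rw [Set.not_nonempty_iff_eq_empty] at hempty
    have h0 : Fintype.card (Function.fixedPoints f) = 0 := by
      rw [Fintype.card_eq_zero_iff, hempty]
      exact Set.isEmpty_coe_sort.2 rfl
    rw [h0] at hmod
    apply hcop
    rw [← hcard, Nat.card_eq_fintype_card]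
    exact (Nat.modEq_zero_iff_dvd).1 hmod
  obtain ⟨y, hy⟩ := hne
  refine ⟨y.1, ?_, y.2⟩
  have := congrArg Subtype.val hy
  exact this

/-- An automorphism of order dividing 2 of a finite group, without nontrivial fixed points on the
invariant subgroup `D`, inverts `D`. -/
lemma inv_of_fpf {G : Type*} [Group G] [Finite G] (φ : G ≃* G) (hφ : ∀ x, φ (φ x) = x)
    (D : Subgroup G) (hD : ∀ d ∈ D, φ d ∈ D) (hfix : ∀ d ∈ D, φ d = d → d = 1) :
    ∀ d ∈ D, φ d = d⁻¹ := by
  let f : D → D := fun x => ⟨x.1⁻¹ * φ x.1, D.mul_mem (D.inv_mem x.2) (hD _ x.2)⟩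
  have hinj : Function.Injective f := by
    intro x y hxy
    have h : x.1⁻¹ * φ x.1 = y.1⁻¹ * φ y.1 := congrArg Subtype.val hxy
    have h2 : φ (y.1 * x.1⁻¹) = y.1 * x.1⁻¹ := by
      rw [map_mul, map_inv]
      have : φ y.1 = y.1 * (x.1⁻¹ * φ x.1) := by rw [h]; group
      rw [this]; group
    have h3 := hfix _ (D.mul_mem y.2 (D.inv_mem x.2)) h2
    apply Subtype.ext
    exact (mul_inv_eq_one.1 h3).symm
  have hsurj := Finite.surjective_of_injective hinj
  intro d hd
  obtain ⟨x, hx⟩ := hsurj ⟨d, hd⟩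
  have h : x.1⁻¹ * φ x.1 = d := congrArg Subtype.val hx
  rw [← h, map_mul, map_inv, hφ]
  group

namespace S3A

variable {G : Type*} [Group G] (σ : S3A G)

lemma baa (x : G) : σ.b (σ.a (σ.a x)) = σ.a (σ.b x) := by
  rw [σ.ba, σ.ba, σ.a3]

/-- Invariant subgroups. -/
def Inv (D : Subgroup G) : Prop := (∀ x ∈ D, σ.a x ∈ D) ∧ (∀ x ∈ D, σ.b x ∈ D)

lemma comm_mem_a {φ : G ≃* G} {x : G} (hx : x ∈ commutator G) : φ x ∈ commutator G := by
  have h : (commutator G).map φ.toMonoidHom ≤ commutator G := by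
    rw [commutator_def, Subgroup.map_commutator]
    exact Subgroup.commutator_mono le_top le_top
  exact h ⟨x, hx, rfl⟩

lemma inv_commutator : σ.Inv (commutator G) :=
  ⟨fun _ hx => comm_mem_a hx, fun _ hx => comm_mem_a hx⟩

/-- The rotated involution. -/
def rot : S3A G where
  a := σ.a
  b := σ.b.trans σ.a
  a3 := σ.a3
  b2 := fun x => by
    change σ.a (σ.b (σ.a (σ.b x))) = x
    rw [σ.ba, σ.a3, σ.b2]
  ba := fun x => by
    change σ.a (σ.b (σ.a x)) = σ.a (σ.a (σ.a (σ.b x)))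
    rw [σ.ba]
  fpf := fun x h1 h2 => by
    have h2' : σ.a (σ.b x) = x := h2
    apply σ.fpf x h1
    have : σ.a (σ.b x) = σ.a x := by rw [h2', h1]
    exact σ.a.injective this

@[simp] lemma rot_a : σ.rot.a = σ.a := rfl
lemma rot_b (x : G) : σ.rot.b x = σ.a (σ.b x) := rfl

section finite

variable [Finite G]

lemma not_dvd_of_sub (D : Subgroup G) {k : ℕ} (hk : k ∣ 6) (h1 : k ≠ 1) (hp : k.Prime)
    (hc : (Nat.card G).Coprime 6) : ¬ k ∣ Nat.card D := by
  intro h
  have h2 : k ∣ Nat.card G := h.trans (Subgroup.card_subgroup_dvd_card D)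
  have := Nat.eq_one_of_dvd_coprimes hc h2 hk
  exact h1 this

lemma lift_a (hc : (Nat.card G).Coprime 6) (D : Subgroup G) (hD : ∀ d ∈ D, σ.a d ∈ D) (x : G)
    (hx : x⁻¹ * σ.a x ∈ D) : ∃ y, σ.a y = y ∧ x⁻¹ * y ∈ D := by
  haveI : Fact (Nat.Prime 3) := ⟨by norm_num⟩
  exact lift_fix σ.a 3 (fun x => σ.a3 x) D hD
    (not_dvd_of_sub D (by norm_num) (by norm_num) (by norm_num) hc) x hx

lemma lift_b (hc : (Nat.card G).Coprime 6) (D : Subgroup G) (hD : ∀ d ∈ D, σ.b d ∈ D) (x : G)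
    (hx : x⁻¹ * σ.b x ∈ D) : ∃ y, σ.b y = y ∧ x⁻¹ * y ∈ D := by
  haveI : Fact (Nat.Prime 2) := ⟨by norm_num⟩
  exact lift_fix σ.b 2 (fun x => σ.b2 x) D hD
    (not_dvd_of_sub D (by norm_num) (by norm_num) (by norm_num) hc) x hx

/-- The fixed points of `a` as a subgroup. -/
def fixA : Subgroup G where
  carrier := {x | σ.a x = x}
  one_mem' := map_one _
  mul_mem' := fun {x y} hx hy => by
    simp only [Set.mem_setOf_eq] at *
    rw [map_mul, hx, hy]
  inv_mem' := fun {x} hx => by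
    simp only [Set.mem_setOf_eq] at *
    rw [map_inv, hx]

@[simp] lemma mem_fixA {x : G} : x ∈ σ.fixA ↔ σ.a x = x := Iff.rfl

lemma b_mem_fixA {x : G} (hx : σ.a x = x) : σ.a (σ.b x) = σ.b x := by
  rw [← σ.baa, hx, hx]

lemma fixA_inv {x : G} (hx : σ.a x = x) : σ.b x = x⁻¹ :=
  inv_of_fpf σ.b σ.b2 σ.fixA (fun _ hd => σ.b_mem_fixA hd) (fun d hd h => σ.fpf d hd h) x hx

/-- The fixed points of `a` commute. -/
lemma fixA_comm {x y : G} (hx : σ.a x = x) (hy : σ.a y = y) : x * y = y * x := by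
  have hxy : σ.a (x * y) = x * y := by rw [map_mul, hx, hy]
  have h1 := σ.fixA_inv hxy
  rw [map_mul, σ.fixA_inv hx, σ.fixA_inv hy, mul_inv_rev] at h1
  have h2 : (x⁻¹ * y⁻¹)⁻¹ = (y⁻¹ * x⁻¹)⁻¹ := by rw [h1]
  simpa using h2.symm

/-- A coset fixed by both generators, modulo a normal invariant subgroup, is trivial. -/
lemma fpf_mod (hc : (Nat.card G).Coprime 6) (D : Subgroup G) [D.Normal] (hD : σ.Inv D) (x : G)
    (h1 : x⁻¹ * σ.a x ∈ D) (h2 : x⁻¹ * σ.b x ∈ D) : x ∈ D := by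
  obtain ⟨y, hy, hxy⟩ := σ.lift_a hc D hD.1 x h1
  -- `y = x d` with `d ∈ D`.
  let E : Subgroup G := D ⊓ σ.fixA
  have hEb : ∀ d ∈ E, σ.b d ∈ E := fun d hd =>
    ⟨hD.2 d hd.1, σ.b_mem_fixA hd.2⟩
  have hy2 : y⁻¹ * σ.b y ∈ E := by
    constructor
    · have e1 : y⁻¹ * σ.b y = (x⁻¹ * y)⁻¹ * (x⁻¹ * σ.b x) * (σ.b x)⁻¹ * (x * (x⁻¹ * σ.b y)) := by
        group
      have e2 : x⁻¹ * σ.b y = (x⁻¹ * σ.b x) * σ.b (x⁻¹ * y) := by
        rw [map_mul, map_inv]; group
      have h3 : x⁻¹ * σ.b y ∈ D := by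
        rw [e2]; exact D.mul_mem h2 (hD.2 _ hxy)
      -- `y⁻¹ b y` is the conjugate by `y⁻¹ x` of `x⁻¹ b y`.
      have e3 : y⁻¹ * σ.b y = (y⁻¹ * x) * (x⁻¹ * σ.b y) := by group
      rw [e3]
      exact D.mul_mem (by simpa using D.inv_mem hxy) h3
    · change σ.a _ = _
      rw [map_mul, map_inv, hy, σ.b_mem_fixA hy]
  obtain ⟨z, hz, hyz⟩ := σ.lift_b hc E hEb y hy2
  have hza : σ.a z = z := by
    have : z = y * (y⁻¹ * z) := by group
    rw [this, map_mul, hy, hyz.2]
  have hz1 : z = 1 := σ.fpf z hza hz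
  rw [hz1] at hyz
  have h4 : y⁻¹ ∈ D := by simpa using hyz.1
  have h5 : y ∈ D := by simpa using D.inv_mem h4
  have h6 : x = y * (x⁻¹ * y)⁻¹ := by group
  rw [h6]
  exact D.mul_mem h5 (D.inv_mem hxy)

/-- Membership in the derived subgroup modulo commuting. -/
lemma inv_mul_mem_commutator {x y : G}
    (h : Abelianization.of x = Abelianization.of y) : x⁻¹ * y ∈ commutator G := by
  have h2 : (QuotientGroup.mk x : G ⧸ commutator G) = QuotientGroup.mk y := h
  exact QuotientGroup.eq.1 h2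

/-- The "a-norm" of an element fixed by `b` lies in the derived subgroup. -/
lemma norm_mem_commutator (hc : (Nat.card G).Coprime 6) {u : G} (hu : σ.b u = u) :
    u * σ.a u * σ.a (σ.a u) ∈ commutator G := by
  apply σ.fpf_mod hc (commutator G) σ.inv_commutator
  · apply inv_mul_mem_commutator
    have : σ.a (u * σ.a u * σ.a (σ.a u)) = σ.a u * σ.a (σ.a u) * u := by
      rw [map_mul, map_mul, σ.a3]
    rw [this]
    simp only [map_mul]
    ac_rfl
  · apply inv_mul_mem_commutator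
    have : σ.b (u * σ.a u * σ.a (σ.a u)) = u * σ.a (σ.a u) * σ.a u := by
      rw [map_mul, map_mul, σ.ba, σ.baa, hu]
    rw [this]
    simp only [map_mul]
    ac_rfl

/-- The "a-norm" of an arbitrary element is fixed by `a` modulo the derived subgroup. -/
lemma norm_a_mod (u : G) :
    (u * σ.a u * σ.a (σ.a u))⁻¹ * σ.a (u * σ.a u * σ.a (σ.a u)) ∈ commutator G := by
  apply inv_mul_mem_commutator
  have : σ.a (u * σ.a u * σ.a (σ.a u)) = σ.a u * σ.a (σ.a u) * u := by
    rw [map_mul, map_mul, σ.a3]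
  rw [this]
  simp only [map_mul]
  ac_rfl

end finite

end S3A

end Cfsg.Agent.Lib.ClassSizes.S3F
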