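import Mathlib
import Cfsg.Agent.Lib.ClassSizes.S3F1

/-!
# Fixed-point-free actions of the symmetric group of degree three: trivial action of `b`

If `b` acts trivially on a quotient of a metabelian group with a fixed-point-free action of `S₃`,
of order coprime to `6`, then that quotient is abelian.
-/

namespace Cfsg.Agent.Lib.ClassSizes.S3F

/-- Abstract identity used in the first stage. -/
lemma alg4 {R : Type*} [Group R] (E Y F e X t s : R)
    (he : e * E * E = 1) (hF : F = X * Y * Y)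
    (ht : t = e * X * e⁻¹ * X⁻¹) (hs : s = E * Y * E⁻¹ * Y⁻¹) (hts : t * s * s = 1)
    (hc1 : F * ((Y * Y)⁻¹ * (E * E) * (Y * Y)) = ((Y * Y)⁻¹ * (E * E) * (Y * Y)) * F)
    (hc2 : E * (Y * E * Y⁻¹) = (Y * E * Y⁻¹) * E)
    (hc3 : (E * E) * ((Y * Y)⁻¹ * (E * E) * (Y * Y)) = ((Y * Y)⁻¹ * (E * E) * (Y * Y)) * (E * E)) :
    (E * E) * (Y * Y * Y) = (Y * Y * Y) * (E * E) := by
  set A := (Y * Y)⁻¹ * (E * E) * (Y * Y) with hA
  have he' : e = (E * E)⁻¹ := by
    apply eq_inv_of_mul_eq_one_left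
    rw [← mul_assoc, he]
  have hX : X = F * (Y * Y)⁻¹ := by rw [hF]; group
  have ht' : t = (E * E)⁻¹ * A := by
    have h1 : t = (E * E)⁻¹ * (F * A * F⁻¹) := by
      rw [ht, he', hX, hA]; simp [mul_assoc]
    rw [h1, hc1]; simp [mul_assoc]
  set B := Y * E * Y⁻¹ with hB
  have hs' : s = E * B⁻¹ := by rw [hs, hB]; group
  have hcB : Commute E B := hc2
  have hss : s * s = (E * E) * (B⁻¹ * B⁻¹) := by
    rw [hs']
    have : B⁻¹ * E = E * B⁻¹ := (hcB.inv_right).eq.symm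
    calc E * B⁻¹ * (E * B⁻¹) = E * (B⁻¹ * E) * B⁻¹ := by group
      _ = E * (E * B⁻¹) * B⁻¹ := by rw [this]
      _ = _ := by group
  have h3 : t * (s * s) = 1 := by rw [← mul_assoc, hts]
  rw [ht', hss] at h3
  have h4 : A * (B⁻¹ * B⁻¹) = 1 := by
    have h5 : (E * E)⁻¹ * A * (E * E * (B⁻¹ * B⁻¹)) = (E * E)⁻¹ * (A * (E * E)) * (B⁻¹ * B⁻¹) := by
      group
    rw [h5, ← hc3] at h3
    have h6 : (E * E)⁻¹ * (E * E * A) * (B⁻¹ * B⁻¹) = A * (B⁻¹ * B⁻¹) := by group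
    rwa [h6] at h3
  have h7 : A = B * B := by
    have : A = (B⁻¹ * B⁻¹)⁻¹ := eq_inv_of_mul_eq_one_left h4
    rw [this]; simp [mul_assoc]
  have h8 : (Y * Y)⁻¹ * (E * E) * (Y * Y) = Y * (E * E) * Y⁻¹ := by
    rw [← hA, h7, hB]; group
  calc (E * E) * (Y * Y * Y) = (Y * Y) * ((Y * Y)⁻¹ * (E * E) * (Y * Y)) * Y := by group
    _ = (Y * Y) * (Y * (E * E) * Y⁻¹) * Y := by rw [h8]
    _ = _ := by group

/-- Commutator identity in a group with a central commutator. -/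
lemma alg6 {R : Type*} [Group R] (Y Z F₁ F₂ c : R) (hc : c = Y * Z * Y⁻¹ * Z⁻¹)
    (hcc : ∀ r, r * c = c * r) (hF₁ : ∀ r, r * F₁ = F₁ * r) (hF₂ : ∀ r, r * F₂ = F₂ * r) :
    (F₁ * (Y * Y)⁻¹) * (F₂ * (Z * Z)⁻¹) * (F₁ * (Y * Y)⁻¹)⁻¹ * (F₂ * (Z * Z)⁻¹)⁻¹ = c * c * c * c := by
  have h : Y * Z = c * (Z * Y) := by rw [hc]; group
  have h2 : Y * Y * (Z * Z) = c * c * c * c * (Z * Z * (Y * Y)) := by
    calc Y * Y * (Z * Z) = Y * (Y * Z) * Z := by group
      _ = Y * (c * (Z * Y)) * Z := by rw [h]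
      _ = (Y * c) * (Z * Y) * Z := by group
      _ = c * Y * (Z * Y) * Z := by rw [hcc Y]
      _ = c * (Y * Z) * (Y * Z) := by group
      _ = c * (c * (Z * Y)) * (c * (Z * Y)) := by rw [h]
      _ = c * c * ((Z * Y) * c) * (Z * Y) := by group
      _ = c * c * (c * (Z * Y)) * (Z * Y) := by rw [hcc (Z * Y)]
      _ = c * c * c * Z * (Y * Z) * Y := by group
      _ = c * c * c * Z * (c * (Z * Y)) * Y := by rw [h]
      _ = c * c * c * (Z * c) * (Z * Y) * Y := by group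
      _ = c * c * c * (c * Z) * (Z * Y) * Y := by rw [hcc Z]
      _ = _ := by group
  have hc4 : ∀ r, r * (c * c * c * c) = (c * c * c * c) * r := fun r => by
    have : Commute r c := hcc r
    exact ((((this.mul_right this).mul_right this).mul_right this)).eq
  have h7 : (Y * Y)⁻¹ * (Z * Z)⁻¹ = (c * c * c * c) * ((Z * Z)⁻¹ * (Y * Y)⁻¹) := by
    have gen : ∀ (U V c4 : R), U * V = c4 * (V * U) → (∀ r, r * c4 = c4 * r) →
        U⁻¹ * V⁻¹ = c4 * (V⁻¹ * U⁻¹) := by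
      intro U V c4 h hc
      have h8 : V⁻¹ * U⁻¹ = U⁻¹ * V⁻¹ * c4⁻¹ := by
        have : (U * V)⁻¹ = (c4 * (V * U))⁻¹ := by rw [h]
        simpa [mul_assoc] using this
      rw [← hc, h8]; simp [mul_assoc]
    exact gen _ _ _ h2 hc4
  rw [mul_inv_eq_iff_eq_mul, mul_inv_eq_iff_eq_mul]
  calc F₁ * (Y * Y)⁻¹ * (F₂ * (Z * Z)⁻¹) = F₁ * ((Y * Y)⁻¹ * F₂) * (Z * Z)⁻¹ := by
        simp only [mul_assoc]
    _ = F₁ * F₂ * ((Y * Y)⁻¹ * (Z * Z)⁻¹) := by rw [hF₂]; simp only [mul_assoc]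
    _ = F₁ * F₂ * ((c * c * c * c) * ((Z * Z)⁻¹ * (Y * Y)⁻¹)) := by rw [h7]
    _ = ((F₁ * F₂) * (c * c * c * c)) * ((Z * Z)⁻¹ * (Y * Y)⁻¹) := by simp only [mul_assoc]
    _ = ((c * c * c * c) * (F₁ * F₂)) * ((Z * Z)⁻¹ * (Y * Y)⁻¹) := by rw [hc4]
    _ = (c * c * c * c) * F₂ * (F₁ * (Z * Z)⁻¹) * (Y * Y)⁻¹ := by
        rw [← hF₁ F₂]; simp only [mul_assoc]
    _ = (c * c * c * c) * F₂ * ((Z * Z)⁻¹ * F₁) * (Y * Y)⁻¹ := by rw [hF₁]
    _ = _ := by simp only [mul_assoc]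

lemma alg5 {R : Type*} [Group R] (P E : R) (key : (E * E) * P = P * (E * E))
    (h1 : (P * E * P⁻¹) * E⁻¹ = E⁻¹ * (P * E * P⁻¹)) : (P * E * P⁻¹ * E⁻¹) ^ 2 = 1 := by
  have h2 : P * (E * E) * P⁻¹ = E * E := by rw [← key]; simp [mul_assoc]
  calc (P * E * P⁻¹ * E⁻¹) ^ 2 = (P * E * P⁻¹) * (E⁻¹ * (P * E * P⁻¹)) * E⁻¹ := by
        rw [pow_two]; simp only [mul_assoc]
    _ = (P * E * P⁻¹) * ((P * E * P⁻¹) * E⁻¹) * E⁻¹ := by rw [← h1]
    _ = P * (E * E) * P⁻¹ * (E * E)⁻¹ := by simp [mul_assoc]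
    _ = 1 := by rw [h2]; simp

namespace S3A

variable {G : Type*} [Group G] [Finite G] (σ : S3A G)

section BF

variable (hc : (Nat.card G).Coprime 6)
  (hN : ∀ x ∈ commutator G, ∀ y ∈ commutator G, x * y = y * x)

include hc in
lemma coprime2 : (Nat.card G).Coprime 2 := Nat.Coprime.coprime_dvd_right (by norm_num) hc
include hc in
lemma coprime3 : (Nat.card G).Coprime 3 := Nat.Coprime.coprime_dvd_right (by norm_num) hc

include hN in
/-- The norm of an element of the derived subgroup fixed by `b` is trivial. -/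
lemma norm_fixed {e : G} (he : e ∈ commutator G) (hb : σ.b e = e) :
    e * σ.a e * σ.a (σ.a e) = 1 := by
  have h1 := comm_mem_a (φ := σ.a) he
  have h2 := comm_mem_a (φ := σ.a) h1
  apply σ.fpf
  · rw [map_mul, map_mul, σ.a3, mul_assoc (σ.a e), hN _ h2 _ he, ← mul_assoc, hN _ h1 _ he]
  · rw [map_mul, map_mul, σ.ba, σ.baa, hb, mul_assoc, mul_assoc, hN _ h2 _ h1]

variable {R : Type*} [Group R] (π : G →* R) (hπ : ∀ x, π (σ.b x) = π x)

include hc hπ in
lemma bf_lift (x : G) : ∃ u, σ.b u = u ∧ π u = π x := by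
  have hx : x⁻¹ * σ.b x ∈ π.ker := by
    rw [MonoidHom.mem_ker, map_mul, map_inv, hπ]; group
  obtain ⟨y, hy, hxy⟩ := σ.lift_b hc π.ker
    (fun d hd => by rw [MonoidHom.mem_ker] at hd ⊢; rw [hπ, hd]) x hx
  refine ⟨y, hy, ?_⟩
  rw [MonoidHom.mem_ker, map_mul, map_inv] at hxy
  exact (inv_mul_eq_one.1 hxy).symm

include hc hπ in
lemma bf_liftN {e : G} (he : e ∈ commutator G) :
    ∃ e₁ ∈ commutator G, σ.b e₁ = e₁ ∧ π e₁ = π e := by
  let D : Subgroup G := commutator G ⊓ π.ker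
  have hx : e⁻¹ * σ.b e ∈ D := by
    refine ⟨(commutator G).mul_mem ((commutator G).inv_mem he) (comm_mem_a he), ?_⟩
    change _ ∈ π.ker
    rw [MonoidHom.mem_ker, map_mul, map_inv, hπ]; group
  obtain ⟨y, hy, hxy⟩ := σ.lift_b hc D
    (fun d hd => ⟨comm_mem_a hd.1, by
      have := hd.2
      change _ ∈ π.ker at this ⊢
      rw [MonoidHom.mem_ker] at this ⊢; rw [hπ, this]⟩) e hx
  refine ⟨y, ?_, hy, ?_⟩
  · have : y = e * (e⁻¹ * y) := by group
    rw [this]
    exact (commutator G).mul_mem he hxy.1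
  · have := hxy.2
    change _ ∈ π.ker at this
    rw [MonoidHom.mem_ker, map_mul, map_inv] at this
    exact (inv_mul_eq_one.1 this).symm

include hπ in
lemma bf_aa {u : G} (hb : σ.b u = u) : π (σ.a (σ.a u)) = π (σ.a u) := by
  have : σ.a (σ.a u) = σ.b (σ.a u) := by rw [σ.ba, hb]
  rw [this, hπ]

include hN hπ in
lemma bf_norm {e : G} (he : e ∈ commutator G) (hb : σ.b e = e) :
    π e * π (σ.a e) * π (σ.a e) = 1 := by
  have h := congrArg π (σ.norm_fixed hN he hb)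
  rw [map_mul, map_mul, map_one, σ.bf_aa π hπ hb] at h
  exact h

include hN in
lemma bf_comm {x y : G} (hx : x ∈ commutator G) (hy : y ∈ commutator G) :
    π x * π y = π y * π x := by
  rw [← map_mul, ← map_mul, hN x hx y hy]

lemma conj_comm {y n : G} (hn : n ∈ commutator G) : y * n * y⁻¹ ∈ commutator G :=
  (inferInstance : (commutator G).Normal).conj_mem n hn y

include hc hN hπ in
/-- First stage: `π (a u)` commutes with `π (a e)`. -/
lemma bf4 {e u : G} (he : e ∈ commutator G) (hbe : σ.b e = e) (hbu : σ.b u = u) :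
    π (σ.a u) * π (σ.a e) = π (σ.a e) * π (σ.a u) := by
  have hae := comm_mem_a (φ := σ.a) he
  set y := σ.a u with hy
  set E := σ.a e with hE
  -- the commutator
  let g : G := e * u * e⁻¹ * u⁻¹
  have hgN : g ∈ commutator G := by
    have : g = e * (u * e⁻¹ * u⁻¹) := by simp only [g]; group
    rw [this]
    exact (commutator G).mul_mem he (conj_comm ((commutator G).inv_mem he))
  have hgb : σ.b g = g := by
    simp only [g, map_mul, map_inv, hbe, hbu]
  have hn := σ.bf_norm hN π hπ hgN hgb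
  have hag : σ.a g = E * y * E⁻¹ * y⁻¹ := by simp only [g, map_mul, map_inv, hE, hy]
  have hnu := σ.norm_mem_commutator hc hbu
  set n := u * y * σ.a (σ.a u) with hn'
  have hFn : π n = π u * π y * π y := by
    rw [hn', map_mul, map_mul, σ.bf_aa π hπ hbu]
  have hee := σ.bf_norm hN π hπ he hbe
  -- elements of the derived subgroup
  have hEE : E * E ∈ commutator G := (commutator G).mul_mem hae hae
  have hA : (y * y)⁻¹ * (E * E) * (y * y) ∈ commutator G := by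
    have := conj_comm (y := (y * y)⁻¹) hEE
    simpa using this
  have hB : y * E * y⁻¹ ∈ commutator G := conj_comm hae
  have key := alg4 (π E) (π y) (π n) (π e) (π u) (π g) (π (σ.a g)) hee hFn
    (by simp only [g, map_mul, map_inv]) (by rw [hag]; simp only [map_mul, map_inv])
    (by rw [← mul_assoc] at *; simpa [mul_assoc] using hn)
    (by simpa only [map_mul, map_inv] using bf_comm hN π hnu hA)
    (by simpa only [map_mul, map_inv] using bf_comm hN π hae hB)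
    (by simpa only [map_mul, map_inv] using bf_comm hN π hEE hA)
  -- `y ^ 3` commutes with `E`.
  have htN : (y * y * y) * E * (y * y * y)⁻¹ ∈ commutator G := conj_comm hae
  have ht : π ((y * y * y) * E * (y * y * y)⁻¹ * E⁻¹) = 1 := by
    apply hom_eq_one_of_pow π 2 (coprime2 hc)
    have h1 := bf_comm hN π htN ((commutator G).inv_mem hae)
    simp only [map_mul, map_inv] at h1 ⊢
    exact alg5 _ _ (by simpa only [map_mul] using key) (by simpa only [mul_assoc] using h1)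
  have hP : Commute (π (y ^ 3)) (π E) := by
    have e : y ^ 3 = y * y * y := by simp only [pow_succ, pow_zero, one_mul]
    rw [e]
    simp only [map_mul, map_inv] at ht ⊢
    have h2 := mul_inv_eq_one.1 ht
    have h3 := mul_inv_eq_iff_eq_mul.1 h2
    exact h3
  obtain ⟨s, hs⟩ := exists_root_exp 3 (coprime3 hc)
  have h4 := hP.pow_left s
  rw [← map_pow, hs] at h4
  exact h4

include hc hN hπ in
/-- The image of the derived subgroup is central. -/
lemma bf_center (hs : Function.Surjective π) {e : G} (he : e ∈ commutator G) (r : R) :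
    r * π e = π e * r := by
  obtain ⟨x, rfl⟩ := hs r
  obtain ⟨u, hbu, hu⟩ := σ.bf_lift hc π hπ x
  obtain ⟨e₁, he₁, hbe₁, he₁'⟩ := σ.bf_liftN hc π hπ he
  rw [← hu, ← he₁']
  have h4 := σ.bf4 hc hN π hπ he₁ hbe₁ hbu
  have hnu := σ.norm_mem_commutator hc hbu
  have hae := comm_mem_a (φ := σ.a) he₁
  have hFn : π (u * σ.a u * σ.a (σ.a u)) = π u * π (σ.a u) * π (σ.a u) := by
    rw [map_mul, map_mul, σ.bf_aa π hπ hbu]
  have hX : π u = π (u * σ.a u * σ.a (σ.a u)) * (π (σ.a u))⁻¹ * (π (σ.a u))⁻¹ := by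
    rw [hFn]; simp [mul_assoc]
  have c1 : Commute (π (u * σ.a u * σ.a (σ.a u))) (π (σ.a e₁)) := bf_comm hN π hnu hae
  have c2 : Commute (π u) (π (σ.a e₁)) := by
    rw [hX]
    exact (c1.mul_left (Commute.inv_left h4)).mul_left (Commute.inv_left h4)
  have hee := σ.bf_norm hN π hπ he₁ hbe₁
  have he2 : π e₁ = ((π (σ.a e₁)) * (π (σ.a e₁)))⁻¹ := by
    apply eq_inv_of_mul_eq_one_left
    rw [← mul_assoc, hee]
  have c3 : Commute (π u) (π e₁) := by
    rw [he2]
    exact (c2.mul_right c2).inv_right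
  exact c3.eq

include hc hN hπ in
/-- A quotient on which `b` acts trivially is abelian. -/
theorem bf_main (hs : Function.Surjective π) (r r' : R) : r * r' = r' * r := by
  obtain ⟨x, rfl⟩ := hs r
  obtain ⟨y, rfl⟩ := hs r'
  obtain ⟨u, hbu, hu⟩ := σ.bf_lift hc π hπ x
  obtain ⟨v, hbv, hv⟩ := σ.bf_lift hc π hπ y
  rw [← hu, ← hv]
  let g : G := u * v * u⁻¹ * v⁻¹
  have hgN : g ∈ commutator G := Subgroup.commutator_mem_commutator (Subgroup.mem_top u)
    (Subgroup.mem_top v)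
  have hgb : σ.b g = g := by simp only [g, map_mul, map_inv, hbu, hbv]
  have hn := σ.bf_norm hN π hπ hgN hgb
  have hnu := σ.norm_mem_commutator hc hbu
  have hnv := σ.norm_mem_commutator hc hbv
  have hFu : π (u * σ.a u * σ.a (σ.a u)) = π u * π (σ.a u) * π (σ.a u) := by
    rw [map_mul, map_mul, σ.bf_aa π hπ hbu]
  have hFv : π (v * σ.a v * σ.a (σ.a v)) = π v * π (σ.a v) * π (σ.a v) := by
    rw [map_mul, map_mul, σ.bf_aa π hπ hbv]
  have hXu : π u = π (u * σ.a u * σ.a (σ.a u)) * (π (σ.a u) * π (σ.a u))⁻¹ := by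
    rw [hFu]; simp [mul_assoc]
  have hXv : π v = π (v * σ.a v * σ.a (σ.a v)) * (π (σ.a v) * π (σ.a v))⁻¹ := by
    rw [hFv]; simp [mul_assoc]
  have hag : σ.a g = σ.a u * σ.a v * (σ.a u)⁻¹ * (σ.a v)⁻¹ := by
    simp only [g, map_mul, map_inv]
  have hagN := comm_mem_a (φ := σ.a) hgN
  have hcdef : π (σ.a g) = π (σ.a u) * π (σ.a v) * (π (σ.a u))⁻¹ * (π (σ.a v))⁻¹ := by
    rw [hag]; simp only [map_mul, map_inv]
  have hq := alg6 (π (σ.a u)) (π (σ.a v)) (π (u * σ.a u * σ.a (σ.a u)))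
    (π (v * σ.a v * σ.a (σ.a v))) (π (σ.a g)) hcdef
    (fun r => σ.bf_center hc hN π hπ hs hagN r)
    (fun r => σ.bf_center hc hN π hπ hs hnu r)
    (fun r => σ.bf_center hc hN π hπ hs hnv r)
  rw [← hXu, ← hXv] at hq
  have hg : π g = π (σ.a g) * π (σ.a g) * π (σ.a g) * π (σ.a g) := by
    rw [← hq]; simp only [g, map_mul, map_inv]
  have h6 : π (σ.a g) ^ 6 = 1 := by
    rw [hg] at hn
    have : π (σ.a g) ^ 6 = π (σ.a g) * π (σ.a g) * π (σ.a g) * π (σ.a g) * π (σ.a g) * π (σ.a g) := by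
      simp only [pow_succ, pow_zero, one_mul]
    rw [this, hn]
  have h1 := hom_eq_one_of_pow π 6 hc _ h6
  have h2 : π g = 1 := by rw [hg, h1]; simp
  simp only [g, map_mul, map_inv] at h2
  have h3 := mul_inv_eq_one.1 h2
  exact mul_inv_eq_iff_eq_mul.1 h3

end BF

end S3A

end Cfsg.Agent.Lib.ClassSizes.S3F
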