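import Mathlib
import Cfsg.Agent.Lib.ClassSizes.S3F2

/-!
# Fixed-point-free actions of the symmetric group of degree three: linear algebra
-/

namespace Cfsg.Agent.Lib.ClassSizes.S3F

section LinAlg

variable {F W : Type*} [Field F] [AddCommGroup W] [Module F W]

/-- Common eigenvectors of a finite commuting family on an invariant subspace. -/
lemma common_eig [IsAlgClosed F] [FiniteDimensional F W] (s : Finset (Module.End F W)) :
    ∀ (U : Submodule F W), U ≠ ⊥ → (∀ f ∈ s, ∀ u ∈ U, f u ∈ U) →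
      (∀ f ∈ s, ∀ g ∈ s, ∀ u ∈ U, f (g u) = g (f u)) →
      ∃ v ∈ U, v ≠ 0 ∧ ∀ f ∈ s, ∃ c : F, f v = c • v := by
  classical
  induction s using Finset.induction_on with
  | empty =>
    intro U hU _ _
    obtain ⟨v, hv, hv0⟩ := U.ne_bot_iff.1 hU
    exact ⟨v, hv, hv0, by simp⟩
  | insert f s _ ih =>
    intro U hU hinv hcomm
    have hf : ∀ u ∈ U, f u ∈ U := hinv f (Finset.mem_insert_self _ _)
    haveI : Nontrivial U := Submodule.nontrivial_iff_ne_bot.2 hU
    obtain ⟨c, hc⟩ := Module.End.exists_eigenvalue (f.restrict hf)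
    obtain ⟨u₀, hu₀⟩ := hc.exists_hasEigenvector
    have hu₀' : f u₀.1 = c • u₀.1 := by
      have := hu₀.apply_eq_smul
      exact congrArg Subtype.val this
    have hu₀0 : u₀.1 ≠ 0 := fun h => hu₀.2 (Subtype.ext h)
    let U' : Submodule F W := U ⊓ LinearMap.ker (f - c • LinearMap.id)
    have hmem : ∀ u, u ∈ U' ↔ u ∈ U ∧ f u = c • u := by
      intro u
      simp [U', Submodule.mem_inf, LinearMap.mem_ker, sub_eq_zero]
    have hU' : U' ≠ ⊥ := by
      rw [Submodule.ne_bot_iff]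
      exact ⟨u₀.1, (hmem _).2 ⟨u₀.2, hu₀'⟩, hu₀0⟩
    obtain ⟨v, hv, hv0, hvs⟩ := ih U' hU'
      (fun g hg u hu => by
        have hu' := (hmem u).1 hu
        refine (hmem _).2 ⟨hinv g (Finset.mem_insert_of_mem hg) u hu'.1, ?_⟩
        rw [hcomm f (Finset.mem_insert_self _ _) g (Finset.mem_insert_of_mem hg) u hu'.1, hu'.2,
          map_smul])
      (fun g hg g' hg' u hu => hcomm g (Finset.mem_insert_of_mem hg) g'
        (Finset.mem_insert_of_mem hg') u ((hmem u).1 hu).1)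
    refine ⟨v, ((hmem v).1 hv).1, hv0, ?_⟩
    intro g hg
    rcases Finset.mem_insert.1 hg with rfl | hg
    · exact ⟨c, ((hmem v).1 hv).2⟩
    · exact hvs g hg

/-- Separation of eigenvectors with different weights. -/
lemma sep_list_aux {I : Type*} (Φ : I → Module.End F W) (μ₀ : I → F) :
    ∀ (m : ℕ) (l : List (W × (I → F))) (_ : l.length = m) (x₀ : W), (∀ i, Φ i x₀ = μ₀ i • x₀) →
      (∀ p ∈ l, (∀ i, Φ i p.1 = p.2 i • p.1) ∧ ∃ i, p.2 i ≠ μ₀ i) →
      x₀ + (l.map Prod.fst).sum = 0 → x₀ = 0 := by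
  intro m
  induction m with
  | zero =>
    intro l hlen x₀ _ _ h
    have : l = [] := List.length_eq_zero_iff.1 hlen
    subst this
    simpa using h
  | succ m ih =>
    intro l hlen x₀ hx₀ hl h
    obtain ⟨p, l, rfl⟩ : ∃ p l', l = p :: l' := by
      cases l with
      | nil => simp at hlen
      | cons p l' => exact ⟨p, l', rfl⟩
    obtain ⟨hp, i, hi⟩ := hl p (by simp)
    let ν := p.2 i
    let D : Module.End F W := Φ i - ν • 1
    have hDq : ∀ q : W × (I → F), (∀ i, Φ i q.1 = q.2 i • q.1) → D q.1 = (q.2 i - ν) • q.1 := by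
      intro q hq
      simp only [D, LinearMap.sub_apply, LinearMap.smul_apply, Module.End.one_apply, hq i, sub_smul]
    have hDx : D x₀ = (μ₀ i - ν) • x₀ := by
      simp only [D, LinearMap.sub_apply, LinearMap.smul_apply, Module.End.one_apply, hx₀ i, sub_smul]
    have hne : μ₀ i - ν ≠ 0 := sub_ne_zero.2 (Ne.symm hi)
    let l' : List (W × (I → F)) := l.map fun q => ((q.2 i - ν) • q.1, q.2)
    have hsum : (l'.map Prod.fst).sum = D (l.map Prod.fst).sum := by
      rw [map_list_sum]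
      simp only [l', List.map_map]
      congr 1
      apply List.map_congr_left
      intro q hq
      have := hDq q (hl q (by simp [hq])).1
      simp only [Function.comp_apply]
      exact this.symm
    have h2 : (μ₀ i - ν) • x₀ + (l'.map Prod.fst).sum = 0 := by
      have h3 := congrArg D h
      rw [List.map_cons, List.sum_cons, map_add, map_add, hDx, hDq p hp, map_zero] at h3
      simp only [ν, sub_self, zero_smul, zero_add] at h3
      rw [hsum]
      exact h3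
    have hlen' : l'.length = m := by
      simp only [l', List.length_map]
      simpa using hlen
    have h4 := ih l' hlen' ((μ₀ i - ν) • x₀)
      (fun j => by rw [map_smul, hx₀ j, smul_comm])
      (fun q hq => by
        simp only [l', List.mem_map] at hq
        obtain ⟨r, hr, rfl⟩ := hq
        have hr' := hl r (by simp [hr])
        refine ⟨fun j => by simp only; rw [map_smul, hr'.1 j, smul_comm], ?_⟩
        exact hr'.2)
      h2
    exact (smul_eq_zero.1 h4).resolve_left hne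

lemma sep_list {I : Type*} (Φ : I → Module.End F W) (μ₀ : I → F)
    (l : List (W × (I → F))) (x₀ : W) (h1 : ∀ i, Φ i x₀ = μ₀ i • x₀)
    (h2 : ∀ p ∈ l, (∀ i, Φ i p.1 = p.2 i • p.1) ∧ ∃ i, p.2 i ≠ μ₀ i)
    (h3 : x₀ + (l.map Prod.fst).sum = 0) : x₀ = 0 :=
  sep_list_aux Φ μ₀ l.length l rfl x₀ h1 h2 h3

/-- The linear algebra behind the case where the order-three element fixes the weight. -/
lemma K_lemma (X Y : Module.End F W) (ζ τ s₀ : F) (M : Submodule F W)
    (hYM : ∀ w ∈ M, Y w ∈ M) (hXY : ∀ w ∈ M, X (Y w) = ζ • Y (X w))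
    (hYinj : Function.Injective Y) (hτ : τ ≠ 0) (hζ : ζ ≠ 0)
    (h1 : ζ ≠ 1) (h2 : ζ ^ 2 ≠ 1) (h3 : ζ ^ 3 ≠ 1)
    (v u : W) (hv : v ∈ M) (hu : u ∈ M) (hXv : X v = τ • v) (hYu : Y u = τ • u)
    (h : τ • X (Y (u - v)) = s₀ • (u - v)) : v = 0 := by
  -- eigenvectors of `X`
  have hv1M := hYM v hv
  have hv2M := hYM _ hv1M
  have hX1 : X (Y v) = (τ * ζ) • Y v := by
    rw [hXY v hv, hXv, map_smul, smul_smul, mul_comm]
  have hX2 : X (Y (Y v)) = (τ * ζ ^ 2) • Y (Y v) := by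
    rw [hXY _ hv1M, hX1, map_smul, smul_smul]; congr 1; ring
  have hX3 : X (Y (Y (Y v))) = (τ * ζ ^ 3) • Y (Y (Y v)) := by
    rw [hXY _ hv2M, hX2, map_smul, smul_smul]; congr 1; ring
  -- main equation
  have hXYu : X (Y u) = τ • X u := by rw [hYu, map_smul]
  have hstar : (τ ^ 2) • X u - s₀ • u = (τ ^ 2 * ζ) • Y v - s₀ • v := by
    rw [map_sub, map_sub, hXYu, hX1, smul_sub, smul_sub] at h
    rw [smul_smul, smul_smul] at h
    have e1 : τ * τ = τ ^ 2 := by ring
    have e2 : τ * (τ * ζ) = τ ^ 2 * ζ := by ring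
    rw [e1, e2] at h
    have h' := sub_eq_zero.2 h
    have h'' : (τ ^ 2) • X u - s₀ • u - ((τ ^ 2 * ζ) • Y v - s₀ • v) = 0 := by
      rw [← h']; module
    exact sub_eq_zero.1 h''
  let κ : F := ζ⁻¹ * τ
  have hYXu : Y (X u) = κ • X u := by
    have h5 := hXY u hu
    rw [hXYu] at h5
    have : ζ⁻¹ • (τ • X u) = Y (X u) := by
      rw [h5, smul_smul, inv_mul_cancel₀ hζ, one_smul]
    rw [← this, smul_smul]
  -- apply `(Y - κ)(Y - τ)` to the main equation
  let d : F := τ ^ 2 * ζ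
  have hd : d ≠ 0 := mul_ne_zero (pow_ne_zero _ hτ) hζ
  have hL : Y (Y ((τ ^ 2) • X u - s₀ • u)) - (κ + τ) • Y ((τ ^ 2) • X u - s₀ • u)
      + (κ * τ) • ((τ ^ 2) • X u - s₀ • u) = 0 := by
    simp only [map_sub, map_smul, hYXu, hYu]
    (module)
  rw [hstar] at hL
  simp only [map_sub, map_smul] at hL
  have h0 : d • Y (Y (Y v)) + ((- s₀ - (κ + τ) * d) • Y (Y v)
      + (((κ + τ) * s₀ + κ * τ * d) • Y v + ((-(κ * τ * s₀)) • v + 0))) = 0 := by
    refine Eq.trans ?_ hL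
    simp only [d]
    (module)
  -- separate
  have hsep := sep_list (I := Unit) (fun _ => X) (fun _ => τ * ζ ^ 3)
    [((- s₀ - (κ + τ) * d) • Y (Y v), fun _ => τ * ζ ^ 2),
      (((κ + τ) * s₀ + κ * τ * d) • Y v, fun _ => τ * ζ),
      ((-(κ * τ * s₀)) • v, fun _ => τ)]
    (d • Y (Y (Y v)))
    (fun _ => by rw [map_smul, hX3, smul_comm])
    (by
      intro p hp
      simp only [List.mem_cons, List.not_mem_nil, or_false] at hp
      rcases hp with rfl | rfl | rfl
      · refine ⟨fun _ => by simp only; rw [map_smul, hX2, smul_comm], (), ?_⟩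
        intro h6
        apply h1
        have : τ * ζ ^ 2 * (ζ - 1) = 0 := by linear_combination -h6
        have h7 := (mul_eq_zero.1 this).resolve_left (mul_ne_zero hτ (pow_ne_zero _ hζ))
        exact sub_eq_zero.1 h7
      · refine ⟨fun _ => by simp only; rw [map_smul, hX1, smul_comm], (), ?_⟩
        intro h6
        apply h2
        have : τ * ζ * (ζ ^ 2 - 1) = 0 := by linear_combination -h6
        have h7 := (mul_eq_zero.1 this).resolve_left (mul_ne_zero hτ hζ)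
        exact sub_eq_zero.1 h7
      · refine ⟨fun _ => by simp only; rw [map_smul, hXv, smul_comm], (), ?_⟩
        intro h6
        apply h3
        have : τ * (ζ ^ 3 - 1) = 0 := by linear_combination -h6
        have h7 := (mul_eq_zero.1 this).resolve_left hτ
        exact sub_eq_zero.1 h7)
    (by simpa using h0)
  have h8 := (smul_eq_zero.1 hsep).resolve_left hd
  have hY0 : ∀ w, Y w = 0 → w = 0 := fun w hw => hYinj (by rw [hw, map_zero])
  exact hY0 _ (hY0 _ (hY0 _ h8))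

end LinAlg

section Weights

variable {F W : Type*} [Field F] [AddCommGroup W] [Module F W]
  {S : Type*} [Group S] [Finite S]

/-- Weight vectors with a prescribed nontrivial value. -/
lemma exists_wt_vec [IsAlgClosed F] [FiniteDimensional F W] (ρ : S →* Module.End F W)
    (N : Subgroup S) (hN : ∀ x ∈ N, ∀ y ∈ N, x * y = y * x) {g : S} (hg : g ∈ N)
    (hg1 : ρ g ≠ 1) (hord : ((orderOf g : ℕ) : F) ≠ 0) :
    ∃ v, v ≠ 0 ∧ ∃ μ : S → F, (∀ n ∈ N, ρ n v = μ n • v) ∧ μ g ≠ 1 := by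
  classical
  let Δ : Module.End F W := ρ g - 1
  have hΔ : ∀ w, Δ w = ρ g w - w := fun w => by simp [Δ]
  let U : Submodule F W := LinearMap.range Δ
  have hU : U ≠ ⊥ := by
    intro h
    apply hg1
    have h0 : Δ = 0 := LinearMap.range_eq_bot.1 h
    exact sub_eq_zero.1 h0
  have hcommN : ∀ n ∈ N, ∀ w, ρ n (ρ g w) = ρ g (ρ n w) := by
    intro n hn w
    have : ρ n * ρ g = ρ g * ρ n := by rw [← map_mul, ← map_mul, hN n hn g hg]
    exact congrArg (fun T : Module.End F W => T w) this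
  let s : Finset (Module.End F W) := ((N : Set S).toFinite.toFinset).image ρ
  have hs : ∀ f ∈ s, ∃ n ∈ N, f = ρ n := by
    intro f hf
    obtain ⟨n, hn, rfl⟩ := Finset.mem_image.1 hf
    exact ⟨n, by simpa using hn, rfl⟩
  obtain ⟨v, hv, hv0, hvs⟩ := common_eig s U hU
    (fun f hf u hu => by
      obtain ⟨n, hn, rfl⟩ := hs f hf
      obtain ⟨w, rfl⟩ := hu
      refine ⟨ρ n w, ?_⟩
      rw [hΔ, hΔ, map_sub, hcommN n hn])
    (fun f hf f' hf' u _ => by
      obtain ⟨n, hn, rfl⟩ := hs f hf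
      obtain ⟨n', hn', rfl⟩ := hs f' hf'
      have : ρ n * ρ n' = ρ n' * ρ n := by rw [← map_mul, ← map_mul, hN n hn n' hn']
      exact congrArg (fun T : Module.End F W => T u) this)
  have hex : ∀ n, ∃ c : F, n ∈ N → ρ n v = c • v := by
    intro n
    by_cases hn : n ∈ N
    · obtain ⟨c, hc⟩ := hvs (ρ n) (Finset.mem_image.2 ⟨n, by simpa using hn, rfl⟩)
      exact ⟨c, fun _ => hc⟩
    · exact ⟨1, fun h => absurd h hn⟩
  choose μ hμ using hex
  refine ⟨v, hv0, μ, fun n hn => hμ n hn, ?_⟩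
  intro h1
  have hgv : ρ g v = v := by rw [hμ g hg, h1, one_smul]
  obtain ⟨w₀, hw₀⟩ := hv
  have hw₀' : ρ g w₀ = w₀ + v := by
    rw [← hw₀, hΔ]; abel
  have hpow : ∀ k : ℕ, ρ (g ^ k) w₀ = w₀ + (k : F) • v := by
    intro k
    induction k with
    | zero => simp
    | succ k ih =>
      rw [pow_succ', map_mul, Module.End.mul_apply, ih, map_add, map_smul, hw₀', hgv]
      push_cast
      (module)
  have h2 := hpow (orderOf g)
  rw [pow_orderOf_eq_one, map_one, Module.End.one_apply] at h2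
  have h3 : ((orderOf g : ℕ) : F) • v = 0 := by
    have := sub_eq_zero.2 h2
    have h4 : ((orderOf g : ℕ) : F) • v = -(w₀ - (w₀ + ((orderOf g : ℕ) : F) • v)) := by abel
    rw [h4, this, neg_zero]
  exact hv0 ((smul_eq_zero.1 h3).resolve_left hord)

end Weights

/-- The full context: a group with the action, a representation and the intertwining operators. -/
structure Ctx (S : Type*) [Group S] (F W : Type*) [Field F] [AddCommGroup W] [Module F W] where
  σ : S3A S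
  ρ : S →* Module.End F W
  A : Module.End F W
  B : Module.End F W
  A3 : ∀ v, A (A (A v)) = v
  B2 : ∀ v, B (B v) = v
  BA : ∀ v, B (A v) = A (A (B v))
  Aρ : ∀ k v, A (ρ k v) = ρ (σ.a k) (A v)
  Bρ : ∀ k v, B (ρ k v) = ρ (σ.b k) (B v)
  hP : ∀ v, v + A v + A (A v) + B v + A (B v) + A (A (B v)) = 0

namespace Ctx

variable {S : Type*} [Group S] {F W : Type*} [Field F] [AddCommGroup W] [Module F W]
  (c : Ctx S F W)

/-- Rotate the involution. -/
def rot : Ctx S F W where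
  σ := c.σ.rot
  ρ := c.ρ
  A := c.A
  B := c.A * c.B
  A3 := c.A3
  B2 := fun v => by
    simp only [Module.End.mul_apply]
    rw [c.BA, c.A3, c.B2]
  BA := fun v => by
    simp only [Module.End.mul_apply]
    rw [c.BA]
  Aρ := c.Aρ
  Bρ := fun k v => by
    simp only [Module.End.mul_apply]
    rw [c.Bρ, c.Aρ]
    rfl
  hP := fun v => by
    simp only [Module.End.mul_apply]
    rw [c.A3]
    have := c.hP v
    rw [← this]
    abel

@[simp] lemma rot_ρ : c.rot.ρ = c.ρ := rfl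
@[simp] lemma rot_A : c.rot.A = c.A := rfl
@[simp] lemma rot_σ : c.rot.σ = c.σ.rot := rfl

/-- Weight vectors for the derived subgroup. -/
def IsW (μ : S → F) (v : W) : Prop := ∀ n ∈ commutator S, c.ρ n v = μ n • v

def FA (μ : S → F) : Prop := ∀ n ∈ commutator S, μ (c.σ.a n) = μ n
def FB (μ : S → F) : Prop := ∀ n ∈ commutator S, μ (c.σ.b n) = μ n
def FAB (μ : S → F) : Prop := ∀ n ∈ commutator S, μ (c.σ.a (c.σ.b n)) = μ n
def FAAB (μ : S → F) : Prop := ∀ n ∈ commutator S, μ (c.σ.a (c.σ.a (c.σ.b n))) = μ n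

lemma rot_FB {μ : S → F} : c.rot.FB μ ↔ c.FAB μ := Iff.rfl
lemma rot_FA {μ : S → F} : c.rot.FA μ ↔ c.FA μ := Iff.rfl
lemma rot_FAB {μ : S → F} : c.rot.FAB μ ↔ c.FAAB μ := Iff.rfl
lemma rot_FAAB {μ : S → F} : c.rot.FAAB μ ↔ c.FB μ := by
  unfold FAAB FB
  constructor
  · intro h n hn
    have := h n hn
    have e : c.rot.σ.a (c.rot.σ.a (c.rot.σ.b n)) = c.σ.b n := c.σ.a3 _
    rwa [e] at this
  · intro h n hn
    have e : c.rot.σ.a (c.rot.σ.a (c.rot.σ.b n)) = c.σ.b n := c.σ.a3 _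
    rw [e]
    exact h n hn

variable {c}

lemma F2_imp {μ : S → F} (h : ∀ n ∈ commutator S, μ (c.σ.a (c.σ.a n)) = μ n) : c.FA μ := by
  intro n hn
  have := h _ (S3A.comm_mem_a (φ := c.σ.a) hn)
  rw [c.σ.a3] at this
  exact this.symm

lemma FB_FAB {μ : S → F} (h1 : c.FB μ) (h2 : c.FAB μ) : c.FA μ := by
  intro n hn
  have := h2 _ (S3A.comm_mem_a (φ := c.σ.b) hn)
  rw [c.σ.b2] at this
  rw [this, h1 n hn]

lemma FB_FAAB {μ : S → F} (h1 : c.FB μ) (h2 : c.FAAB μ) : c.FA μ := by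
  apply F2_imp
  intro n hn
  have := h2 _ (S3A.comm_mem_a (φ := c.σ.b) hn)
  rw [c.σ.b2] at this
  rw [this, h1 n hn]

lemma FA_FAB {μ : S → F} (h1 : c.FA μ) (h2 : c.FAB μ) : c.FB μ := by
  intro n hn
  rw [← h1 _ (S3A.comm_mem_a (φ := c.σ.b) hn), h2 n hn]

lemma FA_FAAB {μ : S → F} (h1 : c.FA μ) (h2 : c.FAAB μ) : c.FB μ := by
  intro n hn
  have hb := S3A.comm_mem_a (φ := c.σ.b) hn
  rw [← h1 _ hb, ← h1 _ (S3A.comm_mem_a (φ := c.σ.a) hb), h2 n hn]

lemma FAB_FAAB {μ : S → F} (h1 : c.FAB μ) (h2 : c.FAAB μ) : c.FA μ := by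
  intro p hp
  have hn : c.σ.b (c.σ.a (c.σ.a p)) ∈ commutator S :=
    S3A.comm_mem_a (S3A.comm_mem_a (S3A.comm_mem_a hp))
  have e1 := h1 _ hn
  have e2 := h2 _ hn
  rw [c.σ.b2, c.σ.a3] at e1
  rw [c.σ.b2, c.σ.a3] at e2
  rw [e2, e1]

/-! ### Weights of transformed vectors -/

lemma wt_A {μ : S → F} {v : W} (hv : c.IsW μ v) : c.IsW (fun n => μ (c.σ.a (c.σ.a n))) (c.A v) := by
  intro n hn
  have h := c.Aρ (c.σ.a (c.σ.a n)) v
  rw [c.σ.a3, hv _ (S3A.comm_mem_a (S3A.comm_mem_a hn)), map_smul] at h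
  exact h.symm

lemma wt_AA {μ : S → F} {v : W} (hv : c.IsW μ v) : c.IsW (fun n => μ (c.σ.a n)) (c.A (c.A v)) := by
  intro n hn
  have h := wt_A (wt_A hv) n hn
  rw [h]
  simp only [c.σ.a3]

lemma wt_B {μ : S → F} {v : W} (hv : c.IsW μ v) : c.IsW (fun n => μ (c.σ.b n)) (c.B v) := by
  intro n hn
  have h := c.Bρ (c.σ.b n) v
  rw [c.σ.b2, hv _ (S3A.comm_mem_a hn), map_smul] at h
  exact h.symm

lemma wt_AB {μ : S → F} {v : W} (hv : c.IsW μ v) :
    c.IsW (fun n => μ (c.σ.a (c.σ.b n))) (c.A (c.B v)) := by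
  intro n hn
  have h := wt_A (wt_B hv) n hn
  rw [h]
  simp only [c.σ.baa]

lemma wt_AAB {μ : S → F} {v : W} (hv : c.IsW μ v) :
    c.IsW (fun n => μ (c.σ.a (c.σ.a (c.σ.b n)))) (c.A (c.A (c.B v))) := by
  intro n hn
  have h := wt_AA (wt_B hv) n hn
  rw [h]
  simp only [c.σ.ba]

/-- From a list of weight vectors in terms of `commutator S`-indexed data. -/
lemma sep_c {μ : S → F} {x₀ : W} (hx₀ : c.IsW μ x₀) (l : List (W × (S → F)))
    (hl : ∀ p ∈ l, c.IsW p.2 p.1 ∧ ∃ n ∈ commutator S, p.2 n ≠ μ n)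
    (hs : x₀ + (l.map Prod.fst).sum = 0) : x₀ = 0 := by
  let l' : List (W × ((commutator S) → F)) := l.map fun p => (p.1, fun n => p.2 n.1)
  refine sep_list (I := commutator S) (fun n => c.ρ n.1) (fun n => μ n.1) l' x₀
    (fun n => hx₀ n.1 n.2) ?_ ?_
  · intro p hp
    simp only [l', List.mem_map] at hp
    obtain ⟨q, hq, rfl⟩ := hp
    obtain ⟨h1, n, hn, hne⟩ := hl q hq
    exact ⟨fun i => h1 i.1 i.2, ⟨n, hn⟩, hne⟩
  · simpa [l', Function.comp_def] using hs

lemma not_F2 {μ : S → F} (h : ¬ c.FA μ) :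
    ∃ n ∈ commutator S, μ (c.σ.a (c.σ.a n)) ≠ μ n := by
  by_contra h2
  push Not at h2
  exact h (F2_imp h2)

lemma exists_ne {μ : S → F} {φ : S → S} (h : ¬ ∀ n ∈ commutator S, μ (φ n) = μ n) :
    ∃ n ∈ commutator S, μ (φ n) ≠ μ n := by
  by_contra h2
  push Not at h2
  exact h h2

/-- No stabilizing element forces the vector to vanish. -/
lemma R_none {μ : S → F} {v : W} (hv : c.IsW μ v) (h1 : ¬ c.FA μ) (h2 : ¬ c.FB μ)
    (h3 : ¬ c.FAB μ) (h4 : ¬ c.FAAB μ) : v = 0 := by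
  refine sep_c hv [(c.A v, fun n => μ (c.σ.a (c.σ.a n))), (c.A (c.A v), fun n => μ (c.σ.a n)),
    (c.B v, fun n => μ (c.σ.b n)), (c.A (c.B v), fun n => μ (c.σ.a (c.σ.b n))),
    (c.A (c.A (c.B v)), fun n => μ (c.σ.a (c.σ.a (c.σ.b n))))] ?_ ?_
  · intro p hp
    simp only [List.mem_cons, List.not_mem_nil, or_false] at hp
    rcases hp with rfl | rfl | rfl | rfl | rfl
    · exact ⟨wt_A hv, not_F2 h1⟩
    · exact ⟨wt_AA hv, exists_ne h1⟩
    · exact ⟨wt_B hv, exists_ne h2⟩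
    · exact ⟨wt_AB hv, exists_ne h3⟩
    · exact ⟨wt_AAB hv, exists_ne h4⟩
  · have := c.hP v
    simp only [List.map_cons, List.map_nil, List.sum_cons, List.sum_nil, add_zero]
    rw [← this]; abel

/-- Only the involution `b` stabilizes. -/
lemma R_b {μ : S → F} {v : W} (hv : c.IsW μ v) (h1 : ¬ c.FA μ) (h2 : c.FB μ)
    (h3 : ¬ c.FAB μ) (h4 : ¬ c.FAAB μ) : v + c.B v = 0 := by
  have hB : c.IsW μ (c.B v) := fun n hn => by
    rw [wt_B hv n hn]; simp only [h2 n hn]
  have hx : c.IsW μ (v + c.B v) := fun n hn => by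
    rw [map_add, hv n hn, hB n hn, smul_add]
  refine sep_c hx [(c.A v, fun n => μ (c.σ.a (c.σ.a n))), (c.A (c.A v), fun n => μ (c.σ.a n)),
    (c.A (c.B v), fun n => μ (c.σ.a (c.σ.b n))),
    (c.A (c.A (c.B v)), fun n => μ (c.σ.a (c.σ.a (c.σ.b n))))] ?_ ?_
  · intro p hp
    simp only [List.mem_cons, List.not_mem_nil, or_false] at hp
    rcases hp with rfl | rfl | rfl | rfl
    · exact ⟨wt_A hv, not_F2 h1⟩
    · exact ⟨wt_AA hv, exists_ne h1⟩
    · exact ⟨wt_AB hv, exists_ne h3⟩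
    · exact ⟨wt_AAB hv, exists_ne h4⟩
  · have := c.hP v
    simp only [List.map_cons, List.map_nil, List.sum_cons, List.sum_nil, add_zero]
    rw [← this]; abel

/-- Only the order-three elements stabilize. -/
lemma R_a {μ : S → F} {v : W} (hv : c.IsW μ v) (h1 : c.FA μ) (h2 : ¬ c.FB μ)
    (h3 : ¬ c.FAB μ) (h4 : ¬ c.FAAB μ) : v + c.A v + c.A (c.A v) = 0 := by
  have hA : c.IsW μ (c.A v) := fun n hn => by
    rw [wt_A hv n hn]; simp only [h1 _ (S3A.comm_mem_a hn), h1 n hn]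
  have hAA : c.IsW μ (c.A (c.A v)) := fun n hn => by
    rw [wt_AA hv n hn]; simp only [h1 n hn]
  have hx : c.IsW μ (v + c.A v + c.A (c.A v)) := fun n hn => by
    rw [map_add, map_add, hv n hn, hA n hn, hAA n hn, smul_add, smul_add]
  refine sep_c hx [(c.B v, fun n => μ (c.σ.b n)), (c.A (c.B v), fun n => μ (c.σ.a (c.σ.b n))),
    (c.A (c.A (c.B v)), fun n => μ (c.σ.a (c.σ.a (c.σ.b n))))] ?_ ?_
  · intro p hp
    simp only [List.mem_cons, List.not_mem_nil, or_false] at hp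
    rcases hp with rfl | rfl | rfl
    · exact ⟨wt_B hv, exists_ne h2⟩
    · exact ⟨wt_AB hv, exists_ne h3⟩
    · exact ⟨wt_AAB hv, exists_ne h4⟩
  · have := c.hP v
    simp only [List.map_cons, List.map_nil, List.sum_cons, List.sum_nil, add_zero]
    rw [← this]; abel

end Ctx

end Cfsg.Agent.Lib.ClassSizes.S3F
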