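import Mathlib
import Cfsg.Agent.Lib.ClassSizes.S3F3

/-!
# Fixed-point-free actions of the symmetric group of degree three: the invariant weight case
-/

namespace Cfsg.Agent.Lib.ClassSizes.S3F

section LData

variable {S : Type*} [Group S] [Finite S] {F : Type*} [Field F]

/-- The commutator pairing attached to a function on the group. -/
def LL (lam : S → F) (x y : S) : F := lam (x * y * x⁻¹ * y⁻¹)

/-- The properties of an invariant weight. -/
structure LData (σ : S3A S) (lam : S → F) : Prop where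
  m : ∀ n ∈ commutator S, ∀ k ∈ commutator S, lam (n * k) = lam n * lam k
  one : lam 1 = 1
  pow1 : ∀ n ∈ commutator S, ∀ k : ℕ, (Nat.card S).Coprime k → lam n ^ k = 1 → lam n = 1
  inv : ∀ x, ∀ n ∈ commutator S, lam (x⁻¹ * n * x) = lam n
  fa : ∀ n ∈ commutator S, lam (σ.a n) = lam n

namespace LData

variable {σ : S3A S} {lam : S → F} (d : LData σ lam)

include d

lemma comm_mem (x y : S) : x * y * x⁻¹ * y⁻¹ ∈ commutator S :=
  Subgroup.commutator_mem_commutator (Subgroup.mem_top x) (Subgroup.mem_top y)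

lemma inv' (x : S) {n : S} (hn : n ∈ commutator S) : lam (x * n * x⁻¹) = lam n := by
  have := d.inv x⁻¹ n hn
  simpa using this

lemma L_mul_left (x x' y : S) : LL lam (x * x') y = LL lam x' y * LL lam x y := by
  unfold LL
  have e : (x * x') * y * (x * x')⁻¹ * y⁻¹
      = (x * (x' * y * x'⁻¹ * y⁻¹) * x⁻¹) * (x * y * x⁻¹ * y⁻¹) := by group
  rw [e, d.m _ (S3A.conj_comm (comm_mem d x' y)) _ (comm_mem d x y), d.inv' x (comm_mem d x' y)]

lemma L_mul_right (x y y' : S) : LL lam x (y * y') = LL lam x y * LL lam x y' := by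
  unfold LL
  have e : x * (y * y') * x⁻¹ * (y * y')⁻¹
      = (x * y * x⁻¹ * y⁻¹) * (y * (x * y' * x⁻¹ * y'⁻¹) * y⁻¹) := by group
  rw [e, d.m _ (comm_mem d x y) _ (S3A.conj_comm (comm_mem d x y')), d.inv' y (comm_mem d x y')]

lemma L_swap (x y : S) : LL lam y x * LL lam x y = 1 := by
  unfold LL
  rw [← d.m _ (comm_mem d y x) _ (comm_mem d x y)]
  have e : y * x * y⁻¹ * x⁻¹ * (x * y * x⁻¹ * y⁻¹) = 1 := by group
  rw [e, d.one]

lemma L_ne_zero (x y : S) : LL lam x y ≠ 0 := by
  intro h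
  have := d.L_swap y x
  rw [h, zero_mul] at this
  exact zero_ne_one this

lemma L_N (x : S) {n : S} (hn : n ∈ commutator S) : LL lam x n = 1 := by
  unfold LL
  have e : x * n * x⁻¹ * n⁻¹ = (x * n * x⁻¹) * n⁻¹ := rfl
  rw [e, d.m _ (S3A.conj_comm hn) _ ((commutator S).inv_mem hn), d.inv' x hn,
    ← d.m _ hn _ ((commutator S).inv_mem hn)]
  simp [d.one]

lemma L_N' (x : S) {n : S} (hn : n ∈ commutator S) : LL lam n x = 1 := by
  have h1 := d.L_swap n x
  rw [d.L_N x hn, one_mul] at h1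
  exact h1

lemma L_a (x y : S) : LL lam (σ.a x) (σ.a y) = LL lam x y := by
  unfold LL
  have e : σ.a x * σ.a y * (σ.a x)⁻¹ * (σ.a y)⁻¹ = σ.a (x * y * x⁻¹ * y⁻¹) := by
    simp only [map_mul, map_inv]
  rw [e, d.fa _ (comm_mem d x y)]

lemma L_pow1 (x y : S) (k : ℕ) (hk : (Nat.card S).Coprime k) (h : LL lam x y ^ k = 1) :
    LL lam x y = 1 :=
  d.pow1 _ (comm_mem d x y) k hk h

lemma L_comm {x y : S} (h : x * y = y * x) : LL lam x y = 1 := by
  unfold LL
  rw [h]
  have e : y * x * x⁻¹ * y⁻¹ = 1 := by group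
  rw [e, d.one]

lemma L_a_right (w z : S) (hw : σ.a w = w) : LL lam w (σ.a z) = LL lam w z := by
  conv_lhs => rw [← hw]
  exact d.L_a w z

/-- The pairing vanishes on fixed points of `a`. -/
lemma L_fix (hc : (Nat.card S).Coprime 6) {w : S} (hw : σ.a w = w) (z : S) : LL lam w z = 1 := by
  apply d.L_pow1 w z 3 (S3A.coprime3 hc)
  obtain ⟨w', hw', hw''⟩ := σ.lift_a hc (commutator S) (fun _ hx => S3A.comm_mem_a hx)
    (z * σ.a z * σ.a (σ.a z)) (σ.norm_a_mod z)
  set c₀ := z * σ.a z * σ.a (σ.a z) with hc₀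
  have h1 : LL lam w c₀ = LL lam w z ^ 3 := by
    rw [hc₀, d.L_mul_right, d.L_mul_right, d.L_a_right w (σ.a z) hw, d.L_a_right w z hw]
    ring
  have h2 : LL lam w c₀ = 1 := by
    have e : c₀ = w' * (c₀⁻¹ * w')⁻¹ := by group
    rw [e, d.L_mul_right, d.L_N w ((commutator S).inv_mem hw''), mul_one]
    exact d.L_comm (σ.fixA_comm hw hw')
  rw [← h1, h2]

/-- The pairing vanishes on the norm. -/
lemma L_norm (hc : (Nat.card S).Coprime 6) (x y : S) :
    LL lam (x * σ.a x * σ.a (σ.a x)) y = 1 := by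
  obtain ⟨w', hw', hw''⟩ := σ.lift_a hc (commutator S) (fun _ hx => S3A.comm_mem_a hx)
    (x * σ.a x * σ.a (σ.a x)) (σ.norm_a_mod x)
  set c₀ := x * σ.a x * σ.a (σ.a x) with hc₀
  have e : c₀ = w' * (c₀⁻¹ * w')⁻¹ := by group
  rw [e, d.L_mul_left, d.L_N' y ((commutator S).inv_mem hw''), one_mul]
  exact d.L_fix hc hw' y

/-- Some element has nontrivial pairing with its image under `a`. -/
lemma exists_ne (hc : (Nat.card S).Coprime 6) {g : S} (hg : g ∈ commutator S) (hg1 : lam g ≠ 1) :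
    ∃ x₀, LL lam x₀ (σ.a x₀) ≠ 1 := by
  by_contra hcon
  push Not at hcon
  -- polarize
  have h1 : ∀ x y, LL lam x (σ.a y) = LL lam (σ.a x) y := by
    intro x y
    have h2 := hcon (x * y)
    rw [map_mul, d.L_mul_right, d.L_mul_left, d.L_mul_left, hcon x, hcon y] at h2
    have h3 := d.L_swap y (σ.a x)
    have h4 : LL lam x (σ.a y) * LL lam y (σ.a x) = 1 := by
      have : LL lam y (σ.a x) * 1 * (1 * LL lam x (σ.a y)) = 1 := by
        linear_combination h2
      linear_combination this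
    have hne := d.L_ne_zero (σ.a x) y
    have hne2 := d.L_ne_zero y (σ.a x)
    -- both equal the inverse of `L y (a x)`
    have h5 : LL lam x (σ.a y) = (LL lam y (σ.a x))⁻¹ := eq_inv_of_mul_eq_one_left h4
    have h6 : LL lam (σ.a x) y = (LL lam y (σ.a x))⁻¹ := by
      have := d.L_swap y (σ.a x)
      exact eq_inv_of_mul_eq_one_left this
    rw [h5, h6]
  have h2 : ∀ x y, LL lam (σ.a (σ.a x)) y = LL lam x y := by
    intro x y
    have := h1 (σ.a x) y
    rw [d.L_a] at this
    exact this.symm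
  have h3 : ∀ x y, LL lam (σ.a x) y = LL lam x y := by
    intro x y
    have := h2 (σ.a x) y
    rw [σ.a3] at this
    exact this.symm
  have h4 : ∀ x y, LL lam x y = 1 := by
    intro x y
    apply d.L_pow1 x y 3 (S3A.coprime3 hc)
    have h5 := d.L_norm hc x y
    rw [d.L_mul_left, d.L_mul_left, h2, h3] at h5
    rw [← h5]; ring
  -- all commutators have trivial weight
  let K₁ : Subgroup S :=
    { carrier := {n | n ∈ commutator S ∧ lam n = 1}
      one_mem' := ⟨(commutator S).one_mem, d.one⟩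
      mul_mem' := fun {a b} ha hb => ⟨(commutator S).mul_mem ha.1 hb.1, by
        rw [d.m a ha.1 b hb.1, ha.2, hb.2, one_mul]⟩
      inv_mem' := fun {a} ha => ⟨(commutator S).inv_mem ha.1, by
        have := d.m a ha.1 _ ((commutator S).inv_mem ha.1)
        rw [mul_inv_cancel, d.one, ha.2, one_mul] at this
        exact this.symm⟩ }
  have hle : commutator S ≤ K₁ := by
    rw [commutator_def, Subgroup.commutator_le]
    intro x _ y _
    exact ⟨comm_mem d x y, h4 x y⟩
  exact hg1 (hle hg).2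

end LData

end LData

end Cfsg.Agent.Lib.ClassSizes.S3F
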