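import Mathlib
import Cfsg.Agent.Lib.ClassSizes.S3F4

/-!
# Fixed-point-free actions of the symmetric group of degree three: the metabelian core
-/

namespace Cfsg.Agent.Lib.ClassSizes.S3F

open scoped commutatorElement

namespace Ctx

variable {S : Type*} [Group S] [Finite S] {F W : Type*} [Field F] [AddCommGroup W] [Module F W]
  {c : Ctx S F W}

lemma ρ_mul_apply (c : Ctx S F W) (x y : S) (v : W) : c.ρ (x * y) v = c.ρ x (c.ρ y v) := by
  rw [map_mul, Module.End.mul_apply]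

lemma ρ_one_apply (c : Ctx S F W) (v : W) : c.ρ 1 v = v := by
  rw [map_one, Module.End.one_apply]

lemma ρ_inv_apply (c : Ctx S F W) (x : S) (v : W) : c.ρ x⁻¹ (c.ρ x v) = v := by
  rw [← ρ_mul_apply, inv_mul_cancel, ρ_one_apply]

lemma ρ_apply_inv (c : Ctx S F W) (x : S) (v : W) : c.ρ x (c.ρ x⁻¹ v) = v := by
  rw [← ρ_mul_apply, mul_inv_cancel, ρ_one_apply]

lemma ρ_inj (c : Ctx S F W) (x : S) : Function.Injective (c.ρ x) := by
  intro v w h
  have := congrArg (c.ρ x⁻¹) h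
  rwa [ρ_inv_apply, ρ_inv_apply] at this

lemma ρ_ne_zero (c : Ctx S F W) (x : S) {v : W} (h0 : v ≠ 0) : c.ρ x v ≠ 0 := by
  intro h
  apply h0
  apply c.ρ_inj x
  rw [h, map_zero]

lemma wt_mul {μ : S → F} {v : W} (hv : c.IsW μ v) (h0 : v ≠ 0) {n k : S}
    (hn : n ∈ commutator S) (hk : k ∈ commutator S) : μ (n * k) = μ n * μ k := by
  have h1 := hv _ ((commutator S).mul_mem hn hk)
  rw [ρ_mul_apply, hv k hk, map_smul, hv n hn, smul_smul] at h1
  rw [mul_comm]
  exact (smul_left_injective F h0 h1).symm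

lemma wt_one {μ : S → F} {v : W} (hv : c.IsW μ v) (h0 : v ≠ 0) : μ 1 = 1 := by
  have h1 := hv 1 (commutator S).one_mem
  rw [ρ_one_apply] at h1
  have h2 : (1 : F) • v = μ 1 • v := by rw [one_smul]; exact h1
  exact (smul_left_injective F h0 h2).symm

lemma wt_pow {μ : S → F} {v : W} (hv : c.IsW μ v) (h0 : v ≠ 0) {n : S}
    (hn : n ∈ commutator S) (k : ℕ) : μ (n ^ k) = μ n ^ k := by
  induction k with
  | zero => simpa using wt_one hv h0
  | succ k ih =>
    rw [pow_succ, wt_mul hv h0 ((commutator S).pow_mem hn k) hn, ih, pow_succ]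

lemma wt_pow1 {μ : S → F} {v : W} (hv : c.IsW μ v) (h0 : v ≠ 0) {n : S}
    (hn : n ∈ commutator S) (k : ℕ) (hk : (Nat.card S).Coprime k) (h : μ n ^ k = 1) : μ n = 1 := by
  obtain ⟨s, hs⟩ := exists_root_exp k hk
  have h1 := hs n
  have h2 : μ ((n ^ k) ^ s) = (μ n ^ k) ^ s := by
    rw [wt_pow hv h0 ((commutator S).pow_mem hn k), wt_pow hv h0 hn]
  rw [h1, h, one_pow] at h2
  exact h2

/-- A weight fixed by the whole of `S₃` is trivial. -/
lemma all_trivial (hc : (Nat.card S).Coprime 6)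
    (hN : ∀ x ∈ commutator S, ∀ y ∈ commutator S, x * y = y * x)
    {μ : S → F} {v : W} (hv : c.IsW μ v) (h0 : v ≠ 0) (h1 : c.FA μ) (h2 : c.FB μ)
    {n : S} (hn : n ∈ commutator S) : μ n = 1 := by
  apply wt_pow1 hv h0 hn 6 hc
  have hb := S3A.comm_mem_a (φ := c.σ.b) hn
  have hc₁ : n * c.σ.b n ∈ commutator S := (commutator S).mul_mem hn hb
  have hbc : c.σ.b (n * c.σ.b n) = n * c.σ.b n := by
    rw [map_mul, c.σ.b2, hN _ hb _ hn]
  have h3 := c.σ.norm_fixed hN hc₁ hbc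
  have ha := S3A.comm_mem_a (φ := c.σ.a) hc₁
  have haa := S3A.comm_mem_a (φ := c.σ.a) ha
  have h4 := congrArg μ h3
  rw [wt_mul hv h0 ((commutator S).mul_mem hc₁ ha) haa, wt_mul hv h0 hc₁ ha, h1 _ ha, h1 _ hc₁,
    wt_mul hv h0 hn hb, h2 n hn, wt_one hv h0] at h4
  rw [← h4]; ring

/-- The conjugated weight. -/
def conjW (x : S) (μ : S → F) : S → F := fun n => μ (x⁻¹ * n * x)

lemma conj_mem (x : S) {n : S} (hn : n ∈ commutator S) : x⁻¹ * n * x ∈ commutator S := by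
  simpa using S3A.conj_comm (y := x⁻¹) hn

lemma wt_conj {μ : S → F} {v : W} (hv : c.IsW μ v) (x : S) : c.IsW (conjW x μ) (c.ρ x v) := by
  intro n hn
  have e : n * x = x * (x⁻¹ * n * x) := by group
  rw [← ρ_mul_apply, e, ρ_mul_apply, hv _ (conj_mem x hn), map_smul]
  rfl

/-- Trivial action of `b` on the whole orbit is impossible. -/
theorem inv_case (hc : (Nat.card S).Coprime 6)
    (hN : ∀ x ∈ commutator S, ∀ y ∈ commutator S, x * y = y * x)
    {lam : S → F} {v : W} (hv : c.IsW lam v) (h0 : v ≠ 0) {g : S} (hg : g ∈ commutator S)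
    (hg1 : lam g ≠ 1) (hb : ∀ x, c.FB (conjW x lam)) : False := by
  have hnA : ∀ x, ¬ c.FA (conjW x lam) := by
    intro x h
    have h1 := all_trivial hc hN (wt_conj hv x) (c.ρ_ne_zero x h0) h (hb x)
      (S3A.conj_comm (y := x) hg)
    apply hg1
    simpa [conjW, mul_assoc] using h1
  have hR : ∀ x, c.ρ x v + c.B (c.ρ x v) = 0 := fun x =>
    R_b (wt_conj hv x) (hnA x) (hb x) (fun h => hnA x (FB_FAB (hb x) h))
      (fun h => hnA x (FB_FAAB (hb x) h))
  have hBv : c.B v = -v := by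
    have := hR 1
    rw [ρ_one_apply] at this
    exact (eq_neg_of_add_eq_zero_right this)
  have key : ∀ x, c.ρ (c.σ.b x) v = c.ρ x v := by
    intro x
    have h1 := hR x
    rw [c.Bρ, hBv, map_neg] at h1
    exact (sub_eq_zero.1 (by rw [sub_eq_add_neg]; exact h1)).symm
  let J : Subgroup S :=
    { carrier := {k | ∀ x, c.ρ k (c.ρ x v) = c.ρ x v}
      one_mem' := fun x => c.ρ_one_apply _
      mul_mem' := fun {k k'} hk hk' x => by
        rw [ρ_mul_apply, hk' x, hk x]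
      inv_mem' := fun {k} hk x => by
        conv_lhs => rw [← hk x]
        rw [ρ_inv_apply] }
  have hJmem : ∀ k, k ∈ J ↔ ∀ x, c.ρ k (c.ρ x v) = c.ρ x v := fun _ => Iff.rfl
  have hJn : J.Normal := ⟨fun k hk y x => by
    rw [ρ_mul_apply, ρ_mul_apply, ← ρ_mul_apply c y⁻¹ x, hk (y⁻¹ * x), ρ_mul_apply, ρ_apply_inv]⟩
  let π : S →* S ⧸ J := QuotientGroup.mk' J
  have hπs : Function.Surjective π := QuotientGroup.mk'_surjective J
  have hπ : ∀ x, π (c.σ.b x) = π x := by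
    intro x
    apply QuotientGroup.eq.2
    intro y
    have e1 : c.ρ x (c.ρ y v) = c.ρ (c.σ.b x) (c.ρ y v) := by
      rw [← ρ_mul_apply, ← key (x * y), map_mul, ρ_mul_apply, key]
    rw [ρ_mul_apply, e1, ρ_inv_apply]
  have hab := c.σ.bf_main hc hN π hπ hπs
  have hle : commutator S ≤ J := by
    rw [commutator_def, Subgroup.commutator_le]
    intro x _ y _
    have h1 := hab (π x) (π y)
    have h2 : π (⁅x, y⁆) = 1 := by
      rw [commutatorElement_def, map_mul, map_mul, map_mul, map_inv, map_inv, h1]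
      simp [mul_assoc]
    exact (QuotientGroup.eq_one_iff _).1 h2
  have h1 := hle hg 1
  rw [ρ_one_apply, hv g hg] at h1
  apply hg1
  have h2 : lam g • v = (1 : F) • v := by rw [one_smul]; exact h1
  exact smul_left_injective F h0 h2

/-- If `a` fixes the whole orbit, the weight is invariant. -/
theorem a_case_inv (hc : (Nat.card S).Coprime 6)
    (hN : ∀ x ∈ commutator S, ∀ y ∈ commutator S, x * y = y * x)
    {lam : S → F} {v : W} (hv : c.IsW lam v) (h0 : v ≠ 0)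
    (ha : ∀ x, c.FA (conjW x lam)) : ∀ x, ∀ n ∈ commutator S, lam (x⁻¹ * n * x) = lam n := by
  have hFA : c.FA lam := by
    intro n hn
    have := ha 1 n hn
    simpa [conjW] using this
  have hconj1 : ∀ x, ∀ n ∈ commutator S, lam (x⁻¹ * c.σ.a (c.σ.a n) * x) = lam (x⁻¹ * n * x) := by
    intro x n hn
    have h1 := ha x _ (S3A.comm_mem_a (φ := c.σ.a) hn)
    have h2 := ha x n hn
    simp only [conjW] at h1 h2
    rw [h1, h2]
  let H : Subgroup S :=
    { carrier := {x | ∀ n ∈ commutator S, lam (x⁻¹ * n * x) = lam n}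
      one_mem' := fun n _ => by simp
      mul_mem' := fun {x y} hx hy n hn => by
        have e : (x * y)⁻¹ * n * (x * y) = y⁻¹ * (x⁻¹ * n * x) * y := by group
        rw [e, hy _ (conj_mem x hn), hx n hn]
      inv_mem' := fun {x} hx n hn => by
        have h1 := hx _ (S3A.conj_comm (y := x) hn)
        have e : x⁻¹ * (x * n * x⁻¹) * x = n := by group
        rw [e] at h1
        simpa using h1.symm }
  have hHa : ∀ h ∈ H, c.σ.a h ∈ H := by
    intro h hh n hn
    have hm : c.σ.a (c.σ.a n) ∈ commutator S := S3A.comm_mem_a (S3A.comm_mem_a hn)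
    have e : (c.σ.a h)⁻¹ * n * c.σ.a h = c.σ.a (h⁻¹ * c.σ.a (c.σ.a n) * h) := by
      simp only [map_mul, map_inv, c.σ.a3]
    rw [e, hFA _ (conj_mem h hm), hh _ hm, hFA _ (S3A.comm_mem_a (φ := c.σ.a) hn), hFA n hn]
  have hHx : ∀ x, x⁻¹ * c.σ.a x ∈ H := by
    intro x n hn
    have hm : x * n * x⁻¹ ∈ commutator S := S3A.conj_comm hn
    have hm2 : c.σ.a (c.σ.a (x * n * x⁻¹)) ∈ commutator S := S3A.comm_mem_a (S3A.comm_mem_a hm)
    have e : (x⁻¹ * c.σ.a x)⁻¹ * n * (x⁻¹ * c.σ.a x)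
        = c.σ.a (x⁻¹ * c.σ.a (c.σ.a (x * n * x⁻¹)) * x) := by
      simp only [map_mul, map_inv, c.σ.a3]
      group
    rw [e, hFA _ (conj_mem x hm2), hconj1 x _ hm]
    congr 1
    group
  intro x
  obtain ⟨y, hy, hxy⟩ := c.σ.lift_a hc H hHa x (hHx x)
  have hyH : y ∈ H := by
    intro n hn
    have han := S3A.comm_mem_a (φ := c.σ.a) hn
    have haan := S3A.comm_mem_a (φ := c.σ.a) han
    -- the norm of `n` is fixed by `a` and hence commutes with `y`.
    have hfa : c.σ.a (n * c.σ.a n * c.σ.a (c.σ.a n)) = n * c.σ.a n * c.σ.a (c.σ.a n) := by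
      rw [map_mul, map_mul, c.σ.a3, mul_assoc (c.σ.a n), hN _ haan _ hn, ← mul_assoc,
        hN _ han _ hn]
    have hf : n * c.σ.a n * c.σ.a (c.σ.a n) ∈ commutator S :=
      (commutator S).mul_mem ((commutator S).mul_mem hn han) haan
    have hcomm := c.σ.fixA_comm hy hfa
    have hwt := wt_conj hv y
    have hwt0 := c.ρ_ne_zero y h0
    have h1 : conjW y lam (n * c.σ.a n * c.σ.a (c.σ.a n)) = lam (n * c.σ.a n * c.σ.a (c.σ.a n)) := by
      simp only [conjW]
      congr 1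
      rw [mul_assoc, ← hcomm]; group
    rw [wt_mul hwt hwt0 ((commutator S).mul_mem hn han) haan, wt_mul hwt hwt0 hn han,
      wt_mul hv h0 ((commutator S).mul_mem hn han) haan, wt_mul hv h0 hn han] at h1
    have h2 := ha y
    rw [h2 _ han, h2 n hn, hFA _ han, hFA n hn] at h1
    -- the ratio
    have hinvn : n⁻¹ ∈ commutator S := (commutator S).inv_mem hn
    have hr : y⁻¹ * n * y * n⁻¹ ∈ commutator S := (commutator S).mul_mem (conj_mem y hn) hinvn
    have h3 : lam (y⁻¹ * n * y) = lam (y⁻¹ * n * y * n⁻¹) * lam n := by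
      rw [← wt_mul hv h0 hr hn]; congr 1; group
    have hne : lam n ≠ 0 := by
      intro h4
      have h5 := wt_mul hv h0 hn hinvn
      rw [mul_inv_cancel, wt_one hv h0, h4, zero_mul] at h5
      exact one_ne_zero h5
    have h4 : lam (y⁻¹ * n * y * n⁻¹) ^ 3 = 1 := by
      have h5 : conjW y lam n = lam (y⁻¹ * n * y) := rfl
      rw [h5, h3] at h1
      have h6 : (lam (y⁻¹ * n * y * n⁻¹) ^ 3 - 1) * lam n ^ 3 = 0 := by
        linear_combination h1
      have h7 := (mul_eq_zero.1 h6).resolve_right (pow_ne_zero _ hne)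
      exact sub_eq_zero.1 h7
    have h5 := wt_pow1 hv h0 hr 3 (S3A.coprime3 hc) h4
    rw [h3, h5, one_mul]
  have e : x = y * (x⁻¹ * y)⁻¹ := by group
  rw [e]
  exact H.mul_mem hyH (H.inv_mem hxy)

/-- The invariant weight case is impossible. -/
theorem a_case_final [IsAlgClosed F] [FiniteDimensional F W] (hc : (Nat.card S).Coprime 6)
    {lam : S → F} {v₀ : W} (hv₀ : c.IsW lam v₀) (h0 : v₀ ≠ 0) {g : S} (hg : g ∈ commutator S)
    (hg1 : lam g ≠ 1) (hinv : ∀ x, ∀ n ∈ commutator S, lam (x⁻¹ * n * x) = lam n)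
    (hFA : c.FA lam) (hFB : ¬ c.FB lam) (hFAB : ¬ c.FAB lam) (hFAAB : ¬ c.FAAB lam) : False := by
  classical
  have d : LData c.σ lam :=
    { m := fun _ hn _ hk => wt_mul hv₀ h0 hn hk
      one := wt_one hv₀ h0
      pow1 := fun _ hn k hk h => wt_pow1 hv₀ h0 hn k hk h
      inv := hinv
      fa := hFA }
  -- the weight space
  let M : Submodule F W :=
    { carrier := {w | c.IsW lam w}
      zero_mem' := fun n _ => by simp
      add_mem' := fun {w w'} hw hw' n hn => by rw [map_add, hw n hn, hw' n hn, smul_add]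
      smul_mem' := fun r w hw n hn => by rw [map_smul, hw n hn, smul_comm] }
  have hMmem : ∀ w, w ∈ M ↔ c.IsW lam w := fun _ => Iff.rfl
  have hMρ : ∀ x, ∀ w ∈ M, c.ρ x w ∈ M := by
    intro x w hw n hn
    rw [wt_conj hw x n hn]
    simp only [conjW, hinv x n hn]
  have hMA : ∀ w ∈ M, c.A w ∈ M := by
    intro w hw n hn
    rw [wt_A hw n hn]
    simp only [hFA _ (S3A.comm_mem_a (φ := c.σ.a) hn), hFA n hn]
  have hop : ∀ x y, ∀ w ∈ M, c.ρ x (c.ρ y w) = LL lam x y • c.ρ y (c.ρ x w) := by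
    intro x y w hw
    have hm : c.ρ y (c.ρ x w) ∈ M := hMρ y _ (hMρ x w hw)
    have h1 := hm _ (d.comm_mem x y)
    have e : (x * y * x⁻¹ * y⁻¹) * (y * x) = x * y := by simp [mul_assoc]
    calc c.ρ x (c.ρ y w) = c.ρ (x * y) w := (ρ_mul_apply c x y w).symm
      _ = c.ρ ((x * y * x⁻¹ * y⁻¹) * (y * x)) w := by rw [e]
      _ = c.ρ (x * y * x⁻¹ * y⁻¹) (c.ρ y (c.ρ x w)) := by
          rw [ρ_mul_apply c (x * y * x⁻¹ * y⁻¹) (y * x), ρ_mul_apply c y x]
      _ = _ := h1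
  obtain ⟨x₀, hx₀⟩ := d.exists_ne hc hg hg1
  set ζ := LL lam x₀ (c.σ.a x₀) with hζdef
  have hζ0 : ζ ≠ 0 := d.L_ne_zero _ _
  have hζ2 : ζ ^ 2 ≠ 1 := fun h => hx₀ (d.L_pow1 _ _ 2 (S3A.coprime2 hc) h)
  have hζ3 : ζ ^ 3 ≠ 1 := fun h => hx₀ (d.L_pow1 _ _ 3 (S3A.coprime3 hc) h)
  set f := x₀ * c.σ.a x₀ * c.σ.a (c.σ.a x₀) with hf
  have hLf : ∀ y, LL lam f y = 1 := fun y => d.L_norm hc x₀ y
  have hLf' : ∀ y, LL lam y f = 1 := fun y => by
    have := d.L_swap f y
    rw [hLf y, mul_one] at this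
    exact this
  have hM0 : M ≠ ⊥ := by
    rw [Submodule.ne_bot_iff]
    exact ⟨v₀, hv₀, h0⟩
  -- common eigenvector
  obtain ⟨v, hv, hv0, hvs⟩ := common_eig ({c.ρ x₀, c.ρ f} : Finset (Module.End F W)) M hM0
    (by
      intro T hT u hu
      simp only [Finset.mem_insert, Finset.mem_singleton] at hT
      rcases hT with rfl | rfl
      · exact hMρ _ u hu
      · exact hMρ _ u hu)
    (by
      intro T hT T' hT' u hu
      simp only [Finset.mem_insert, Finset.mem_singleton] at hT hT'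
      have h1 := hop x₀ f u hu
      rw [hLf', one_smul] at h1
      rcases hT with rfl | rfl <;> rcases hT' with rfl | rfl
      · rfl
      · exact h1
      · exact h1.symm
      · rfl)
  obtain ⟨τ, hτ⟩ := hvs (c.ρ x₀) (by simp)
  obtain ⟨s₀, hs₀⟩ := hvs (c.ρ f) (by simp)
  have hτ0 : τ ≠ 0 := by
    rintro rfl
    rw [zero_smul] at hτ
    apply hv0
    apply c.ρ_inj x₀
    rw [hτ, map_zero]
  -- `A` commutes with `ρ f` on the weight space.
  have hAf : ∀ w ∈ M, c.A (c.ρ f w) = c.ρ f (c.A w) := by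
    intro w hw
    rw [c.Aρ]
    have hAw := hMA w hw
    have e : c.σ.a f = x₀⁻¹ * f * x₀ := by
      rw [hf]
      simp only [map_mul, c.σ.a3]
      group
    rw [e, ρ_mul_apply, ρ_mul_apply]
    have h1 := hop f x₀ _ hAw
    rw [hLf, one_smul] at h1
    rw [h1, ρ_inv_apply]
  have hAv := hMA v hv
  have hAAv := hMA _ hAv
  have hRa := R_a hv hFA hFB hFAB hFAAB
  -- eigenvector relations
  have hY1 : c.ρ (c.σ.a x₀) (c.A v) = τ • c.A v := by
    rw [← c.Aρ, hτ, map_smul]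
  have hU2 : c.ρ (c.σ.a (c.σ.a x₀)) (c.A (c.A v)) = τ • c.A (c.A v) := by
    rw [← c.Aρ, hY1, map_smul]
  have hs2 : c.ρ f (c.A (c.A v)) = s₀ • c.A (c.A v) := by
    rw [← hAf _ hAv, ← hAf _ hv, hs₀, map_smul, map_smul]
  have hfact : c.ρ f (c.A (c.A v)) = τ • c.ρ x₀ (c.ρ (c.σ.a x₀) (c.A (c.A v))) := by
    rw [hf, ρ_mul_apply, ρ_mul_apply, hU2, map_smul, map_smul]
  -- apply the key lemma
  have hAAeq : c.A (c.A v) = (- c.A v) - v := by
    have := hRa
    have h1 : c.A (c.A v) = -(v + c.A v) := eq_neg_of_add_eq_zero_right this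
    rw [h1]; abel
  have hfinal := K_lemma (c.ρ x₀) (c.ρ (c.σ.a x₀)) ζ τ s₀ M (hMρ _)
    (fun w hw => hop x₀ (c.σ.a x₀) w hw) (c.ρ_inj _) hτ0 hζ0 hx₀ hζ2 hζ3 v (- c.A v) hv
    (M.neg_mem hAv) hτ (by rw [map_neg, hY1, smul_neg])
    (by
      rw [← hAAeq, ← hfact, hs2])
  exact hv0 hfinal

end Ctx

end Cfsg.Agent.Lib.ClassSizes.S3F
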