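import Mathlib
import Cfsg.Agent.Lib.ClassSizes.S3F5

/-!
# Fixed-point-free actions of the symmetric group of degree three: the core theorem
-/

namespace Cfsg.Agent.Lib.ClassSizes.S3F

open scoped commutatorElement Pointwise

section Cover

variable {S : Type*} [Group S] [Finite S] {F : Type*} [Field F]

/-- The stabilizer in the group of a weight on the derived subgroup. -/
def stabH (lam : S → F) : Subgroup S where
  carrier := {x | ∀ n ∈ commutator S, lam (x⁻¹ * n * x) = lam n}
  one_mem' := fun n _ => by simp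
  mul_mem' := fun {x y} hx hy n hn => by
    have e : (x * y)⁻¹ * n * (x * y) = y⁻¹ * (x⁻¹ * n * x) * y := by group
    rw [e, hy _ (Ctx.conj_mem x hn), hx n hn]
  inv_mem' := fun {x} hx n hn => by
    have h1 := hx _ (S3A.conj_comm (y := x) hn)
    have e : x⁻¹ * (x * n * x⁻¹) * x = n := by group
    rw [e] at h1
    simpa using h1.symm

lemma mem_stabH {lam : S → F} {x : S} :
    x ∈ stabH lam ↔ ∀ n ∈ commutator S, lam (x⁻¹ * n * x) = lam n := Iff.rfl

variable {lam : S → F} (hN : ∀ x ∈ commutator S, ∀ y ∈ commutator S, x * y = y * x)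

include hN in
lemma comm_le_stabH : commutator S ≤ stabH lam := by
  intro m hm n hn
  congr 1
  rw [mul_assoc, hN n hn m hm]
  simp

include hN in
lemma stabH_normal : (stabH lam).Normal := by
  refine ⟨fun h hh y => ?_⟩
  have e : y * h * y⁻¹ = (y * h * y⁻¹ * h⁻¹) * h := by group
  rw [e]
  exact (stabH lam).mul_mem (comm_le_stabH hN
    (Subgroup.commutator_mem_commutator (Subgroup.mem_top y) (Subgroup.mem_top h))) hh

lemma conj_eq_iff (y z : S) :
    (∀ n ∈ commutator S, lam (y⁻¹ * n * y) = lam (z⁻¹ * n * z)) ↔ y⁻¹ * z ∈ stabH lam := by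
  constructor
  · intro h n hn
    have h1 := h _ (S3A.conj_comm (y := y) hn)
    have e1 : y⁻¹ * (y * n * y⁻¹) * y = n := by group
    have e2 : z⁻¹ * (y * n * y⁻¹) * z = (y⁻¹ * z)⁻¹ * n * (y⁻¹ * z) := by group
    rw [e1, e2] at h1
    exact h1.symm
  · intro h n hn
    have h1 := h _ (Ctx.conj_mem y hn)
    have e : (y⁻¹ * z)⁻¹ * (y⁻¹ * n * y) * (y⁻¹ * z) = z⁻¹ * n * z := by group
    rw [e] at h1
    exact h1.symm

include hN in
lemma conj_swap (x u : S) (n : S) (hn : n ∈ commutator S) :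
    lam ((x * u)⁻¹ * n * (x * u)) = lam ((u * x)⁻¹ * n * (u * x)) := by
  refine (conj_eq_iff (x * u) (u * x)).2 ?_ n hn
  apply comm_le_stabH hN
  have e : (x * u)⁻¹ * (u * x) = u⁻¹ * x⁻¹ * u⁻¹⁻¹ * x⁻¹⁻¹ := by group
  rw [e]
  exact Subgroup.commutator_mem_commutator (Subgroup.mem_top _) (Subgroup.mem_top _)

/-- The set of elements whose conjugate weight is fixed. -/
def TT (lam : S → F) (φ : S ≃* S) (x : S) : Prop :=
  ∀ n ∈ commutator S, lam (x⁻¹ * φ n * x) = lam (x⁻¹ * n * x)

/-- The subgroup governing the coset structure. -/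
def EE (lam : S → F) (hn : (stabH lam).Normal) (φ : S ≃* S) : Subgroup S where
  carrier := {u | u⁻¹ * φ.symm u ∈ stabH lam}
  one_mem' := by simp [Subgroup.one_mem]
  mul_mem' := fun {u v} hu hv => by
    have e : (u * v)⁻¹ * φ.symm (u * v)
        = (v⁻¹ * (u⁻¹ * φ.symm u) * v) * (v⁻¹ * φ.symm v) := by
      rw [map_mul]; group
    simp only [Set.mem_setOf_eq] at hu hv ⊢
    rw [e]
    refine (stabH lam).mul_mem ?_ hv
    simpa using hn.conj_mem _ hu v⁻¹
  inv_mem' := fun {u} hu => by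
    simp only [Set.mem_setOf_eq] at hu ⊢
    have e : u⁻¹⁻¹ * φ.symm u⁻¹ = u * (u⁻¹ * φ.symm u)⁻¹ * u⁻¹ := by
      rw [map_inv]; group
    rw [e]
    exact hn.conj_mem _ ((stabH lam).inv_mem hu) u

include hN in
lemma TT_iff (hn : (stabH lam).Normal) (φ : S ≃* S) {x₀ : S} (h0 : TT lam φ x₀) (u : S) :
    TT lam φ (x₀ * u) ↔ u ∈ EE lam hn φ := by
  set w := φ.symm u with hw
  have hφw : φ w = u := by simp [hw]
  have h1 : ∀ n ∈ commutator S, lam ((x₀ * u)⁻¹ * φ n * (x₀ * u))
      = lam ((w * x₀)⁻¹ * n * (w * x₀)) := by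
    intro n hn'
    rw [conj_swap (lam := lam) hN x₀ u _ (S3A.comm_mem_a hn')]
    have e : (u * x₀)⁻¹ * φ n * (u * x₀) = x₀⁻¹ * φ (w⁻¹ * n * w) * x₀ := by
      simp only [map_mul, map_inv, hφw]; group
    rw [e, h0 _ (Ctx.conj_mem w hn')]
    congr 1; group
  have h2 : TT lam φ (x₀ * u) ↔ ∀ n ∈ commutator S,
      lam ((w * x₀)⁻¹ * n * (w * x₀)) = lam ((u * x₀)⁻¹ * n * (u * x₀)) := by
    constructor
    · intro h n hn'
      rw [← h1 n hn', h n hn', conj_swap (lam := lam) hN x₀ u n hn']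
    · intro h n hn'
      rw [h1 n hn', h n hn', conj_swap (lam := lam) hN x₀ u n hn']
  rw [h2, conj_eq_iff]
  change _ ↔ u⁻¹ * w ∈ stabH lam
  have e : (w * x₀)⁻¹ * (u * x₀) = x₀⁻¹ * (u⁻¹ * w)⁻¹ * x₀⁻¹⁻¹ := by group
  rw [e]
  constructor
  · intro h
    have h3 := hn.conj_mem _ h x₀
    have e3 : x₀ * (x₀⁻¹ * (u⁻¹ * w)⁻¹ * x₀⁻¹⁻¹) * x₀⁻¹ = (u⁻¹ * w)⁻¹ := by group
    rw [e3] at h3
    simpa using (stabH lam).inv_mem h3
  · intro h
    have h3 := hn.conj_mem _ ((stabH lam).inv_mem h) x₀⁻¹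
    exact h3

include hN in
/-- Neumann's covering lemma applied to weights. -/
theorem one_fixes_all (hc : (Nat.card S).Coprime 6) (φ : Fin 4 → S ≃* S)
    (hcov : ∀ x, ∃ i, TT lam (φ i) x) : ∃ i, ∀ x, TT lam (φ i) x := by
  classical
  have hn : (stabH lam).Normal := stabH_normal hN
  let s : Finset (Fin 4) := Finset.univ.filter fun i => ∃ x, TT lam (φ i) x
  let g : Fin 4 → S := fun i => if h : ∃ x, TT lam (φ i) x then h.choose else 1
  have hg : ∀ i ∈ s, TT lam (φ i) (g i) := by
    intro i hi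
    have h : ∃ x, TT lam (φ i) x := (Finset.mem_filter.1 hi).2
    simp only [g, dif_pos h]
    exact h.choose_spec
  have hcovers : ⋃ i ∈ s, (g i) • ((EE lam hn (φ i) : Subgroup S) : Set S) = Set.univ := by
    rw [Set.eq_univ_iff_forall]
    intro y
    obtain ⟨j, hj⟩ := hcov y
    have hjs : j ∈ s := Finset.mem_filter.2 ⟨Finset.mem_univ _, y, hj⟩
    simp only [Set.mem_iUnion]
    refine ⟨j, hjs, ?_⟩
    rw [Set.mem_smul_set]
    refine ⟨(g j)⁻¹ * y, ?_, by simp⟩
    have := (TT_iff hN hn (φ j) (hg j hjs) ((g j)⁻¹ * y)).1 (by simpa using hj)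
    exact this
  obtain ⟨i, his, -, hidx⟩ := Subgroup.exists_index_le_card_of_leftCoset_cover hcovers
  have hcard : s.card ≤ 4 := by
    calc s.card ≤ (Finset.univ : Finset (Fin 4)).card := Finset.card_le_card (Finset.filter_subset _ _)
      _ = 4 := by simp
  have hdvd : (EE lam hn (φ i)).index ∣ Nat.card S := Subgroup.index_dvd_card _
  have hpos : (EE lam hn (φ i)).index ≠ 0 := Subgroup.index_ne_zero_of_finite
  have hle : (EE lam hn (φ i)).index ≤ 4 := hidx.trans hcard
  have h1 : (EE lam hn (φ i)).index = 1 := by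
    have h2 : ∀ k : ℕ, k ∣ 6 → k ≠ 1 → ¬ k ∣ (EE lam hn (φ i)).index := by
      intro k hk hk1 hd
      exact hk1 (Nat.eq_one_of_dvd_coprimes hc (hd.trans hdvd) hk)
    set k := (EE lam hn (φ i)).index with hk
    have h22 := h2 2 (by norm_num) (by norm_num)
    have h33 := h2 3 (by norm_num) (by norm_num)
    interval_cases k
    · exact absurd rfl hpos
    · rfl
    · exact absurd (dvd_refl _) h22
    · exact absurd (dvd_refl _) h33
    · exact absurd (by norm_num) h22
  have htop : EE lam hn (φ i) = ⊤ := Subgroup.index_eq_one.1 h1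
  refine ⟨i, fun x => ?_⟩
  have h3 : (g i)⁻¹ * x ∈ EE lam hn (φ i) := by rw [htop]; exact Subgroup.mem_top _
  have h4 := (TT_iff hN hn (φ i) (hg i his) ((g i)⁻¹ * x)).2 h3
  simpa using h4

end Cover

namespace S3A

variable {G : Type*} [Group G]

/-- Restriction to an invariant subgroup. -/
def sub (σ : S3A G) (D : Subgroup G) (h : σ.Inv D) : S3A D where
  a :=
    { toFun := fun x => ⟨σ.a x, h.1 _ x.2⟩
      invFun := fun x => ⟨σ.a (σ.a x), h.1 _ (h.1 _ x.2)⟩
      left_inv := fun x => Subtype.ext (σ.a3 x)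
      right_inv := fun x => Subtype.ext (σ.a3 x)
      map_mul' := fun x y => Subtype.ext (map_mul σ.a _ _) }
  b :=
    { toFun := fun x => ⟨σ.b x, h.2 _ x.2⟩
      invFun := fun x => ⟨σ.b x, h.2 _ x.2⟩
      left_inv := fun x => Subtype.ext (σ.b2 x)
      right_inv := fun x => Subtype.ext (σ.b2 x)
      map_mul' := fun x y => Subtype.ext (map_mul σ.b _ _) }
  a3 := fun x => Subtype.ext (σ.a3 x)
  b2 := fun x => Subtype.ext (σ.b2 x)
  ba := fun x => Subtype.ext (σ.ba x)
  fpf := fun x h1 h2 => Subtype.ext (σ.fpf x (congrArg Subtype.val h1) (congrArg Subtype.val h2))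

@[simp] lemma sub_a_coe (σ : S3A G) (D : Subgroup G) (h : σ.Inv D) (x : D) :
    ((σ.sub D h).a x : G) = σ.a x := rfl
@[simp] lemma sub_b_coe (σ : S3A G) (D : Subgroup G) (h : σ.Inv D) (x : D) :
    ((σ.sub D h).b x : G) = σ.b x := rfl

end S3A

namespace Ctx

variable {F W : Type*} [Field F] [AddCommGroup W] [Module F W]

/-- Restriction of the context to an invariant subgroup. -/
def sub {S : Type*} [Group S] (c : Ctx S F W) (D : Subgroup S) (h : c.σ.Inv D) : Ctx D F W where
  σ := c.σ.sub D h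
  ρ := c.ρ.comp D.subtype
  A := c.A
  B := c.B
  A3 := c.A3
  B2 := c.B2
  BA := c.BA
  Aρ := fun k v => c.Aρ k.1 v
  Bρ := fun k v => c.Bρ k.1 v
  hP := c.hP

/-- The metabelian core: the derived subgroup is trivial. -/
theorem core_meta {S : Type*} [Group S] [Finite S] [IsAlgClosed F] [FiniteDimensional F W]
    (c : Ctx S F W) (hc : (Nat.card S).Coprime 6)
    (hN : ∀ x ∈ commutator S, ∀ y ∈ commutator S, x * y = y * x)
    (hinj : Function.Injective c.ρ)
    (hord : ∀ x ∈ commutator S, ((orderOf x : ℕ) : F) ≠ 0) :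
    ∀ x ∈ commutator S, x = 1 := by
  by_contra hcon
  push Not at hcon
  obtain ⟨g, hg, hg1⟩ := hcon
  have hρg : c.ρ g ≠ 1 := by
    intro h
    apply hg1
    apply hinj
    rw [h, map_one]
  obtain ⟨v, h0, lam, hv, hlam⟩ := exists_wt_vec c.ρ (commutator S) hN hg hρg (hord g hg)
  have hv' : c.IsW lam v := hv
  let φ : Fin 4 → S ≃* S := ![c.σ.a, c.σ.b, c.σ.rot.b, c.σ.rot.rot.b]
  have hcov : ∀ x, ∃ i, TT lam (φ i) x := by
    intro x
    by_contra hno
    push Not at hno
    apply c.ρ_ne_zero x h0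
    refine R_none (wt_conj hv' x) ?_ ?_ ?_ ?_
    · exact hno 0
    · exact hno 1
    · exact hno 2
    · exact hno 3
  obtain ⟨i, hi⟩ := one_fixes_all hN hc φ hcov
  have hnAll : ¬ (c.FA lam ∧ c.FB lam) := by
    rintro ⟨h1, h2⟩
    exact hlam (all_trivial hc hN hv' h0 h1 h2 hg)
  fin_cases i
  · -- the order three element fixes everything
    have ha : ∀ x, c.FA (conjW x lam) := hi
    have hinv := a_case_inv hc hN hv' h0 ha
    have hFA : c.FA lam := by
      intro n hn
      have := ha 1 n hn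
      simpa [conjW] using this
    exact a_case_final hc hv' h0 hg hlam hinv hFA (fun h => hnAll ⟨hFA, h⟩)
      (fun h => hnAll ⟨hFA, FA_FAB hFA h⟩) (fun h => hnAll ⟨hFA, FA_FAAB hFA h⟩)
  · exact inv_case hc hN hv' h0 hg hlam hi
  · exact inv_case (c := c.rot) hc hN hv' h0 hg hlam hi
  · exact inv_case (c := c.rot.rot) hc hN hv' h0 hg hlam hi

/-- The core theorem. -/
theorem core.{u} [IsAlgClosed F] [FiniteDimensional F W] : ∀ (m : ℕ) (S : Type u) [Group S]
    [Finite S] [Group.IsSolvable S] (c : Ctx S F W), Nat.card S = m → (Nat.card S).Coprime 6 →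
    Function.Injective c.ρ → (∀ x ∈ commutator S, ((orderOf x : ℕ) : F) ≠ 0) →
    ∀ x y : S, x * y = y * x := by
  intro m
  induction m using Nat.strong_induction_on with
  | _ m ih =>
    intro S _ _ _ c hm hc hinj hord
    by_cases hS : Subsingleton S
    · intro x y; exact Subsingleton.elim _ _
    have hnt : Nontrivial S := not_subsingleton_iff_nontrivial.1 hS
    have hlt : commutator S < ⊤ := IsSolvable.commutator_lt_top_of_nontrivial S
    have hcard : Nat.card (commutator S) < m := by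
      rw [← hm]
      exact lt_of_le_of_ne (Subgroup.card_le_card_group _)
        (fun h => hlt.ne (Subgroup.eq_top_of_card_eq _ h))
    have hinv := c.σ.inv_commutator
    have hab := ih _ hcard (commutator S) (c.sub (commutator S) hinv) rfl
      (Nat.Coprime.coprime_dvd_left (Subgroup.card_subgroup_dvd_card _) hc)
      (fun x y h => Subtype.ext (hinj h))
      (fun x _ => by
        have := hord x.1 x.2
        rwa [Subgroup.orderOf_coe] at this)
    have hN : ∀ x ∈ commutator S, ∀ y ∈ commutator S, x * y = y * x := by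
      intro x hx y hy
      have := hab ⟨x, hx⟩ ⟨y, hy⟩
      exact congrArg Subtype.val this
    have h1 := core_meta c hc hN hinj hord
    intro x y
    have h2 := h1 _ (Subgroup.commutator_mem_commutator (Subgroup.mem_top x) (Subgroup.mem_top y))
    exact commutatorElement_eq_one_iff_mul_comm.1 h2

end Ctx

end Cfsg.Agent.Lib.ClassSizes.S3F
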