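import Mathlib
import Cfsg.Agent.Lib.ClassSizes.S3F6
import Cfsg.Agent.Lib.PGroup.HHDescent

/-!
# Fixed-point-free actions of the symmetric group of degree three: from elementary abelian groups
to modules over an algebraically closed field
-/

namespace Cfsg.Agent.Lib.ClassSizes.S3F

open Cfsg.Agent.Lib.PGroup.HH

section Bridge

variable {q : ℕ} [Fact q.Prime] {E : Type*} [AddCommGroup E] [Module (ZMod q) E]
  {K : Type*} [Group K]

/-- The scalar extended context. -/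
noncomputable def mkCtx (σ : S3A K) (ρ₀ : K →* Module.End (ZMod q) E)
    (A₀ B₀ : Module.End (ZMod q) E)
    (hA3 : A₀ * (A₀ * A₀) = 1) (hB2 : B₀ * B₀ = 1) (hBA : B₀ * A₀ = A₀ * (A₀ * B₀))
    (hAρ : ∀ k, A₀ * ρ₀ k = ρ₀ (σ.a k) * A₀) (hBρ : ∀ k, B₀ * ρ₀ k = ρ₀ (σ.b k) * B₀)
    (hP : 1 + A₀ + A₀ * A₀ + B₀ + A₀ * B₀ + A₀ * (A₀ * B₀) = 0) : Ctx K (Kr q) (Wr q E) where
  σ := σ
  ρ := (bcM q E).comp ρ₀
  A := bcM q E A₀
  B := bcM q E B₀
  A3 := fun v => by
    have h := congrArg (bcM q E) hA3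
    rw [map_mul, map_mul, map_one] at h
    exact LinearMap.congr_fun h v
  B2 := fun v => by
    have h := congrArg (bcM q E) hB2
    rw [map_mul, map_one] at h
    exact LinearMap.congr_fun h v
  BA := fun v => by
    have h := congrArg (bcM q E) hBA
    rw [map_mul, map_mul, map_mul] at h
    exact LinearMap.congr_fun h v
  Aρ := fun k v => by
    have h := congrArg (bcM q E) (hAρ k)
    rw [map_mul, map_mul] at h
    exact LinearMap.congr_fun h v
  Bρ := fun k v => by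
    have h := congrArg (bcM q E) (hBρ k)
    rw [map_mul, map_mul] at h
    exact LinearMap.congr_fun h v
  hP := fun v => by
    have h := congrArg (bcE q E) hP
    simp only [map_add, map_mul, map_one, map_zero] at h
    exact LinearMap.congr_fun h v

/-- The abstract bridge, for a commutative group with a module structure. -/
theorem abstract_core₀ {T : Type*} [CommGroup T] [Finite T] [Module (ZMod q) (Additive T)]
    [Finite K] [Group.IsSolvable K] (σ : S3A K) (hc : (Nat.card K).Coprime 6)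
    (ψ : K →* MulAut T) (hψ : Function.Injective ψ) (a₀ b₀ : T ≃* T)
    (hA3 : ∀ t, a₀ (a₀ (a₀ t)) = t) (hB2 : ∀ t, b₀ (b₀ t) = t)
    (hBA : ∀ t, b₀ (a₀ t) = a₀ (a₀ (b₀ t)))
    (hAψ : ∀ k t, a₀ (ψ k t) = ψ (σ.a k) (a₀ t)) (hBψ : ∀ k t, b₀ (ψ k t) = ψ (σ.b k) (b₀ t))
    (hP : ∀ t, t * a₀ t * a₀ (a₀ t) * b₀ t * a₀ (b₀ t) * a₀ (a₀ (b₀ t)) = 1)
    (hord : ∀ x ∈ commutator K, ((orderOf x : ℕ) : Kr q) ≠ 0) :
    ∀ x y : K, x * y = y * x := by
  let toL : (T ≃* T) → (Additive T →ₗ[ZMod q] Additive T) := fun e =>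
    (MonoidHom.toAdditive e.toMonoidHom).toZModLinearMap q
  have toL_apply : ∀ (e : T ≃* T) (x : Additive T), toL e x = Additive.ofMul (e x.toMul) :=
    fun _ _ => rfl
  let ρ₀ : K →* Module.End (ZMod q) (Additive T) :=
    { toFun := fun k => toL (ψ k)
      map_one' := by
        apply LinearMap.ext
        intro x
        rw [toL_apply, map_one]
        rfl
      map_mul' := fun k k' => by
        apply LinearMap.ext
        intro x
        rw [toL_apply, map_mul]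
        rfl }
  have ρ₀_apply : ∀ (k : K) (x : Additive T), ρ₀ k x = Additive.ofMul (ψ k x.toMul) :=
    fun _ _ => rfl
  have hρ₀ : Function.Injective ρ₀ := by
    intro k k' h
    apply hψ
    ext t
    have := LinearMap.congr_fun h (Additive.ofMul t)
    rw [ρ₀_apply, ρ₀_apply] at this
    exact this
  let c : Ctx K (Kr q) (Wr q (Additive T)) := mkCtx σ ρ₀ (toL a₀) (toL b₀)
    (by apply LinearMap.ext; intro x; exact congrArg Additive.ofMul (hA3 x.toMul))
    (by apply LinearMap.ext; intro x; exact congrArg Additive.ofMul (hB2 x.toMul))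
    (by apply LinearMap.ext; intro x; exact congrArg Additive.ofMul (hBA x.toMul))
    (fun k => by apply LinearMap.ext; intro x; exact congrArg Additive.ofMul (hAψ k x.toMul))
    (fun k => by apply LinearMap.ext; intro x; exact congrArg Additive.ofMul (hBψ k x.toMul))
    (by apply LinearMap.ext; intro x; exact congrArg Additive.ofMul (hP x.toMul))
  have hinj : Function.Injective c.ρ := by
    intro k k' h
    apply hρ₀
    exact bcM_inj q (Additive T) h
  exact Ctx.core _ K c rfl hc hinj hord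

/-- The abstract bridge, for a commutative group of exponent `q`. -/
theorem abstract_core₁ {T : Type*} [CommGroup T] [Finite T] (hq : ∀ t : T, t ^ q = 1)
    [Finite K] [Group.IsSolvable K] (σ : S3A K) (hc : (Nat.card K).Coprime 6)
    (ψ : K →* MulAut T) (hψ : Function.Injective ψ) (a₀ b₀ : T ≃* T)
    (hA3 : ∀ t, a₀ (a₀ (a₀ t)) = t) (hB2 : ∀ t, b₀ (b₀ t) = t)
    (hBA : ∀ t, b₀ (a₀ t) = a₀ (a₀ (b₀ t)))
    (hAψ : ∀ k t, a₀ (ψ k t) = ψ (σ.a k) (a₀ t)) (hBψ : ∀ k t, b₀ (ψ k t) = ψ (σ.b k) (b₀ t))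
    (hP : ∀ t, t * a₀ t * a₀ (a₀ t) * b₀ t * a₀ (b₀ t) * a₀ (a₀ (b₀ t)) = 1)
    (hord : ∀ x ∈ commutator K, ((orderOf x : ℕ) : Kr q) ≠ 0) :
    ∀ x y : K, x * y = y * x := by
  letI iM : Module (ZMod q) (Additive T) := AddCommGroup.zmodModule (n := q) (fun x => by
    change Additive.ofMul (x.toMul ^ q) = 0
    rw [hq]; rfl)
  exact abstract_core₀ σ hc ψ hψ a₀ b₀ hA3 hB2 hBA hAψ hBψ hP hord

/-- The same for a group given with a commutativity hypothesis. -/
theorem abstract_core {T : Type*} [Group T] [Finite T] (hT : ∀ x y : T, x * y = y * x)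
    (hq : ∀ t : T, t ^ q = 1)
    [Finite K] [Group.IsSolvable K] (σ : S3A K) (hc : (Nat.card K).Coprime 6)
    (ψ : K →* MulAut T) (hψ : Function.Injective ψ) (a₀ b₀ : T ≃* T)
    (hA3 : ∀ t, a₀ (a₀ (a₀ t)) = t) (hB2 : ∀ t, b₀ (b₀ t) = t)
    (hBA : ∀ t, b₀ (a₀ t) = a₀ (a₀ (b₀ t)))
    (hAψ : ∀ k t, a₀ (ψ k t) = ψ (σ.a k) (a₀ t)) (hBψ : ∀ k t, b₀ (ψ k t) = ψ (σ.b k) (b₀ t))
    (hP : ∀ t, t * a₀ t * a₀ (a₀ t) * b₀ t * a₀ (b₀ t) * a₀ (a₀ (b₀ t)) = 1)
    (hord : ∀ x ∈ commutator K, ((orderOf x : ℕ) : Kr q) ≠ 0) :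
    ∀ x y : K, x * y = y * x := by
  letI iC : CommGroup T := { (inferInstance : Group T) with mul_comm := hT }
  exact abstract_core₁ hq σ hc ψ hψ a₀ b₀ hA3 hB2 hBA hAψ hBψ hP hord

end Bridge

end Cfsg.Agent.Lib.ClassSizes.S3F
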