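import Mathlib
import Cfsg.Agent.Lib.ClassSizes.S3F7
import Cfsg.Agent.Lib.Core.Basic

/-!
# Fixed-point-free actions of the symmetric group of degree three: the main induction
-/

namespace Cfsg.Agent.Lib.ClassSizes.S3F

open Cfsg.Agent.Lib.PGroup.HH Cfsg.Agent.Lib.Core
open scoped commutatorElement

namespace S3A

variable {G : Type*} [Group G]

lemma Inv.map_a {σ : S3A G} {D : Subgroup G} (h : σ.Inv D) : D.map (σ.a : G →* G) = D := by
  apply le_antisymm
  · rintro _ ⟨x, hx, rfl⟩
    exact h.1 x hx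
  · intro x hx
    exact ⟨σ.a (σ.a x), h.1 _ (h.1 _ hx), σ.a3 x⟩

lemma Inv.map_b {σ : S3A G} {D : Subgroup G} (h : σ.Inv D) : D.map (σ.b : G →* G) = D := by
  apply le_antisymm
  · rintro _ ⟨x, hx, rfl⟩
    exact h.2 x hx
  · intro x hx
    exact ⟨σ.b x, h.2 _ hx, σ.b2 x⟩

variable [Finite G]

/-- The action on a quotient by an invariant normal subgroup. -/
def quot (σ : S3A G) (D : Subgroup G) [D.Normal] (h : σ.Inv D) (hc : (Nat.card G).Coprime 6) :
    S3A (G ⧸ D) where
  a := QuotientGroup.congr D D σ.a h.map_a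
  b := QuotientGroup.congr D D σ.b h.map_b
  a3 := fun x => by
    induction x using QuotientGroup.induction_on with
    | H x => simp only [QuotientGroup.congr_mk, σ.a3]
  b2 := fun x => by
    induction x using QuotientGroup.induction_on with
    | H x => simp only [QuotientGroup.congr_mk, σ.b2]
  ba := fun x => by
    induction x using QuotientGroup.induction_on with
    | H x => simp only [QuotientGroup.congr_mk, σ.ba]
  fpf := fun x h1 h2 => by
    induction x using QuotientGroup.induction_on with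
    | H x =>
      rw [QuotientGroup.congr_mk] at h1 h2
      have h3 : x⁻¹ * σ.a x ∈ D := QuotientGroup.eq.1 h1.symm
      have h4 : x⁻¹ * σ.b x ∈ D := QuotientGroup.eq.1 h2.symm
      exact (QuotientGroup.eq_one_iff x).2 (σ.fpf_mod hc D h x h3 h4)

lemma quot_a_mk (σ : S3A G) (D : Subgroup G) [D.Normal] (h : σ.Inv D)
    (hc : (Nat.card G).Coprime 6) (x : G) :
    (σ.quot D h hc).a (x : G ⧸ D) = ((σ.a x : G) : G ⧸ D) := rfl

lemma quot_b_mk (σ : S3A G) (D : Subgroup G) [D.Normal] (h : σ.Inv D)
    (hc : (Nat.card G).Coprime 6) (x : G) :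
    (σ.quot D h hc).b (x : G ⧸ D) = ((σ.b x : G) : G ⧸ D) := rfl

lemma centralizer_inv (σ : S3A G) {N : Subgroup G} (hN : σ.Inv N) :
    σ.Inv (Subgroup.centralizer (N : Set G)) := by
  constructor
  · intro x hx
    rw [Subgroup.mem_centralizer_iff] at hx ⊢
    intro n hn
    have hm : σ.a (σ.a n) ∈ N := hN.1 _ (hN.1 _ hn)
    have h1 := hx _ hm
    have h2 := congrArg σ.a h1
    rwa [map_mul, map_mul, σ.a3] at h2
  · intro x hx
    rw [Subgroup.mem_centralizer_iff] at hx ⊢
    intro n hn
    have hm : σ.b n ∈ N := hN.2 _ hn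
    have h1 := hx _ hm
    have h2 := congrArg σ.b h1
    rwa [map_mul, map_mul, σ.b2] at h2

/-- Minimal invariant normal subgroups. -/
def MinN (σ : S3A G) (N : Subgroup G) : Prop :=
  Minimal (fun D : Subgroup G => D.Normal ∧ σ.Inv D ∧ D ≠ ⊥) N

lemma exists_minN (σ : S3A G) [Nontrivial G] : ∃ N, σ.MinN N := by
  have hne : ({D : Subgroup G | D.Normal ∧ σ.Inv D ∧ D ≠ ⊥}).Nonempty :=
    ⟨⊤, inferInstance, ⟨fun _ _ => trivial, fun _ _ => trivial⟩, top_ne_bot⟩
  obtain ⟨N, hN⟩ := (Set.toFinite {D : Subgroup G | D.Normal ∧ σ.Inv D ∧ D ≠ ⊥}).exists_minimal hne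
  exact ⟨N, hN⟩

variable {σ : S3A G} {N : Subgroup G}

lemma MinN.normal (h : σ.MinN N) : N.Normal := h.1.1
lemma MinN.inv (h : σ.MinN N) : σ.Inv N := h.1.2.1
lemma MinN.ne_bot (h : σ.MinN N) : N ≠ ⊥ := h.1.2.2
lemma MinN.eq_of_le (h : σ.MinN N) {D : Subgroup G} (h1 : D.Normal) (h2 : σ.Inv D) (h3 : D ≠ ⊥)
    (h4 : D ≤ N) : D = N :=
  le_antisymm h4 (h.2 ⟨h1, h2, h3⟩ h4)

lemma MinN.comm [Group.IsSolvable G] (h : σ.MinN N) : ∀ x ∈ N, ∀ y ∈ N, x * y = y * x := by
  haveI := h.normal
  have hlt := Group.IsSolvable.commutator_lt_of_ne_bot h.ne_bot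
  have hinv : σ.Inv ⁅N, N⁆ := by
    constructor
    · have h1 : (⁅N, N⁆).map (σ.a : G →* G) ≤ ⁅N, N⁆ := by
        rw [Subgroup.map_commutator, h.inv.map_a]
      intro x hx
      exact h1 ⟨x, hx, rfl⟩
    · have h1 : (⁅N, N⁆).map (σ.b : G →* G) ≤ ⁅N, N⁆ := by
        rw [Subgroup.map_commutator, h.inv.map_b]
      intro x hx
      exact h1 ⟨x, hx, rfl⟩
  have hbot : ⁅N, N⁆ = ⊥ := by
    by_contra hne
    exact hlt.ne (h.eq_of_le inferInstance hinv hne hlt.le)
  intro x hx y hy
  have h2 : ⁅x, y⁆ ∈ ⁅N, N⁆ := Subgroup.commutator_mem_commutator hx hy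
  rw [hbot, Subgroup.mem_bot] at h2
  exact commutatorElement_eq_one_iff_mul_comm.1 h2

lemma MinN.exists_q [Group.IsSolvable G] (h : σ.MinN N) :
    ∃ q : ℕ, q.Prime ∧ q ∣ Nat.card N ∧ ∀ x ∈ N, x ^ q = 1 := by
  haveI := h.normal
  have hcomm := h.comm
  have hnt : Nontrivial N := (Subgroup.nontrivial_iff_ne_bot N).2 h.ne_bot
  have h1 : Nat.card N ≠ 1 := by
    intro h2
    have := Nat.card_eq_one_iff_unique.1 h2
    exact not_subsingleton N this.1
  let q := (Nat.card N).minFac
  have hq : q.Prime := Nat.minFac_prime h1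
  have hqd : q ∣ Nat.card N := Nat.minFac_dvd _
  refine ⟨q, hq, hqd, ?_⟩
  let Ω : Subgroup G :=
    { carrier := {x | x ∈ N ∧ x ^ q = 1}
      one_mem' := ⟨N.one_mem, one_pow _⟩
      mul_mem' := fun {x y} hx hy => ⟨N.mul_mem hx.1 hy.1, by
        have hc : Commute x y := hcomm x hx.1 y hy.1
        rw [hc.mul_pow, hx.2, hy.2, one_mul]⟩
      inv_mem' := fun {x} hx => ⟨N.inv_mem hx.1, by rw [inv_pow, hx.2, inv_one]⟩ }
  have hΩ : Ω ≠ ⊥ := by
    haveI : Fact q.Prime := ⟨hq⟩
    obtain ⟨x, hx⟩ := exists_prime_orderOf_dvd_card' (G := N) q hqd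
    rw [Subgroup.ne_bot_iff_exists_ne_one]
    have hx1 : (x : G) ^ q = 1 := by
      have := pow_orderOf_eq_one x
      rw [hx] at this
      exact congrArg Subtype.val this
    refine ⟨⟨x.1, x.2, hx1⟩, ?_⟩
    intro h0
    have h3 : (x : G) = 1 := congrArg (fun z : Ω => (z : G)) h0
    have h2 : x = 1 := Subtype.ext h3
    rw [h2, orderOf_one] at hx
    exact hq.one_lt.ne hx
  have hΩn : Ω.Normal := ⟨fun x hx g => ⟨h.normal.conj_mem x hx.1 g, by
    rw [conj_pow, hx.2]; simp⟩⟩
  have hΩi : σ.Inv Ω :=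
    ⟨fun x hx => ⟨h.inv.1 x hx.1, by rw [← map_pow, hx.2, map_one]⟩,
     fun x hx => ⟨h.inv.2 x hx.1, by rw [← map_pow, hx.2, map_one]⟩⟩
  have hle : Ω ≤ N := fun x hx => hx.1
  have heq := h.eq_of_le hΩn hΩi hΩ hle
  intro x hx
  rw [← heq] at hx
  exact hx.2

section Rep

variable (N) in
/-- The conjugation action of the quotient by the centralizer. -/
noncomputable def psi [N.Normal] : G ⧸ Subgroup.centralizer (N : Set G) →* MulAut N :=
  QuotientGroup.lift _ MulAut.conjNormal (by
    intro x hx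
    rw [MonoidHom.mem_ker]
    ext n
    rw [MulAut.conjNormal_apply, MulAut.one_apply]
    have := Subgroup.mem_centralizer_iff.1 hx n n.2
    rw [← this]; simp)

lemma psi_mk [N.Normal] (g : G) (n : N) :
    ((psi N (g : G ⧸ Subgroup.centralizer (N : Set G)) n : N) : G) = g * n * g⁻¹ :=
  MulAut.conjNormal_apply g n

variable (N) in
lemma psi_inj [N.Normal] : Function.Injective (psi N) := by
  rw [injective_iff_map_eq_one]
  intro k hk
  induction k using QuotientGroup.induction_on with
  | H g =>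
    apply (QuotientGroup.eq_one_iff g).2
    rw [Subgroup.mem_centralizer_iff]
    intro n hn
    have h1 := psi_mk g ⟨n, hn⟩
    rw [hk] at h1
    have h2 : n = g * n * g⁻¹ := h1
    calc n * g = (g * n * g⁻¹) * g := by rw [← h2]
      _ = g * n := by group

/-- Normal `q`-subgroups act trivially on a minimal invariant normal `q`-subgroup. -/
theorem pCore_K_bot (h : σ.MinN N) [N.Normal] (hc : (Nat.card G).Coprime 6) (q : ℕ) [Fact q.Prime]
    (hqd : q ∣ Nat.card N) : pCore q (G ⧸ Subgroup.centralizer (N : Set G)) = ⊥ := by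
  have hinvC := σ.centralizer_inv h.inv
  set C := Subgroup.centralizer (N : Set G) with hC
  let σK := σ.quot C hinvC hc
  set Y := pCore q (G ⧸ C) with hY
  have hYp : IsPGroup q Y := pCore_isPGroup q _
  have hYa : ∀ y ∈ Y, σK.a y ∈ Y := by
    intro y hy
    have h1 := map_pCore_equiv (p := q) σK.a
    rw [← hY] at h1
    rw [← h1]
    exact ⟨y, hy, rfl⟩
  have hYb : ∀ y ∈ Y, σK.b y ∈ Y := by
    intro y hy
    have h1 := map_pCore_equiv (p := q) σK.b
    rw [← hY] at h1
    rw [← h1]
    exact ⟨y, hy, rfl⟩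
  let X : Subgroup G := Y.comap (QuotientGroup.mk' C)
  have hXmem : ∀ x, x ∈ X ↔ (x : G ⧸ C) ∈ Y := fun _ => Iff.rfl
  have hXn : X.Normal := Subgroup.Normal.comap inferInstance _
  have hXi : σ.Inv X :=
    ⟨fun x hx => hYa _ hx, fun x hx => hYb _ hx⟩
  let D : Subgroup G := N ⊓ Subgroup.centralizer (X : Set G)
  have hDn : D.Normal := Subgroup.normal_inf_normal _ _
  have hDi : σ.Inv D :=
    ⟨fun x hx => ⟨h.inv.1 x hx.1, (σ.centralizer_inv hXi).1 x hx.2⟩,
     fun x hx => ⟨h.inv.2 x hx.1, (σ.centralizer_inv hXi).2 x hx.2⟩⟩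
  have hDne : D ≠ ⊥ := by
    letI : MulAction Y N := MulAction.compHom N ((psi N).comp Y.subtype)
    have hfix1 : (1 : N) ∈ MulAction.fixedPoints Y N := fun y => map_one (psi N y.1)
    obtain ⟨b, hb, hne⟩ := hYp.exists_fixed_point_of_prime_dvd_card_of_fixed_point N hqd hfix1
    rw [Subgroup.ne_bot_iff_exists_ne_one]
    refine ⟨⟨b.1, b.2, Subgroup.mem_centralizer_iff.2 ?_⟩, ?_⟩
    · intro x hx
      have h1 : psi N ((x : G) : G ⧸ C) b = b := hb ⟨_, hx⟩
      have h2 := psi_mk x b
      rw [h1] at h2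
      have h3 : (b : G) = x * b * x⁻¹ := h2
      calc x * (b : G) = (x * b * x⁻¹) * x := by group
        _ = b * x := by rw [← h3]
    · intro h0
      apply hne
      apply Subtype.ext
      have h3 : (b : G) = 1 := congrArg (fun z : D => (z : G)) h0
      exact h3.symm
  have heq := h.eq_of_le hDn hDi hDne inf_le_left
  have hNX : N ≤ Subgroup.centralizer (X : Set G) := by
    rw [← heq]; exact inf_le_right
  have hXC : X ≤ C := by
    rw [hC, Subgroup.le_centralizer_iff]
    exact hNX
  rw [eq_bot_iff]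
  intro y hy
  induction y using QuotientGroup.induction_on with
  | H g =>
    rw [Subgroup.mem_bot]
    exact (QuotientGroup.eq_one_iff g).2 (hXC hy)

/-- In a nilpotent normal subgroup no element has order divisible by `q` if the `q`-core
is trivial. -/
theorem hord_of_nilp {K : Type*} [Group K] [Finite K] (q : ℕ) [Fact q.Prime]
    (hbot : pCore q K = ⊥) (hn : Group.IsNilpotent (commutator K)) :
    ∀ x ∈ commutator K, ((orderOf x : ℕ) : Kr q) ≠ 0 := by
  intro x hx h0
  rw [CharP.cast_eq_zero_iff (Kr q) q] at h0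
  let x' : commutator K := ⟨x, hx⟩
  have hord : orderOf x' = orderOf x := Subgroup.orderOf_mk x hx
  rw [← hord] at h0
  have hqp : (q : ℕ).Prime := Fact.out
  let y : commutator K := x' ^ (orderOf x' / q)
  have hy : orderOf y = q := orderOf_pow_orderOf_div (orderOf_pos x').ne' h0
  have hpg : IsPGroup q (Subgroup.zpowers y) := by
    apply IsPGroup.of_card (n := 1)
    rw [Nat.card_zpowers, hy, pow_one]
  obtain ⟨P, hP⟩ := hpg.exists_le_sylow
  have hPn : (P : Subgroup (commutator K)).Normal := inferInstance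
  have hc : (P : Subgroup (commutator K)).Characteristic := Sylow.characteristic_of_normal P hPn
  have hnorm : ((P : Subgroup (commutator K)).map (commutator K).subtype).Normal :=
    ConjAct.normal_of_characteristic_of_normal
  have hle := le_pCore hnorm (P.isPGroup'.map _)
  rw [hbot, le_bot_iff] at hle
  have hyP : y ∈ (P : Subgroup (commutator K)) := hP (Subgroup.mem_zpowers y)
  have hy1 : (y : K) ∈ (P : Subgroup (commutator K)).map (commutator K).subtype :=
    ⟨y, hyP, rfl⟩
  rw [hle, Subgroup.mem_bot] at hy1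
  have hy2 : y = 1 := Subtype.ext hy1
  rw [hy2, orderOf_one] at hy
  exact hqp.one_lt.ne hy

end Rep

/-- The full norm vanishes on an abelian group. -/
lemma norm6 {T : Type*} [Group T] (τ : S3A T) (hT : ∀ x y : T, x * y = y * x) (t : T) :
    t * τ.a t * τ.a (τ.a t) * τ.b t * τ.a (τ.b t) * τ.a (τ.a (τ.b t)) = 1 := by
  haveI : Std.Commutative (α := T) (· * ·) := ⟨hT⟩
  apply τ.fpf
  · simp only [map_mul, τ.a3]
    ac_rfl
  · simp only [map_mul, τ.ba, τ.b2, τ.a3]
    ac_rfl

end S3A

open S3A in
/-- **The main theorem**. -/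
theorem main.{u} : ∀ (m : ℕ) (G : Type u) [Group G] [Finite G] [Group.IsSolvable G] (σ : S3A G),
    Nat.card G = m → (Nat.card G).Coprime 6 → Group.IsNilpotent (commutator G) := by
  intro m
  induction m using Nat.strong_induction_on with
  | _ m ih =>
    intro G _ _ _ σ hm hc
    by_cases hS : Subsingleton G
    · infer_instance
    have hnt : Nontrivial G := not_subsingleton_iff_nontrivial.1 hS
    obtain ⟨N, h⟩ := σ.exists_minN
    haveI hNn : N.Normal := h.normal
    obtain ⟨q, hq, hqd, hqx⟩ := h.exists_q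
    haveI : Fact q.Prime := ⟨hq⟩
    have hcomm := h.comm
    have hinvC := σ.centralizer_inv h.inv
    have hquot : ∀ (D : Subgroup G), D ≠ ⊥ → Nat.card (G ⧸ D) < m := by
      intro D hD
      rw [← hm, D.card_eq_card_quotient_mul_card_subgroup]
      have h1 : 1 < Nat.card D := by
        have : Nontrivial D := (Subgroup.nontrivial_iff_ne_bot D).2 hD
        exact Finite.one_lt_card
      have h2 : 0 < Nat.card (G ⧸ D) := Nat.card_pos
      nlinarith
    have hNC : N ≤ Subgroup.centralizer (N : Set G) := by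
      rw [Subgroup.le_centralizer_iff]
      intro x hx y hy
      exact hcomm y hy x hx
    have hCne : Subgroup.centralizer (N : Set G) ≠ ⊥ := by
      intro h0
      rw [h0, le_bot_iff] at hNC
      exact h.ne_bot hNC
    let σK := σ.quot (Subgroup.centralizer (N : Set G)) hinvC hc
    have hcK : (Nat.card (G ⧸ Subgroup.centralizer (N : Set G))).Coprime 6 :=
      Nat.Coprime.coprime_dvd_left (Subgroup.card_quotient_dvd_card _) hc
    have hKn := ih _ (hquot _ hCne) (G ⧸ Subgroup.centralizer (N : Set G)) σK rfl hcK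
    have hbot := pCore_K_bot h hc q hqd
    have hord := hord_of_nilp q hbot hKn
    let σN := σ.sub N h.inv
    have hT : ∀ x y : N, x * y = y * x := fun x y =>
      Subtype.ext (hcomm x.1 x.2 y.1 y.2)
    have habK := abstract_core (q := q) (T := N) hT
      (fun t => Subtype.ext (hqx t.1 t.2)) σK hcK (psi N) (psi_inj N) σN.a σN.b σN.a3 σN.b2 σN.ba
      (fun k t => by
        induction k using QuotientGroup.induction_on with
        | H g =>
          apply Subtype.ext
          have e1 := psi_mk g t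
          have e2 := psi_mk (σ.a g) (σN.a t)
          change σ.a ((psi N (g : G ⧸ Subgroup.centralizer (N : Set G)) t : N) : G) = _
          rw [e1]
          refine Eq.trans ?_ e2.symm
          simp only [map_mul, map_inv]
          rfl)
      (fun k t => by
        induction k using QuotientGroup.induction_on with
        | H g =>
          apply Subtype.ext
          have e1 := psi_mk g t
          have e2 := psi_mk (σ.b g) (σN.b t)
          change σ.b ((psi N (g : G ⧸ Subgroup.centralizer (N : Set G)) t : N) : G) = _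
          rw [e1]
          refine Eq.trans ?_ e2.symm
          simp only [map_mul, map_inv]
          rfl)
      (fun t => norm6 σN hT t) hord
    have hGC : commutator G ≤ Subgroup.centralizer (N : Set G) := by
      rw [commutator_def, Subgroup.commutator_le]
      intro x _ y _
      have h1 := habK (x : G ⧸ Subgroup.centralizer (N : Set G)) y
      have h2 : ((⁅x, y⁆ : G) : G ⧸ Subgroup.centralizer (N : Set G)) = 1 := by
        rw [commutatorElement_def]
        simp only [QuotientGroup.mk_mul, QuotientGroup.mk_inv]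
        rw [h1]
        simp [mul_assoc]
      exact (QuotientGroup.eq_one_iff _).1 h2
    -- the quotient by `N`
    let σQ := σ.quot N h.inv hc
    have hcQ : (Nat.card (G ⧸ N)).Coprime 6 :=
      Nat.Coprime.coprime_dvd_left (Subgroup.card_quotient_dvd_card _) hc
    haveI hQn := ih _ (hquot _ h.ne_bot) (G ⧸ N) σQ rfl hcQ
    have hmem : ∀ x : commutator G, ((x : G) : G ⧸ N) ∈ commutator (G ⧸ N) := by
      intro x
      have h1 : (commutator G).map (QuotientGroup.mk' N) ≤ commutator (G ⧸ N) := by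
        rw [commutator_def, Subgroup.map_commutator]
        exact Subgroup.commutator_mono le_top le_top
      exact h1 ⟨x.1, x.2, rfl⟩
    let f : commutator G →* commutator (G ⧸ N) :=
      ((QuotientGroup.mk' N).comp (commutator G).subtype).codRestrict _ hmem
    have hker : f.ker ≤ Subgroup.center (commutator G) := by
      intro x hx
      rw [MonoidHom.mem_ker] at hx
      have h1 : ((x : G) : G ⧸ N) = 1 := congrArg Subtype.val hx
      have h2 : (x : G) ∈ N := (QuotientGroup.eq_one_iff _).1 h1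
      rw [Subgroup.mem_center_iff]
      intro y
      apply Subtype.ext
      have h3 := Subgroup.mem_centralizer_iff.1 (hGC y.2) x.1 h2
      exact h3.symm
    exact isNilpotent_of_ker_le_center f hker

end Cfsg.Agent.Lib.ClassSizes.S3F
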